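import Cfsg.Agent.Lib.Geometric.SLThree.Restrict

/-!
The centraliser of a homology in a subgroup without transvections, as a linear group on the axis.
-/

set_option autoImplicit false
set_option linter.unusedSectionVars false
set_option linter.style.haveILetI false

namespace CfsgLib.Geometric.SLThree

open Matrix MulAction

variable {F : Type*} [Field F]

/-- Two elements with two common invariant lines commute, without transvections. -/
lemma NoTv.comm_of_two {H : Subgroup (GL (Fin 3) F)} (hT : NoTv H) {x y : GL (Fin 3) F}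
    (hx : x ∈ H) (hy : y ∈ H) {v₁ v₂ : Fin 3 → F} (hli : LinearIndependent F ![v₁, v₂])
    {a₁ a₂ b₁ b₂ : F} (hx1 : ap x v₁ = a₁ • v₁) (hx2 : ap x v₂ = a₂ • v₂)
    (hy1 : ap y v₁ = b₁ • v₁) (hy2 : ap y v₂ = b₂ • v₂) : x * y = y * x := by
  classical
  set W := Submodule.span F ({v₁, v₂} : Set (Fin 3 → F)) with hW
  have hfin : Module.finrank F W = 2 := by
    have := finrank_span_eq_card hli
    rw [Fintype.card_fin] at this
    have e : Set.range ![v₁, v₂] = ({v₁, v₂} : Set (Fin 3 → F)) := by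
      rw [Matrix.range_cons, Matrix.range_cons, Matrix.range_empty, Set.union_empty,
        Set.singleton_union]
    rw [e] at this
    rw [hW, this]
  obtain ⟨u, hu⟩ : ∃ u, u ∉ W := by
    by_contra hc
    push Not at hc
    have : W = ⊤ := eq_top_iff.mpr fun z _ => hc z
    rw [this, finrank_top, Module.finrank_fin_fun] at hfin
    omega
  obtain ⟨χ, hχW, hχu⟩ := exists_functional_eq_one hu
  have hker : ∀ z, χ z = 0 → z ∈ W := by
    have hle : W ≤ LinearMap.ker χ := fun z hz => hχW z hz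
    have h1 := LinearMap.finrank_range_add_finrank_ker χ
    rw [LinearMap.range_eq_top.mpr (fun a => ⟨a • u, by simp [hχu]⟩), finrank_top,
      Module.finrank_self, Module.finrank_fin_fun] at h1
    have := Submodule.eq_of_le_of_finrank_eq hle (by omega)
    intro z hz
    rw [this]; exact hz
  have hne1 : v₁ ≠ 0 := hli.ne_zero 0
  have hne2 : v₂ ≠ 0 := hli.ne_zero 1
  -- the action on the quotient
  have quot : ∀ (g : GL (Fin 3) F) (p q : F), ap g v₁ = p • v₁ → ap g v₂ = q • v₂ →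
      ∀ z, χ (ap g z) = χ (ap g u) * χ z := by
    intro g p q hp hq z
    obtain ⟨r, r', hr⟩ := Submodule.mem_span_pair.mp (hker (z - χ z • u) (by simp [hχu]))
    have hz : z = r • v₁ + r' • v₂ + χ z • u := by rw [hr, sub_add_cancel]
    have h1 : χ v₁ = 0 := hχW _ (Submodule.subset_span (by simp))
    have h2 : χ v₂ = 0 := hχW _ (Submodule.subset_span (by simp))
    conv_lhs => rw [hz]
    simp only [ap_add, ap_smul, hp, hq, map_add, map_smul, h1, h2, smul_eq_mul]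
    ring
  set k := x * y * x⁻¹ * y⁻¹ with hk
  have inv_eig : ∀ {g : GL (Fin 3) F} {v : Fin 3 → F} {a : F}, v ≠ 0 → ap g v = a • v →
      a ≠ 0 ∧ ap g⁻¹ v = a⁻¹ • v := fun hv h => ⟨smul_ap_mem h hv, ap_inv_of_eig h (smul_ap_mem h hv)⟩
  obtain ⟨ha1, hxi1⟩ := inv_eig hne1 hx1
  obtain ⟨ha2, hxi2⟩ := inv_eig hne2 hx2
  obtain ⟨hb1, hyi1⟩ := inv_eig hne1 hy1
  obtain ⟨hb2, hyi2⟩ := inv_eig hne2 hy2
  have hk1 : ap k v₁ = v₁ := by
    simp only [hk, ap_mul, hyi1, ap_smul, hxi1, hy1, hx1, smul_smul]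
    rw [show b₁⁻¹ * (a₁⁻¹ * (b₁ * a₁)) = 1 by field_simp, one_smul]
  have hk2 : ap k v₂ = v₂ := by
    simp only [hk, ap_mul, hyi2, ap_smul, hxi2, hy2, hx2, smul_smul]
    rw [show b₂⁻¹ * (a₂⁻¹ * (b₂ * a₂)) = 1 by field_simp, one_smul]
  have hq : ∀ z, χ (ap k z) = χ z := by
    intro z
    have e1 := quot x _ _ hx1 hx2 (ap x⁻¹ (ap y⁻¹ z))
    have e2 := quot y _ _ hy1 hy2 (ap y⁻¹ z)
    rw [ap_ap_inv] at e1 e2
    simp only [hk, ap_mul]
    rw [quot x _ _ hx1 hx2, quot y _ _ hy1 hy2, e2, e1]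
    ring
  have hw : χ (ap k u - u) = 0 := by rw [map_sub, hq, sub_self]
  have he : k = tv (ap k u - u) χ hw := gl_ext fun z => by
    obtain ⟨r, r', hr⟩ := Submodule.mem_span_pair.mp (hker (z - χ z • u) (by simp [hχu]))
    have hz : z = r • v₁ + r' • v₂ + χ z • u := by rw [hr, sub_add_cancel]
    rw [ap_tv]
    nth_rewrite 1 [hz]
    nth_rewrite 2 [hz]
    simp only [ap_add, ap_smul, hk1, hk2]
    module
  have hmem : k ∈ H := mul_mem (mul_mem (mul_mem hx hy) (inv_mem hx)) (inv_mem hy)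
  have h1 := hT.eq_one (h := hw) (he ▸ hmem)
  rw [← he, hk, mul_inv_eq_one, mul_inv_eq_iff_eq_mul] at h1
  exact h1

namespace Axis

/-- The conjugate axis. -/
def conj (A : Axis F) (y : GL (Fin 3) F) : Axis F where
  c := ap y A.c
  φ := A.φ ∘ₗ (apEquiv y⁻¹).toLinearMap
  φ_c := by show A.φ (ap y⁻¹ (ap y A.c)) = 1; rw [ap_inv_ap, A.φ_c]
  emb := (apEquiv y).toLinearMap ∘ₗ A.emb
  coord := A.coord ∘ₗ (apEquiv y⁻¹).toLinearMap
  φ_emb w := by show A.φ (ap y⁻¹ (ap y (A.emb w))) = 0; rw [ap_inv_ap, A.φ_emb]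
  coord_emb w := by show A.coord (ap y⁻¹ (ap y (A.emb w))) = w; rw [ap_inv_ap, A.coord_emb]
  emb_coord x hx := by
    show ap y (A.emb (A.coord (ap y⁻¹ x))) = x
    rw [A.emb_coord (ap y⁻¹ x) hx, ap_ap_inv]

variable (A : Axis F) (K : Type*) [Field K] [Algebra F K]

lemma resK_apply (g : GL (Fin 3) F) (v : Fin 2 → K) :
    A.resK K g v = v 0 • up K (A.res g ![1, 0]) + v 1 • up K (A.res g ![0, 1]) := by
  conv_lhs => rw [show v = v 0 • up K (![1, 0] : Fin 2 → F) + v 1 • up K (![0, 1] : Fin 2 → F) by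
    funext i; fin_cases i <;> simp [up]]
  rw [map_add, map_smul, map_smul, resK_up, resK_up]

lemma coord_ne_zero {x : Fin 3 → F} (hx : A.φ x = 0) (hx0 : x ≠ 0) : A.coord x ≠ 0 := fun h =>
  hx0 (by rw [← A.emb_coord x hx, h, map_zero])

end Axis

/-- A homology of a subgroup without transvections, with two anticommuting square roots. -/
structure Centred [Finite F] (H : Subgroup (GL (Fin 3) F)) where
  s : GL (Fin 3) F
  A : Axis F
  two : (2 : F) ≠ 0
  notv : NoTv H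
  isHom : IsHom s A.c A.φ
  mem : s ∈ H
  u : GL (Fin 3) F
  v : GL (Fin 3) F
  u_mem : u ∈ H
  v_mem : v ∈ H
  u_sq : u * u = s
  v_sq : v * v = s
  anti : u * v = s * (v * u)

namespace Centred

variable [Finite F] {H : Subgroup (GL (Fin 3) F)} (L : Centred H)

/-- The centraliser of the homology. -/
abbrev X : Subgroup (GL (Fin 3) F) := H ⊓ Subgroup.centralizer ({L.s} : Set (GL (Fin 3) F))

lemma mem_X {g : GL (Fin 3) F} : g ∈ L.X ↔ g ∈ H ∧ g * L.s = L.s * g := by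
  rw [Subgroup.mem_inf, Subgroup.mem_centralizer_singleton_iff]

lemma eig_c {g : GL (Fin 3) F} (hg : g ∈ L.X) : ∃ a : F, ap g L.A.c = a • L.A.c :=
  ⟨L.A.φ (ap g L.A.c), (L.isHom.commute_imp L.two (L.mem_X.mp hg).2).1⟩

lemma le_stab : L.X ≤ L.A.stab := fun g hg => by
  obtain ⟨a, ha⟩ := L.eig_c hg
  exact L.A.mem_stab ha (L.isHom.commute_imp L.two (L.mem_X.mp hg).2).2.2

lemma maps_axis {g : GL (Fin 3) F} (hg : g ∈ L.X) {x : Fin 3 → F} (hx : L.A.φ x = 0) :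
    L.A.φ (ap g x) = 0 := ((L.le_stab hg).2 x).mp hx

lemma u_X : L.u ∈ L.X := L.mem_X.mpr ⟨L.u_mem, by rw [← L.u_sq, mul_assoc]⟩
lemma v_X : L.v ∈ L.X := L.mem_X.mpr ⟨L.v_mem, by rw [← L.v_sq, mul_assoc]⟩
lemma s_X : L.s ∈ L.X := L.mem_X.mpr ⟨L.mem, rfl⟩

lemma uv_sq : L.u * L.v * (L.u * L.v) = L.s := by
  have hu := (L.mem_X.mp L.u_X).2
  have hv := (L.mem_X.mp L.v_X).2
  calc L.u * L.v * (L.u * L.v) = L.s * (L.v * L.u) * (L.u * L.v) := by nth_rewrite 1 [L.anti]; rfl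
    _ = L.s * L.v * (L.u * L.u) * L.v := by simp only [mul_assoc]
    _ = L.s * (L.v * L.s) * L.v := by rw [L.u_sq]; simp only [mul_assoc]
    _ = L.s * L.s * (L.v * L.v) := by rw [hv]; simp only [mul_assoc]
    _ = L.s := by rw [L.isHom.sq, one_mul, L.v_sq]

/-- The algebraic closure. -/
abbrev K (_ : Centred H) : Type _ := AlgebraicClosure F

/-- The representation on the axis. -/
noncomputable abbrev ρ := L.A.rep L.K L.le_stab

lemma hρ : PlaneRep L.ρ := L.A.planeRep L.K L.notv inf_le_left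

lemma isSc_iff (g : L.X) :
    IsSc L.ρ g ↔ ∃ β : F, ∀ x, L.A.φ x = 0 → ap (g : GL (Fin 3) F) x = β • x := Axis.isSc_iff L.K g

lemma hno : ∀ w : Fin 2 → L.K, w ≠ 0 → ∃ g, ¬ IsEig L.ρ g w := by
  intro w hw
  by_contra hc
  push Not at hc
  obtain ⟨a, ha⟩ := hc ⟨L.u, L.u_X⟩
  obtain ⟨b, hb⟩ := hc ⟨L.v, L.v_X⟩
  have hs : L.ρ ⟨L.s, L.s_X⟩ w = -w := by
    rw [Axis.rep_apply, Axis.resK_apply]
    have : ∀ z, L.A.res L.s z = -z := fun z => by
      rw [Axis.res_apply, L.isHom.ap_ker (L.A.φ_emb z), map_neg, L.A.coord_emb]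
    rw [this, this]
    funext i
    fin_cases i <;> simp [Axis.up]
  have he : (⟨L.u, L.u_X⟩ : L.X) * ⟨L.v, L.v_X⟩ = ⟨L.s, L.s_X⟩ * (⟨L.v, L.v_X⟩ * ⟨L.u, L.u_X⟩) :=
    Subtype.ext L.anti
  have e1 := congrArg (fun g => L.ρ g w) he
  simp only [map_mul, LinearEquiv.mul_apply, ha, hb, map_smul, hs, smul_neg, smul_smul] at e1
  have ha0 : a ≠ 0 := L.hρ.eig_ne_zero hw ha
  have hb0 : b ≠ 0 := L.hρ.eig_ne_zero hw hb
  have h2 : (2 : L.K) ≠ 0 := by
    intro h
    exact L.two ((algebraMap F L.K).injective (by rw [map_ofNat, map_zero]; exact h))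
  have : (2 * (a * b)) • w = 0 := by
    rw [two_mul, add_smul]
    nth_rewrite 1 [mul_comm a b]
    rw [e1, mul_comm a b, neg_add_cancel]
  exact hw ((smul_eq_zero.mp this).resolve_left (mul_ne_zero h2 (mul_ne_zero ha0 hb0)))

lemma twoPoint : TwoPoint (PImage L.ρ) (Pts L.ρ) := L.hρ.twoPoint L.hno

lemma finite_pts : Finite (Pts L.ρ) := L.hρ.finite_pts

lemma img_eq_one (g : L.X) : img L.ρ g = 1 ↔ IsSc L.ρ g := L.hρ.img_eq_one L.hno g

lemma isEig_iff (g : L.X) {x : Fin 3 → F} (hx : L.A.φ x = 0) (hx0 : x ≠ 0) :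
    IsEig L.ρ g (Axis.up L.K (L.A.coord x)) ↔ ∃ β : F, ap (g : GL (Fin 3) F) x = β • x :=
  Axis.isEig_up_iff L.K g hx hx0

/-- The point of an invariant vector of the axis. -/
noncomputable def pt {g : L.X} (hg : ¬ IsSc L.ρ g) {x : Fin 3 → F} (hx : L.A.φ x = 0) (hx0 : x ≠ 0)
    (he : ∃ β : F, ap (g : GL (Fin 3) F) x = β • x) : Pts L.ρ :=
  ⟨Submodule.span L.K {Axis.up L.K (L.A.coord x)}, g, _, hg,
    Axis.up_ne_zero L.K (L.A.coord_ne_zero hx hx0), (L.isEig_iff g hx hx0).mpr he, rfl⟩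

lemma smul_pt_eq {g : L.X} (hg : ¬ IsSc L.ρ g) {x : Fin 3 → F} (hx : L.A.φ x = 0) (hx0 : x ≠ 0)
    (he : ∃ β : F, ap (g : GL (Fin 3) F) x = β • x) (h : L.X) :
    h • L.pt hg hx hx0 he = L.pt hg hx hx0 he ↔ ∃ β : F, ap (h : GL (Fin 3) F) x = β • x := by
  rw [PlaneRep.smul_eq_iff (Axis.up_ne_zero L.K (L.A.coord_ne_zero hx hx0)) rfl, L.isEig_iff h hx hx0]

/-- If one point is moved to another, the vectors correspond. -/
lemma ap_of_smul_pt {g g' : L.X} (hg : ¬ IsSc L.ρ g) (hg' : ¬ IsSc L.ρ g') {x y : Fin 3 → F}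
    (hx : L.A.φ x = 0) (hx0 : x ≠ 0) (he : ∃ β : F, ap (g : GL (Fin 3) F) x = β • x)
    (hy : L.A.φ y = 0) (hy0 : y ≠ 0) (he' : ∃ β : F, ap (g' : GL (Fin 3) F) y = β • y) {h : L.X}
    (hh : h • L.pt hg hx hx0 he = L.pt hg' hy hy0 he') :
    ∃ β : F, ap (h : GL (Fin 3) F) x = β • y := by
  have h1 : L.ρ h (Axis.up L.K (L.A.coord x)) ∈ (L.pt hg' hy hy0 he').1 := by
    rw [← hh]
    exact ⟨_, Submodule.mem_span_singleton_self _, rfl⟩
  obtain ⟨b, hb⟩ := Submodule.mem_span_singleton.mp h1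
  set z := ap (h : GL (Fin 3) F) x
  have hz : L.A.φ z = 0 := L.maps_axis h.2 hx
  have hb' : Axis.up L.K (L.A.coord z) = b • Axis.up L.K (L.A.coord y) := by
    rw [hb, Axis.rep_apply, Axis.resK_up, Axis.res_apply, L.A.emb_coord x hx]
  obtain ⟨i, hi⟩ : ∃ i, L.A.coord y i ≠ 0 := by
    by_contra hcon
    push Not at hcon
    exact L.A.coord_ne_zero hy hy0 (funext hcon)
  refine ⟨L.A.coord z i / L.A.coord y i, ?_⟩
  have hb0 : algebraMap F L.K (L.A.coord z i / L.A.coord y i) = b := by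
    have := congrFun hb' i
    simp only [Axis.up, Pi.smul_apply, smul_eq_mul] at this
    rw [map_div₀, this, mul_div_assoc, div_self ((map_ne_zero _).mpr hi), mul_one]
  have h2 : L.A.coord z = (L.A.coord z i / L.A.coord y i) • L.A.coord y :=
    Axis.up_inj L.K (by rw [hb', Axis.up_smul, hb0])
  generalize hβ : L.A.coord z i / L.A.coord y i = β at h2 ⊢
  have h3 := congrArg L.A.emb h2
  rwa [L.A.emb_coord z hz, map_smul, L.A.emb_coord y hy] at h3

lemma img_smul (g : L.X) (l : Pts L.ρ) : img L.ρ g • l = g • l := rfl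

/-- Two non-scalar involutions on the axis with a common fixed vector agree. -/
lemma img_eq_of_common {g h : L.X} (hg : ¬ IsSc L.ρ g) (hh : ¬ IsSc L.ρ h)
    (hg2 : IsSc L.ρ (g * g)) (hh2 : IsSc L.ρ (h * h)) {x : Fin 3 → F} (hx : L.A.φ x = 0)
    (hx0 : x ≠ 0) (hgx : ∃ β : F, ap (g : GL (Fin 3) F) x = β • x)
    (hhx : ∃ β : F, ap (h : GL (Fin 3) F) x = β • x) : img L.ρ g = img L.ρ h := by
  have h1 := L.hρ.isSc_of_involutions (Axis.up_ne_zero L.K (L.A.coord_ne_zero hx hx0))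
    ((L.isEig_iff g hx hx0).mpr hgx) ((L.isEig_iff h hx hx0).mpr hhx) hg hh hg2 hh2
  rw [← L.img_eq_one, img_mul] at h1
  calc img L.ρ g = img L.ρ g * (img L.ρ g⁻¹ * img L.ρ h) := by rw [h1, mul_one]
    _ = img L.ρ h := by
      rw [← mul_assoc, ← img_mul, mul_inv_cancel,
        (L.img_eq_one 1).mpr PlaneRep.isSc_one, one_mul]

/-- The conjugate configuration. -/
def conj {y : GL (Fin 3) F} (hy : y ∈ H) : Centred H where
  s := y * L.s * y⁻¹
  A := L.A.conj y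
  two := L.two
  notv := L.notv
  isHom := L.isHom.conj y
  mem := mul_mem (mul_mem hy L.mem) (inv_mem hy)
  u := y * L.u * y⁻¹
  v := y * L.v * y⁻¹
  u_mem := mul_mem (mul_mem hy L.u_mem) (inv_mem hy)
  v_mem := mul_mem (mul_mem hy L.v_mem) (inv_mem hy)
  u_sq := by rw [← L.u_sq]; group
  v_sq := by rw [← L.v_sq]; group
  anti := by
    rw [show y * L.u * y⁻¹ * (y * L.v * y⁻¹) = y * (L.u * L.v) * y⁻¹ by group, L.anti]
    group

end Centred

end CfsgLib.Geometric.SLThree
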