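import Cfsg.Agent.Lib.Geometric.SLThree.FrameR
import Cfsg.Agent.Lib.Geometric.SLThree.Centred

/-!
In an overgroup of the normaliser of the extraspecial group without transvections, an element
acting as a scalar on the axis of the inverting involution has eigenvalue ratio of order at most
two.
-/

set_option autoImplicit false
set_option linter.unusedSectionVars false
set_option linter.style.haveILetI false
set_option linter.unnecessarySeqFocus false

namespace CfsgLib.Geometric.SLThree

open Matrix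

variable {F : Type*} [Field F]

/-- An overgroup, in `SL₃` and without transvections, of the frame. -/
structure C6Hyp [Finite F] (o : Omega F) (H : Subgroup (GL (Fin 3) F)) : Prop where
  sl : H ≤ Cfsg.Geo.specialLinear (Fin 3) F
  notv : NoTv H
  five : (5 : F) ≠ 0
  D_mem : o.D ∈ H
  P_mem : o.P ∈ H
  W0_mem : o.W0 ∈ H
  W1_mem : o.W1 ∈ H
  W2_mem : o.W2 ∈ H

namespace Omega

variable (o : Omega F)

/-- The centre of the inverting involution. -/
def c0 (_ : Omega F) : Fin 3 → F := ![0, 1, -1]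

/-- Its axis as a functional. -/
noncomputable def φ0 (_ : Omega F) : (Fin 3 → F) →ₗ[F] F :=
  (2 : F)⁻¹ • ((LinearMap.proj 1 : (Fin 3 → F) →ₗ[F] F) - LinearMap.proj 2)

lemma φ0_apply (x : Fin 3 → F) : o.φ0 x = 2⁻¹ * (x 1 - x 2) := by simp [φ0]

lemma φ0_c0 : o.φ0 o.c0 = 1 := by
  have := o.two
  rw [φ0_apply]; simp [c0]; field_simp; ring

lemma t_isHom : IsHom o.t o.c0 o.φ0 := ⟨o.φ0_c0, fun x => by
  have := o.two
  rw [ap_t]
  funext i; fin_cases i <;> simp [c0, φ0_apply] <;> field_simp <;> ring⟩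

/-- Coordinates on the axis of the inverting involution. -/
noncomputable def axis0 : Axis F where
  c := o.c0
  φ := o.φ0
  φ_c := o.φ0_c0
  emb :=
    { toFun := fun w => ![w 0, w 1, w 1]
      map_add' := fun v w => by funext i; fin_cases i <;> simp
      map_smul' := fun r w => by funext i; fin_cases i <;> simp }
  coord :=
    { toFun := fun x => ![x 0, 2⁻¹ * (x 1 + x 2)]
      map_add' := fun v w => by funext i; fin_cases i <;> simp <;> ring
      map_smul' := fun r w => by funext i; fin_cases i <;> simp <;> ring }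
  φ_emb w := by simp [φ0_apply]
  coord_emb w := by
    have := o.two
    funext i; fin_cases i <;> simp <;> field_simp <;> ring
  emb_coord x hx := by
    have := o.two
    have h : x 1 = x 2 := by
      rw [φ0_apply, mul_eq_zero, sub_eq_zero] at hx
      exact hx.resolve_left (inv_ne_zero o.two)
    funext i; fin_cases i <;> simp [h] <;> field_simp <;> ring

/-- Coordinates on the plane spanned by the last two basis vectors. -/
def axis1 (_ : Omega F) : Axis F where
  c := ![1, 0, 0]
  φ := LinearMap.proj 0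
  φ_c := by simp
  emb :=
    { toFun := fun w => ![0, w 0, w 1]
      map_add' := fun v w => by funext i; fin_cases i <;> simp
      map_smul' := fun r w => by funext i; fin_cases i <;> simp }
  coord :=
    { toFun := fun x => ![x 1, x 2]
      map_add' := fun v w => by funext i; fin_cases i <;> simp
      map_smul' := fun r w => by funext i; fin_cases i <;> simp }
  φ_emb w := by simp
  coord_emb w := by funext i; fin_cases i <;> simp
  emb_coord x hx := by
    simp only [LinearMap.proj_apply] at hx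
    funext i; fin_cases i <;> simp [hx]

lemma D_mem_axis1 : o.D ∈ o.axis1.stab := by
  refine o.axis1.mem_stab (a := 1) ?_ fun x hx => ?_
  · rw [ap_D]; funext i; fin_cases i <;> simp [axis1]
  · simp only [axis1, LinearMap.proj_apply] at hx ⊢
    rw [ap_D]; simpa using hx

lemma D_pow_dg (k : ℕ) : IsDg (o.D ^ k) 1 (o.w ^ k) (o.w ^ (2 * k)) := by
  have h := o.D_dg.pow k
  rwa [one_pow, ← pow_mul] at h

end Omega

namespace C6Hyp

variable [Finite F] {o : Omega F} {H : Subgroup (GL (Fin 3) F)} (hH : C6Hyp o H)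
include hH

lemma R_le : o.R ≤ H := o.le_of_gens hH.D_mem hH.P_mem

lemma Z_mem : o.Z ∈ H := hH.R_le o.Z_mem

lemma t_mem : o.t ∈ H := o.W0_sq ▸ mul_mem hH.W0_mem hH.W0_mem

lemma det_eq_one {g : GL (Fin 3) F} (hg : g ∈ H) : (g : Matrix (Fin 3) (Fin 3) F).det = 1 :=
  (mem_specialLinear_iff g).mp (hH.sl hg)

lemma lambda_aux {g : GL (Fin 3) F} (hg : g ∈ H) {a b : F} (hc : ap g o.c0 = a • o.c0)
    (hL : ∀ x, o.φ0 x = 0 → ap g x = b • x) {n : ℕ} (hn : 2 ≤ n)
    (hord : ∀ k, a ^ k = b ^ k ↔ 2 * n ∣ k) : False := by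
  set h := o.D * g * o.D⁻¹ with hh
  have hgS : g ∈ o.axis1.stab := by
    have key : ∀ x : Fin 3 → F, ap g x 0 = b * x 0 := fun x => by
      have h1 := hL (x - o.φ0 x • o.c0) (by simp [o.φ0_c0])
      rw [ap_sub, ap_smul, hc] at h1
      have := congrFun h1 0
      simpa [Omega.c0, Matrix.vecHead] using this
    refine o.axis1.mem_stab (a := b) (hL _ (by simp [Omega.axis1, Omega.φ0_apply])) fun x hx => ?_
    simp only [Omega.axis1, LinearMap.proj_apply] at hx ⊢
    rw [key, hx, mul_zero]
  have hhS : h ∈ o.axis1.stab := mul_mem (mul_mem o.D_mem_axis1 hgS) (o.axis1.stab.inv_mem o.D_mem_axis1)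
  set Y : Subgroup (GL (Fin 3) F) := o.axis1.stab ⊓ H with hY
  let g' : Y := ⟨g, hgS, hg⟩
  let h' : Y := ⟨h, hhS, H.mul_mem (H.mul_mem hH.D_mem hg) (H.inv_mem hH.D_mem)⟩
  -- powers of `g`
  have hgpow : ∀ k, ∀ x, ap (g ^ k) x = b ^ k • x + ((a ^ k - b ^ k) * o.φ0 x) • o.c0 := by
    intro k x
    have h1 := ap_pow_of_eig (hL (x - o.φ0 x • o.c0) (by simp [o.φ0_c0])) k
    rw [ap_sub, ap_smul, ap_pow_of_eig hc k] at h1
    linear_combination (norm := module) h1
  have hsc : ∀ k, (∃ β : F, ∀ x, o.axis1.φ x = 0 → ap (g ^ k) x = β • x) ↔ a ^ k = b ^ k := by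
    intro k
    constructor
    · rintro ⟨β, hβ⟩
      have h1 := congrFun (hβ o.c0 (by simp [Omega.axis1, Omega.c0])) 1
      have h2 := congrFun (hβ ![0, 1, 1] (by simp [Omega.axis1])) 1
      rw [ap_pow_of_eig hc k] at h1
      rw [ap_pow_of_eig (hL _ (by simp [Omega.φ0_apply]))] at h2
      simp [Omega.c0] at h1 h2
      rw [h1, h2]
    · intro e
      exact ⟨b ^ k, fun x _ => by rw [hgpow, e, sub_self, zero_mul, zero_smul, add_zero]⟩
  -- the power `g ^ n` is the involution up to a scalar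
  have han : a ^ n = -b ^ n := by
    have h1 : (a ^ n) ^ 2 = (b ^ n) ^ 2 := by
      rw [← pow_mul, ← pow_mul, mul_comm n 2]; exact (hord _).mpr dvd_rfl
    rcases sq_eq_sq_iff_eq_or_eq_neg.mp h1 with e | e
    · have := Nat.le_of_dvd (by omega) ((hord n).mp e)
      omega
    · exact e
  have hgn : ∀ x, ap (g ^ n) x = a ^ n • ap o.t x := fun x => by
    rw [hgpow, o.t_isHom.2, han]
    module
  have hghn : ∀ x, ap (g ^ n * h ^ n) x = (a ^ n * a ^ n) • ap o.D x := fun x => by
    rw [hh, conj_pow]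
    simp only [ap_mul, hgn, ap_smul, smul_smul]
    rw [← ap_mul, ← ap_mul, ← ap_mul, o.t_conj_D, pow_zero, one_mul, mul_assoc (o.D * o.D) o.t,
      o.t_sq, mul_one, mul_assoc, mul_inv_cancel, mul_one]
  let K := AlgebraicClosure F
  let ρ := o.axis1.rep K (inf_le_left : Y ≤ o.axis1.stab)
  have hρ : PlaneRep ρ := o.axis1.planeRep K hH.notv inf_le_right
  have hres : ∀ (u : GL (Fin 3) F) (v : Fin 2 → K), o.axis1.resK K u v =
      v 0 • Axis.up K (o.axis1.res u ![1, 0]) + v 1 • Axis.up K (o.axis1.res u ![0, 1]) :=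
    fun u v => o.axis1.resK_apply K u v
  have ha0 : a ≠ 0 := smul_ap_mem hc o.t_isHom.c_ne
  have hno : ∀ v : Fin 2 → K, v ≠ 0 → ∃ x, ¬ IsEig ρ x v := by
    intro v hv
    by_contra hcon
    push Not at hcon
    obtain ⟨c1, hc1⟩ := hcon (g' ^ n)
    obtain ⟨c2, hc2⟩ := hcon (g' ^ n * h' ^ n)
    rw [Axis.rep_apply, SubgroupClass.coe_pow, hres] at hc1
    rw [Axis.rep_apply, Subgroup.coe_mul, SubgroupClass.coe_pow, SubgroupClass.coe_pow, hres] at hc2
    have e10 := congrFun hc1 0
    have e11 := congrFun hc1 1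
    have e20 := congrFun hc2 0
    have e21 := congrFun hc2 1
    simp [g', h', Axis.up, Axis.res_apply, Omega.axis1, hgn, hghn, o.ap_t, o.ap_D] at e10 e11 e20 e21
    have hA : (algebraMap F K a) ^ n ≠ 0 := pow_ne_zero _ ((map_ne_zero _).mpr ha0)
    have hw : algebraMap F K o.w - (algebraMap F K o.w) ^ 2 ≠ 0 := by
      rw [← map_pow, ← map_sub, map_ne_zero]
      exact sub_ne_zero.mpr o.sq_ne.symm
    by_cases h0 : v 0 = 0
    · apply hv
      have h1 : v 1 = 0 := by
        rw [h0] at e10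
        simpa [hA] using e10
      funext i; fin_cases i <;> simp [h0, h1]
    · have h1 : v 1 ≠ 0 := by
        intro h1
        rw [h1] at e11
        simp [hA, h0] at e11
      have : ((algebraMap F K a) ^ n) ^ 2 * (algebraMap F K o.w - (algebraMap F K o.w) ^ 2) = 0 := by
        apply mul_right_cancel₀ (mul_ne_zero h0 h1)
        linear_combination v 1 * e20 - v 0 * e21
      exact mul_ne_zero (pow_ne_zero _ hA) hw this
  have hsc' : ∀ (u : Y), img ρ u = 1 ↔
      ∃ β : F, ∀ x, o.axis1.φ x = 0 → ap (u : GL (Fin 3) F) x = β • x :=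
    fun u => (hρ.img_eq_one hno u).trans (Axis.isSc_iff K u)
  have ordg : orderOf (img ρ g') = 2 * n := by
    have key : ∀ k, img ρ g' ^ k = 1 ↔ 2 * n ∣ k := fun k => by
      rw [← img_pow, hsc', ← hord k, ← hsc k]; rfl
    exact Nat.dvd_antisymm (orderOf_dvd_of_pow_eq_one ((key _).mpr dvd_rfl))
      ((key _).mp (pow_orderOf_eq_one _))
  have ordh : orderOf (img ρ h') = 2 * n := by
    have key : ∀ k, img ρ h' ^ k = 1 ↔ 2 * n ∣ k := fun k => by
      rw [← img_pow, hsc', ← hord k, ← hsc k]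
      have hDS := o.D_mem_axis1
      constructor
      · rintro ⟨β, hβ⟩
        refine ⟨β, fun x hx => ?_⟩
        have h1 := hβ (ap o.D x) (((hDS.2) x).mp hx)
        rw [SubgroupClass.coe_pow, show ((h' : Y) : GL (Fin 3) F) = o.D * g * o.D⁻¹ from rfl,
          conj_pow, ap_mul, ap_mul, ap_inv_ap, ← ap_smul] at h1
        exact ap_injective o.D h1
      · rintro ⟨β, hβ⟩
        refine ⟨β, fun x hx => ?_⟩
        rw [SubgroupClass.coe_pow, show ((h' : Y) : GL (Fin 3) F) = o.D * g * o.D⁻¹ from rfl,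
          conj_pow, ap_mul, ap_mul, hβ _ (((o.axis1.stab.inv_mem hDS).2 x).mp hx),
          ap_smul, ap_ap_inv]
    exact Nat.dvd_antisymm (orderOf_dvd_of_pow_eq_one ((key _).mpr dvd_rfl))
      ((key _).mp (pow_orderOf_eq_one _))
  have ordw : orderOf (img ρ g' ^ n * img ρ h' ^ n) = 3 := by
    rw [← img_pow, ← img_pow, ← img_mul]
    have key : ∀ k, img ρ (g' ^ n * h' ^ n) ^ k = 1 ↔ 3 ∣ k := fun k => by
      rw [← img_pow, hsc']
      have hk : ∀ x, ap (((g' ^ n * h' ^ n) ^ k : Y) : GL (Fin 3) F) x =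
          (a ^ n * a ^ n) ^ k • ap (o.D ^ k) x := by
        intro x
        simp only [SubgroupClass.coe_pow, Subgroup.coe_mul]
        show ap ((g ^ n * h ^ n) ^ k) x = _
        induction k generalizing x with
        | zero => simp
        | succ k ih => rw [pow_succ, ap_mul, hghn, ap_smul, ih, ← ap_mul, ← pow_succ, smul_smul, ← pow_succ']
      constructor
      · rintro ⟨β, hβ⟩
        have h1 := congrFun (hβ ![0, 1, 0] (by simp [Omega.axis1])) 1
        have h2 := congrFun (hβ ![0, 0, 1] (by simp [Omega.axis1])) 2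
        rw [hk, o.D_pow_dg k] at h1 h2
        simp at h1 h2
        have h3 : o.w ^ (2 * k) = o.w ^ k :=
          mul_left_cancel₀ (pow_ne_zero k (mul_ne_zero (pow_ne_zero n ha0) (pow_ne_zero n ha0)))
            (h2.trans h1.symm)
        have h4 : o.w ^ k = 1 := mul_left_cancel₀ (pow_ne_zero k o.ne_zero)
          (by rw [← pow_add, ← two_mul, h3, mul_one])
        exact Nat.dvd_of_mod_eq_zero (o.w_pow_eq_one h4)
      · intro h3
        refine ⟨(a ^ n * a ^ n) ^ k, fun x _ => ?_⟩
        obtain ⟨m, rfl⟩ := h3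
        rw [hk, pow_mul o.D, o.D_cube, one_pow, ap_one]
    exact Nat.dvd_antisymm (orderOf_dvd_of_pow_eq_one ((key _).mpr dvd_rfl))
      ((key _).mp (pow_orderOf_eq_one _))
  haveI := hρ.finite_pts
  exact (hρ.twoPoint hno).no_product_three hn ordg ordh ordw

/-- The eigenvalue ratio on the centre and the axis. -/
theorem lambda {x : GL (Fin 3) F} (hx : x ∈ H) {α β : F} (hc : ap x o.c0 = α • o.c0)
    (hL : ∀ y, o.φ0 y = 0 → ap x y = β • y) : α ^ 2 = β ^ 2 := by
  by_contra hne
  have hα : α ≠ 0 := smul_ap_mem hc o.t_isHom.c_ne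
  have hβ : β ≠ 0 := by
    rintro rfl
    have h1 := hL ![1, 0, 0] (by simp [Omega.φ0_apply])
    rw [zero_smul] at h1
    exact ap_ne_zero x (by simp) h1
  set u : Fˣ := Units.mk0 (α / β) (div_ne_zero hα hβ) with hu
  have hu1 : ∀ k, α ^ k = β ^ k ↔ orderOf u ∣ k := fun k => by
    rw [orderOf_dvd_iff_pow_eq_one, Units.ext_iff, Units.val_pow_eq_pow_val, hu, Units.val_mk0,
      div_pow, Units.val_one, div_eq_one_iff_eq (pow_ne_zero k hβ)]
  have h2 : ¬ orderOf u ∣ 2 := fun h => hne ((hu1 2).mpr h)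
  rcases Nat.even_or_odd (orderOf u) with ⟨n, hn⟩ | hodd
  · refine hH.lambda_aux hx hc hL (n := n) ?_ fun k => by rw [hu1, hn, two_mul]
    by_contra hlt
    apply h2
    rw [hn]
    have : 0 < orderOf u := orderOf_pos u
    interval_cases n
    · omega
    · exact dvd_rfl
  · have hk : orderOf u ≠ 1 := fun h => h2 (by rw [h]; exact one_dvd _)
    have := orderOf_pos u
    refine hH.lambda_aux (g := x * o.t) (a := α) (b := -β) (mul_mem hx hH.t_mem) ?_ ?_
      (n := orderOf u) (by omega) fun k => ?_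
    · rw [ap_mul, o.t_isHom.ap_c, hc]
    · intro y hy
      rw [ap_mul, o.t_isHom.ap_ker hy, ← neg_one_smul F y, ap_smul, hL y hy, smul_smul, neg_one_mul]
    · constructor
      · intro h
        have h3 : α ^ (k * 2) = β ^ (k * 2) := by
          rw [pow_mul, pow_mul, h, ← pow_mul, ← pow_mul, mul_comm, pow_mul, neg_sq, ← pow_mul]
        have h4 : orderOf u ∣ k :=
          (Nat.Coprime.dvd_of_dvd_mul_right (Nat.coprime_two_right.mpr hodd) ((hu1 _).mp h3))
        have h5 : Even k := by
          rcases Nat.even_or_odd k with hk' | hk'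
          · exact hk'
          · rw [(hu1 k).mpr h4, hk'.neg_pow] at h
            have : (2 : F) * β ^ k = 0 := by linear_combination h
            exact absurd this (mul_ne_zero o.two (pow_ne_zero k hβ))
        obtain ⟨m, rfl⟩ := h5
        rw [← two_mul] at h4 ⊢
        exact mul_dvd_mul_left 2 ((Nat.coprime_two_right.mpr hodd).dvd_of_dvd_mul_left h4)
      · rintro ⟨m, rfl⟩
        rw [mul_assoc, pow_mul, pow_mul (-β), neg_sq, ← pow_mul, ← pow_mul]
        exact (hu1 _).mpr ⟨2 * m, by ring⟩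

end C6Hyp

end CfsgLib.Geometric.SLThree
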