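import Cfsg.Agent.Lib.Geometric.SLThree.NormalR
import Cfsg.Agent.Lib.Geometric.SLThree.IrredTv
import Cfsg.Agent.Lib.BGRep.SymplecticGroup
import Cfsg.Agent.Lib.PSolvable.FrattiniFacts
import Cfsg.Prelude.Def_GeometricClasses

/-!
An absolutely irreducible group of symplectic type and exponent three in dimension three is a
conjugate of the standard extraspecial group; the overgroups in `SL₃` of its normaliser.
-/

set_option autoImplicit false
set_option linter.unusedSectionVars false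
set_option linter.style.haveILetI false

namespace CfsgLib.Geometric.SLThree

open Cfsg.Geo Matrix
open scoped Matrix commutatorElement

variable {F : Type*} [Field F]

/-- The class of such a group is two: commutators are central. -/
lemma commutator_central {R : Subgroup (GL (Fin 3) F)} [Finite R] (hS : IsSymplecticTypeGroup 3 R)
    (hnab : ∃ a b : R, a * b ≠ b * a) : commutator R ≤ Subgroup.center R := by
  classical
  haveI : Fact (Nat.Prime 3) := ⟨Nat.prime_three⟩
  have hexp : ∀ x : R, x ^ 3 = 1 := fun x => by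
    have h := Monoid.pow_exponent_eq_one x
    rwa [hS.exponent_eq, show 3 * Nat.gcd 2 3 = 3 by norm_num] at h
  have hchar : ∀ C : Subgroup R, C.Characteristic → IsMulCommutative C →
      C ≤ Subgroup.center R ∧ IsCyclic C := by
    intro C hC hCc
    have hcy := hS.cyclic_of_characteristic C hC hCc
    refine ⟨?_, hcy⟩
    have hle : Nat.card C ≤ 3 := by
      obtain ⟨c, hc⟩ := IsCyclic.exists_generator (α := C)
      rw [← orderOf_eq_card_of_forall_mem_zpowers hc]
      exact orderOf_le_of_pow_eq_one (by norm_num) (Subtype.ext (hexp (c : R)))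
    intro c hc
    have hpR : IsPGroup 3 R := hS.pGroup
    by_cases hbot : C = ⊥
    · subst hbot
      rw [Subgroup.mem_bot] at hc
      subst hc
      exact one_mem _
    haveI : Group.IsNilpotent R := hpR.isNilpotent
    haveI : C.Normal := inferInstance
    have hne := PSolvable.inf_center_ne_bot hbot
    have hC1 : 1 < Nat.card ↥(C ⊓ Subgroup.center R) := (Subgroup.one_lt_card_iff_ne_bot _).2 hne
    obtain ⟨n, hn⟩ := IsPGroup.iff_card.mp (hpR.to_subgroup (C ⊓ Subgroup.center R))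
    have h3le : 3 ≤ Nat.card ↥(C ⊓ Subgroup.center R) := by
      rw [hn] at hC1 ⊢
      exact le_self_pow₀ (by norm_num) (by rintro rfl; simp at hC1)
    have heq : C ⊓ Subgroup.center R = C := by
      apply SetLike.coe_injective
      refine Set.eq_of_subset_of_ncard_le inf_le_left ?_ (Set.toFinite _)
      rw [← Nat.card_coe_set_eq, ← Nat.card_coe_set_eq]
      exact le_trans hle h3le
    exact ((SetLike.ext_iff.1 heq c).2 hc).2
  exact (BGRep.symplectic_type (q := 3) (by norm_num) hS.pGroup hnab hchar).1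

/-- Change of frame. -/
theorem exists_frame [Finite F] (h2 : (2 : F) ≠ 0) (h3 : (3 : F) ≠ 0) {R : Subgroup (GL (Fin 3) F)}
    (hS : IsSymplecticTypeGroup 3 R) (hA : ActsAbsolutelyIrreducibly (matrixSet R)) :
    ∃ (o : Omega F) (g : GL (Fin 3) F), ∀ x, x ∈ R ↔ g⁻¹ * x * g ∈ o.R := by
  classical
  have hexp : ∀ x ∈ R, x ^ 3 = 1 := fun x hx => by
    have h := Monoid.pow_exponent_eq_one (⟨x, hx⟩ : R)
    rw [hS.exponent_eq, show 3 * Nat.gcd 2 3 = 3 by norm_num] at h
    exact congrArg Subtype.val h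
  -- scalar matrices from commuting with `R`
  have hscal : ∀ z : GL (Fin 3) F, (∀ r ∈ R, z * r = r * z) → ∃ c : F, ∀ x, ap z x = c • x := by
    intro z hz
    obtain ⟨c, hc⟩ := hA.2 (z : Matrix (Fin 3) (Fin 3) F) (by
      rintro _ ⟨r, hr, rfl⟩
      exact congrArg Units.val (hz r hr))
    exact ⟨c, fun x => by rw [ap_def, hc, Matrix.smul_mulVec, Matrix.one_mulVec]⟩
  obtain ⟨a, b, hab⟩ : ∃ a b : R, a * b ≠ b * a := by
    by_contra hcon
    push Not at hcon
    obtain ⟨c, hc⟩ := hA.2 (Matrix.single (0 : Fin 3) 1 (1 : F)) (by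
      rintro _ ⟨r, hr, rfl⟩
      obtain ⟨d, hd⟩ := hscal r fun s hs => congrArg Subtype.val (hcon ⟨r, hr⟩ ⟨s, hs⟩)
      have hrd : (r : Matrix (Fin 3) (Fin 3) F) = d • 1 :=
        Matrix.ext_of_mulVec_single fun j => by
          rw [← ap_def, hd, Matrix.smul_mulVec, Matrix.one_mulVec]
      show Matrix.single (0 : Fin 3) 1 (1 : F) * (r : Matrix (Fin 3) (Fin 3) F) =
        (r : Matrix (Fin 3) (Fin 3) F) * Matrix.single (0 : Fin 3) 1 (1 : F)
      rw [hrd, Matrix.mul_smul, Matrix.smul_mul, Matrix.mul_one, Matrix.one_mul])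
    have := congrFun (congrFun hc 0) 1
    simp at this
  have hcl := commutator_central hS ⟨a, b, hab⟩
  have hcomm : ∀ x y : R, ∃ c : F, c ^ 3 = 1 ∧
      ∀ v, ap ((x : GL (Fin 3) F) * (y : GL (Fin 3) F)) v = c • ap ((y : GL (Fin 3) F) * (x : GL (Fin 3) F)) v := by
    intro x y
    have hd : ⁅x, y⁆ ∈ Subgroup.center R :=
      hcl (Subgroup.commutator_mem_commutator trivial trivial)
    obtain ⟨c, hc⟩ := hscal ((⁅x, y⁆ : R) : GL (Fin 3) F) fun r hr =>
      (congrArg Subtype.val (Subgroup.mem_center_iff.mp hd ⟨r, hr⟩)).symm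
    refine ⟨c, ?_, fun v => ?_⟩
    · have h1 := congrArg (fun u => ap u (Pi.single (0 : Fin 3) (1 : F))) (hexp _ (⁅x, y⁆ : R).2)
      rw [pow_three] at h1
      simp only [ap_mul, hc, smul_smul, ap_one] at h1
      have := congrFun h1 0
      simp at this
      rw [pow_three]; exact this
    · rw [← hc, ← ap_mul]
      congr 1
      rw [commutatorElement_def]
      simp only [Subgroup.coe_mul, Subgroup.coe_inv]
      group
  obtain ⟨c, hc3, hc⟩ := hcomm a b
  have hc1 : c ≠ 1 := fun h => hab (Subtype.ext (gl_ext fun v => by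
    rw [Subgroup.coe_mul, Subgroup.coe_mul, hc v, h, one_smul]))
  -- `a b = c (b a)`
  have hroot : c ^ 2 + c + 1 = 0 := (mul_eq_zero.mp (show (c - 1) * (c ^ 2 + c + 1) = 0 by
    linear_combination hc3)).resolve_left (sub_ne_zero.mpr hc1)
  let o : Omega F := ⟨c, hroot, h3, h2⟩
  have ha3 : ∀ v, ap (a : GL (Fin 3) F) (ap (a : GL (Fin 3) F) (ap (a : GL (Fin 3) F) v)) = v := fun v => by
    rw [← ap_mul, ← ap_mul, mul_assoc, ← pow_three, hexp _ a.2, ap_one]
  have hb3 : ∀ v, ap (b : GL (Fin 3) F) (ap (b : GL (Fin 3) F) (ap (b : GL (Fin 3) F) v)) = v := fun v => by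
    rw [← ap_mul, ← ap_mul, mul_assoc, ← pow_three, hexp _ b.2, ap_one]
  -- an eigenvector of `a`
  obtain ⟨v, hv0, μ, hμ3, hav⟩ : ∃ v : Fin 3 → F, v ≠ 0 ∧ ∃ μ : F, μ ^ 3 = 1 ∧
      ap (a : GL (Fin 3) F) v = μ • v := by
    set e : Fin 3 → F := Pi.single 0 1 with he
    have he0 : e ≠ 0 := by simp [he]
    set a' := fun u => ap (a : GL (Fin 3) F) u with ha'
    by_cases h1 : a' e + (a' (a' e) + e) ≠ 0
    · refine ⟨_, h1, 1, one_pow 3, ?_⟩
      simp only [ha', ap_add, ha3, one_smul]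
      abel
    push Not at h1
    set u := a' e - c • e with hu
    by_cases h2' : u = 0
    · exact ⟨e, he0, c, hc3, sub_eq_zero.mp h2'⟩
    · refine ⟨u, h2', c ^ 2, by rw [← pow_mul, mul_comm, pow_mul, hc3, one_pow], ?_⟩
      simp only [hu, ha', ap_sub, ap_smul]
      simp only [ha'] at h1
      have h1' : ap (a : GL (Fin 3) F) (ap (a : GL (Fin 3) F) e) = -(ap (a : GL (Fin 3) F) e) - e := by
        linear_combination (norm := module) h1
      rw [h1', smul_sub, smul_smul, show c ^ 2 * c = 1 by linear_combination hc3,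
        show c ^ 2 = -c - 1 by linear_combination hroot]
      module
  -- rescale `a`
  obtain ⟨ν, hν⟩ : ∃ ν : GL (Fin 3) F, ∀ u, ap ν u = μ⁻¹ • u :=
    ⟨Units.map (Matrix.scalar (Fin 3) : F →+* Matrix (Fin 3) (Fin 3) F).toMonoidHom
      (Units.mk0 μ⁻¹ (inv_ne_zero (fun h => by simp [h] at hμ3))), fun u => by
      show ((Matrix.scalar (Fin 3)) μ⁻¹) *ᵥ u = _
      ext i; simp [Matrix.mulVec_diagonal]⟩
  set a₁ := ν * (a : GL (Fin 3) F) with ha₁
  have hab1 : ∀ u, ap a₁ (ap (b : GL (Fin 3) F) u) = c • ap (b : GL (Fin 3) F) (ap a₁ u) := fun u => by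
    have h := hc u
    simp only [ap_mul] at h
    rw [ha₁, ap_mul, ap_mul, hν, hν, h, ap_smul, smul_comm]
  have hav1 : ap a₁ v = v := by
    rw [ha₁, ap_mul, hν, hav, smul_smul, inv_mul_cancel₀ (fun h => by simp [h] at hμ3), one_smul]
  -- the new basis
  let f : Fin 3 → Fin 3 → F :=
    ![v, ap (b : GL (Fin 3) F) v, ap (b : GL (Fin 3) F) (ap (b : GL (Fin 3) F) v)]
  let μs : Fin 3 → F := ![1, c, c ^ 2]
  have hf : ∀ i, ap a₁ (f i) = μs i • f i := by
    intro i
    fin_cases i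
    · simpa [f, μs] using hav1
    · simp [f, μs, hab1, hav1]
    · simp [f, μs, hab1, hav1, ap_smul, smul_smul, pow_two]
  have hfne : ∀ i, f i ≠ 0 := fun i => by
    fin_cases i
    · exact hv0
    · exact ap_ne_zero _ hv0
    · exact ap_ne_zero _ (ap_ne_zero _ hv0)
  have hinj : Function.Injective μs := by
    intro i j h
    fin_cases i <;> fin_cases j <;>
      simp [μs, o.ne_one, o.ne_one.symm, o.sq_ne_one, o.sq_ne_one.symm, o.sq_ne, o.sq_ne.symm,
        show c = o.w from rfl] at h ⊢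
  have hli := Module.End.eigenvectors_linearIndependent' (apEquiv a₁).toLinearMap μs hinj f
    (fun i => ⟨Module.End.mem_eigenspace_iff.mpr (hf i), hfne i⟩)
  set M : Matrix (Fin 3) (Fin 3) F := (Matrix.of f)ᵀ with hM
  have hMu : IsUnit M := Matrix.linearIndependent_cols_iff_isUnit.mp (by
    show LinearIndependent F f
    exact hli)
  set g : GL (Fin 3) F := hMu.unit with hg
  have hge : ∀ j, ap g (Pi.single j 1) = f j := fun j => by
    rw [ap_def, hg, IsUnit.unit_spec, Matrix.mulVec_single_one]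
    funext i; simp [hM, Matrix.col_apply]
  have gl_ext_single : ∀ {x y : GL (Fin 3) F}, (∀ j, ap x (Pi.single j 1) = ap y (Pi.single j 1)) →
      x = y := fun h => Units.ext (Matrix.ext_of_mulVec_single fun j => h j)
  have hgD : g * o.D * g⁻¹ = a₁ := by
    rw [mul_inv_eq_iff_eq_mul]
    refine gl_ext_single fun j => ?_
    rw [ap_mul, ap_mul, hge, hf, o.D_dg,
      show (![1 * (Pi.single j (1 : F) : Fin 3 → F) 0, o.w * (Pi.single j (1 : F) : Fin 3 → F) 1,
        o.w ^ 2 * (Pi.single j (1 : F) : Fin 3 → F) 2] : Fin 3 → F) = μs j • Pi.single j 1 by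
        funext i; fin_cases i <;> fin_cases j <;> simp [μs, o]]
    simp [ap_smul, hge]
  have hgP : g * o.P * g⁻¹ = b := by
    rw [mul_inv_eq_iff_eq_mul]
    refine gl_ext_single fun j => ?_
    rw [ap_mul, ap_mul, hge, o.ap_P,
      show (![(Pi.single j (1 : F) : Fin 3 → F) 2, (Pi.single j (1 : F) : Fin 3 → F) 0,
        (Pi.single j (1 : F) : Fin 3 → F) 1] : Fin 3 → F) = Pi.single (j + 1) 1 by
        funext i; fin_cases i <;> fin_cases j <;> simp, hge]
    fin_cases j <;> simp [f, hb3]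
  -- `ν` lies in `R`
  have hνR : ν ∈ R := by
    have hscalar : ∀ n : ℕ, ap (((⁅a, b⁆ : R) : GL (Fin 3) F) ^ n) = fun u => c ^ n • u := by
      intro n
      funext u
      induction n generalizing u with
      | zero => simp
      | succ n ih =>
        rw [pow_succ, ap_mul, ih, commutatorElement_def]
        simp only [Subgroup.coe_mul, Subgroup.coe_inv]
        rw [show (a : GL (Fin 3) F) * b * (a : GL (Fin 3) F)⁻¹ * (b : GL (Fin 3) F)⁻¹ =
          ((a : GL (Fin 3) F) * b) * ((b : GL (Fin 3) F) * a)⁻¹ by group, ap_mul, hc, ← ap_mul,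
          mul_inv_cancel, ap_one, smul_smul, pow_succ]
    obtain ⟨n, hn⟩ : ∃ n : ℕ, μ⁻¹ = c ^ n := by
      rcases o.root_cases (x := μ⁻¹) (by rw [inv_pow, hμ3, inv_one]) with h | h | h
      · exact ⟨0, by rw [h, pow_zero]⟩
      · exact ⟨1, by rw [h, pow_one]⟩
      · exact ⟨2, h⟩
    rw [show ν = ((⁅a, b⁆ : R) : GL (Fin 3) F) ^ n from gl_ext fun u => by rw [hν, hscalar, hn]]
    exact R.pow_mem (⁅a, b⁆ : R).2 n
  have hle : ∀ x ∈ o.R, g * x * g⁻¹ ∈ R :=
    o.le_of_gens (S := R.comap (MulAut.conj g).toMonoidHom)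
      (by show g * o.D * g⁻¹ ∈ R; rw [hgD]; exact R.mul_mem hνR a.2)
      (by show g * o.P * g⁻¹ ∈ R; rw [hgP]; exact b.2)
  refine ⟨o, g, fun x => ⟨fun hx => ?_, fun hx => by
    simpa [mul_assoc] using hle _ hx⟩⟩
  set y := g⁻¹ * x * g with hy
  -- `y` commutes with `D` and `P` up to scalars
  have hyc : ∀ r ∈ o.R, ∃ i, y * r * y⁻¹ = o.Z ^ i * r := by
    intro r hr
    obtain ⟨d, hd3, hd⟩ := hcomm ⟨x, hx⟩ ⟨_, hle r hr⟩
    obtain ⟨i, hi⟩ : ∃ i : ℕ, d = o.w ^ i := by
      rcases o.root_cases hd3 with h | h | h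
      · exact ⟨0, by rw [h, pow_zero]⟩
      · exact ⟨1, by rw [h, pow_one]⟩
      · exact ⟨2, h⟩
    refine ⟨i, mul_inv_eq_iff_eq_mul.mpr (gl_ext fun u => ?_)⟩
    have h := congrArg (ap g⁻¹) (hd (ap g u))
    simp only [ap_mul, ap_inv_ap, ap_smul] at h
    rw [mul_assoc (o.Z ^ i), ap_mul (o.Z ^ i), o.Z_dg.pow i]
    simp only [hy, ap_mul]
    rw [h, hi]
    funext m; fin_cases m <;> simp
  obtain ⟨i, hi⟩ := hyc _ o.D_mem
  obtain ⟨j, hj⟩ := hyc _ o.P_mem
  obtain ⟨da, db, dc, hd⟩ := o.exists_monomial hi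
  set d := y * o.P ^ i with hdd
  have hdP : d * o.P = o.Z ^ j * o.P * d := by
    rw [hdd, mul_assoc, (Commute.pow_self o.P i).eq, ← mul_assoc, ← hj]
    group
  have hgd : g * d * g⁻¹ ∈ R := by
    rw [hdd, show g * (y * o.P ^ i) * g⁻¹ = x * (g * o.P ^ i * g⁻¹) by rw [hy]; group]
    exact R.mul_mem hx (hle _ (o.R.pow_mem o.P_mem i))
  have hd3 : d ^ 3 = 1 := by
    have h := hexp _ hgd
    rwa [conj_pow, conj_eq_one_iff] at h
  have hone : IsDg (1 : GL (Fin 3) F) 1 1 1 := fun x => by funext k; fin_cases k <;> simp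
  obtain ⟨e1, e2, -⟩ := (hd.pow 3).unique (hd3 ▸ hone)
  have key := fun x => congrArg (fun u => ap u x) hdP
  simp only [ap_mul, o.Z_dg.pow j _, hd _, o.ap_P] at key
  have h1 := congrFun (key (Pi.single 0 1)) 1
  have h2' := congrFun (key (Pi.single 1 1)) 2
  simp at h1 h2'
  have habc : da * db * dc = 1 := by
    rw [h2', h1]
    have hw : o.w ^ j * (o.w ^ j * o.w ^ j) = 1 := by
      rw [← pow_add, ← pow_add, show j + (j + j) = 3 * j by ring, pow_mul, o.cube, one_pow]
    linear_combination (da * da * da) * hw + e1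
  have hdR := o.dg_mem_R hd e1 e2 habc
  rw [show y = d * (o.P ^ i)⁻¹ by rw [hdd, mul_inv_cancel_right]]
  exact mul_mem hdR (inv_mem (pow_mem o.P_mem i))

section Transfer

variable [Fintype F] {o : Omega F} {g : GL (Fin 3) F} {R H : Subgroup (GL (Fin 3) F)}

lemma R_le_specialLinear (o : Omega F) : o.R ≤ specialLinear (Fin 3) F :=
  o.le_of_gens (Omega.mk1_mem _ _) (Omega.mk1_mem _ _)

lemma R_le_sl (hR : ∀ x, x ∈ R ↔ g⁻¹ * x * g ∈ o.R) : R ≤ specialLinear (Fin 3) F := fun x hx => by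
  have h := R_le_specialLinear o ((hR x).mp hx)
  rw [mem_specialLinear_iff, Units.val_mul, Units.val_mul, Matrix.det_mul, Matrix.det_mul,
    mul_comm (Matrix.det ((g⁻¹ : GL (Fin 3) F) : Matrix (Fin 3) (Fin 3) F)), mul_assoc, ← Matrix.det_mul,
    Units.inv_mul, Matrix.det_one, mul_one] at h
  exact (mem_specialLinear_iff x).mpr h

lemma mem_of_frame (hR : ∀ x, x ∈ R ↔ g⁻¹ * x * g ∈ o.R)
    (hN : subgroupNormalizer R ⊓ specialLinear (Fin 3) F ≤ H) {W : GL (Fin 3) F}
    (hW : W ∈ subgroupNormalizer o.R) (hWd : W ∈ specialLinear (Fin 3) F) : g * W * g⁻¹ ∈ H := by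
  refine hN ⟨?_, Subgroup.Normal.conj_mem (MonoidHom.normal_ker _) _ hWd g⟩
  refine Subgroup.mem_normalizer_iff.mpr fun x => ?_
  show x ∈ R ↔ _ ∈ R
  rw [hR, hR, show g⁻¹ * (g * W * g⁻¹ * x * (g * W * g⁻¹)⁻¹) * g = W * (g⁻¹ * x * g) * W⁻¹ by group]
  exact Subgroup.mem_normalizer_iff.mp hW _

lemma gens_mem (hR : ∀ x, x ∈ R ↔ g⁻¹ * x * g ∈ o.R)
    (hN : subgroupNormalizer R ⊓ specialLinear (Fin 3) F ≤ H) :
    g * o.D * g⁻¹ ∈ H ∧ g * o.P * g⁻¹ ∈ H ∧ g * o.W0 * g⁻¹ ∈ H ∧ g * o.W1 * g⁻¹ ∈ H ∧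
      g * o.W2 * g⁻¹ ∈ H :=
  ⟨mem_of_frame hR hN (Subgroup.le_normalizer o.D_mem) (Omega.mk1_mem _ _),
    mem_of_frame hR hN (Subgroup.le_normalizer o.P_mem) (Omega.mk1_mem _ _),
    mem_of_frame hR hN o.W0_norm (Omega.mk1_mem _ _),
    mem_of_frame hR hN o.W1_norm (Omega.mk1_mem _ _),
    mem_of_frame hR hN o.W2_norm (Omega.mk1_mem _ _)⟩

end Transfer

/-- An overgroup of the normaliser in `SL₃`, without transvections, normalises the group. -/
theorem c6_le_normalizer {F : Type*} [Field F] [Fintype F] (h2 : (2 : F) ≠ 0) (h3 : (3 : F) ≠ 0)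
    (h5 : (5 : F) ≠ 0) {R H : Subgroup (GL (Fin 3) F)} (hS : IsSymplecticTypeGroup 3 R)
    (hA : ActsAbsolutelyIrreducibly (matrixSet R)) (hH : H ≤ specialLinear (Fin 3) F)
    (hN : subgroupNormalizer R ⊓ specialLinear (Fin 3) F ≤ H)
    (hT : ∀ v φ h, tv v φ h ∈ H → tv v φ h = 1) : H ≤ subgroupNormalizer R := by
  obtain ⟨o, g, hR⟩ := exists_frame h2 h3 hS hA
  obtain ⟨hD, hP, h0, h1, hW2⟩ := gens_mem hR hN
  set H' := H.comap (MulAut.conj g).toMonoidHom with hH'
  have hH6 : C6Hyp o H' := by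
    refine ⟨fun x hx => ?_, fun v φ h hm => ?_, h5, hD, hP, h0, h1, hW2⟩
    · have hx' : g * x * g⁻¹ ∈ H := hx
      have := Subgroup.Normal.conj_mem (MonoidHom.normal_ker _) _ (hH hx') g⁻¹
      rwa [show g⁻¹ * (g * x * g⁻¹) * g⁻¹⁻¹ = x by group] at this
    · have hm' : g * tv v φ h * g⁻¹ ∈ H := hm
      rw [conj_tv] at hm'
      have h1' := hT _ _ _ hm'
      rw [← conj_tv g v φ h, conj_eq_one_iff] at h1'
      by_cases hv : v = 0
      · exact Or.inl hv
      refine Or.inr (LinearMap.ext fun x => ?_)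
      have h2' := congrArg (fun u => ap u x) h1'
      simp only [ap_tv, ap_one, add_eq_left, smul_eq_zero] at h2'
      simpa using h2'.resolve_right hv
  intro x hx
  have hx' : g⁻¹ * x * g ∈ H' := by
    show g * (g⁻¹ * x * g) * g⁻¹ ∈ H
    simpa [mul_assoc] using hx
  have hn := hH6.le_normalizer hx'
  rw [subgroupNormalizer, Subgroup.mem_normalizer_iff] at hn ⊢
  intro r
  show r ∈ R ↔ _ ∈ R
  rw [hR, hR, show g⁻¹ * (x * r * x⁻¹) * g = g⁻¹ * x * g * (g⁻¹ * r * g) * (g⁻¹ * x * g)⁻¹ by group]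
  exact hn _

/-- An overgroup of the normaliser containing a transvection contains `SL₃`, for a prime field. -/
theorem c6_transvection {F : Type*} [Field F] [Fintype F] {p : ℕ} (hp : p.Prime)
    (hF : Fintype.card F = p) (h2 : (2 : F) ≠ 0) (h3 : (3 : F) ≠ 0)
    {R H : Subgroup (GL (Fin 3) F)} (hS : IsSymplecticTypeGroup 3 R)
    (hA : ActsAbsolutelyIrreducibly (matrixSet R))
    (hN : subgroupNormalizer R ⊓ specialLinear (Fin 3) F ≤ H) {v : Fin 3 → F}
    {φ : (Fin 3 → F) →ₗ[F] F} {h : φ v = 0} (hm : tv v φ h ∈ H) (hne : tv v φ h ≠ 1) :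
    specialLinear (Fin 3) F ≤ H := by
  obtain ⟨o, g, hR⟩ := exists_frame h2 h3 hS hA
  obtain ⟨hD, hP, -, -, -⟩ := gens_mem hR hN
  set H' := H.comap (MulAut.conj g).toMonoidHom with hH'
  have hm' : g⁻¹ * tv v φ h * g⁻¹⁻¹ ∈ H' := by
    show g * (g⁻¹ * tv v φ h * g⁻¹⁻¹) * g⁻¹ ∈ H
    simpa [mul_assoc] using hm
  rw [conj_tv] at hm'
  have hle : specialLinear (Fin 3) F ≤ H' := by
    refine o.sl_le_of_not_noTv hp hF hD hP fun hT => hne ?_
    have h1 := NoTv.eq_one hT hm'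
    rw [← conj_tv g⁻¹ v φ h, conj_eq_one_iff] at h1
    exact h1
  intro x hx
  have := hle (Subgroup.Normal.conj_mem (MonoidHom.normal_ker _) _ hx g⁻¹)
  show x ∈ H
  have h' : g * (g⁻¹ * x * g⁻¹⁻¹) * g⁻¹ ∈ H := this
  simpa [mul_assoc] using h'

/-- For a field with a cube root of unity the normaliser is proper. -/
theorem c6_not_sl_le {F : Type*} [Field F] [Fintype F] (h2 : (2 : F) ≠ 0) (h3 : (3 : F) ≠ 0)
    {R : Subgroup (GL (Fin 3) F)} (hS : IsSymplecticTypeGroup 3 R)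
    (hA : ActsAbsolutelyIrreducibly (matrixSet R)) :
    ¬ specialLinear (Fin 3) F ≤ subgroupNormalizer R := by
  intro hle
  obtain ⟨o, g, hR⟩ := exists_frame h2 h3 hS hA
  -- a transvection in the standard frame
  set T : GL (Fin 3) F := tv (Pi.single 1 1) (LinearMap.proj 0) (by simp) with hT
  have hTn : T ∈ subgroupNormalizer o.R := by
    have h := hle (Subgroup.Normal.conj_mem (MonoidHom.normal_ker _) _ (tv_mem_specialLinear _ _ _) g :
      g * T * g⁻¹ ∈ specialLinear (Fin 3) F)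
    rw [subgroupNormalizer, Subgroup.mem_normalizer_iff] at h ⊢
    intro r
    have := h (g * r * g⁻¹)
    change g * r * g⁻¹ ∈ R ↔ _ ∈ R at this
    rw [hR, hR, show g⁻¹ * (g * r * g⁻¹) * g = r by group,
      show g⁻¹ * (g * T * g⁻¹ * (g * r * g⁻¹) * (g * T * g⁻¹)⁻¹) * g = T * r * T⁻¹ by group] at this
    exact this
  obtain ⟨a, b, e, he⟩ := (Subgroup.mem_normalizer_iff.mp hTn o.D).mp o.D_mem
  have hTi : ∀ x, ap T⁻¹ x = x - x 0 • Pi.single 1 1 := fun x => by
    apply ap_injective T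
    rw [ap_ap_inv, hT, ap_tv]
    funext i; fin_cases i <;> simp
  have key := fun x => congrArg (fun u => ap u x) he
  simp only [ap_mul, o.ap_nf, hTi] at key
  rw [o.nf_mod] at he
  have key' := fun x => congrArg (fun u => ap u x) he
  simp only [ap_mul, o.ap_nf, hTi] at key'
  have k0 := congrFun (key' (Pi.single 0 1)) 0
  have k1 := congrFun (key' (Pi.single 0 1)) 1
  rcases (show e % 3 = 0 ∨ e % 3 = 1 ∨ e % 3 = 2 by omega) with q | q | q <;> rw [q] at k0 k1 <;>
    simp [hT, o.ap_D, o.ap_P, pow_two, ap_mul] at k0 k1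
  exact o.ne_one (sub_eq_zero.mp (by linear_combination -k1))

end CfsgLib.Geometric.SLThree
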