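import Cfsg.Agent.Lib.Geometric.Basic

/-!
In dimension three and characteristic not five no element of order five is conjugate to its square.
-/

set_option autoImplicit false
set_option linter.unusedSectionVars false
set_option linter.style.haveILetI false

namespace CfsgLib.Geometric.SLThree

open Matrix

/-- Over an algebraically closed field. -/
lemma eq_one_of_conj_sq_end {K V : Type*} [Field K] [IsAlgClosed K] [AddCommGroup V] [Module K V]
    [FiniteDimensional K V] (hV : Module.finrank K V ≤ 3) (h5 : (5 : K) ≠ 0) {M G : Module.End K V}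
    (hG : Function.Injective G) (hM : M ^ 5 = 1) (hGM : G * M = M * M * G) : M = 1 := by
  have hpow : ∀ {μ : K} {v : V}, M v = μ • v → ∀ n : ℕ, (M ^ n) v = μ ^ n • v := by
    intro μ v h n
    induction n with
    | zero => simp
    | succ n ih => rw [pow_succ', Module.End.mul_apply, ih, map_smul, h, smul_smul, pow_succ]
  have hμ5 : ∀ {μ : K}, M.HasEigenvalue μ → μ ^ 5 = 1 := by
    intro μ hμ
    obtain ⟨v, hv⟩ := hμ.exists_hasEigenvector
    have h1 := hpow hv.apply_eq_smul 5
    rw [hM, Module.End.one_apply] at h1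
    have h2 : (μ ^ 5 - 1) • v = 0 := by rw [sub_smul, one_smul, ← h1, sub_self]
    exact sub_eq_zero.mp ((smul_eq_zero.mp h2).resolve_right hv.2)
  -- the cube of an eigenvalue is one
  have step : ∀ {μ : K}, M.HasEigenvalue μ → M.HasEigenvalue (μ ^ 3) := by
    intro μ hμ
    obtain ⟨v, hv⟩ := hμ.exists_hasEigenvector
    have h1 : M (M (G v)) = μ • G v := by
      have h : (M * M * G) v = (G * M) v := by rw [hGM]
      simpa [hv.apply_eq_smul] using h
    refine Module.End.hasEigenvalue_of_hasEigenvector (x := G v) ⟨?_, fun h => hv.2 (hG (by rw [h, map_zero]))⟩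
    rw [Module.End.mem_eigenspace_iff]
    have h6 : M (G v) = (M ^ 6) (G v) := by rw [show 6 = 5 + 1 from rfl, pow_add, hM, one_mul, pow_one]
    rw [h6]
    have h2 : ∀ k : ℕ, (M ^ (2 * k)) (G v) = μ ^ k • G v := by
      intro k
      induction k with
      | zero => simp
      | succ k ih =>
        rw [show 2 * (k + 1) = 2 * k + 2 by ring, pow_add, Module.End.mul_apply, pow_two,
          Module.End.mul_apply, h1, map_smul, ih, smul_smul, pow_succ']
    exact h2 3
  have hone : ∀ {μ : K}, M.HasEigenvalue μ → μ = 1 := by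
    intro μ hμ
    by_contra hne
    have h1 := step hμ
    have h2 := step h1
    have h3 := step h2
    have h5μ := hμ5 hμ
    have hμ0 : μ ≠ 0 := fun h => by simp [h] at h5μ
    have hu5 : (Units.mk0 μ hμ0) ^ 5 = 1 := Units.ext (by simpa using h5μ)
    have hord : orderOf (Units.mk0 μ hμ0) = 5 := by
      haveI : Fact (Nat.Prime 5) := ⟨by norm_num⟩
      exact orderOf_eq_prime hu5 fun h => hne (by simpa using congrArg Units.val h)
    let f : Fin 4 → K := fun i => μ ^ ((i : ℕ) + 1)
    have hf : Function.Injective f := by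
      intro i j hij
      have e : (Units.mk0 μ hμ0) ^ ((i : ℕ) + 1) = (Units.mk0 μ hμ0) ^ ((j : ℕ) + 1) :=
        Units.ext (by simpa [f] using hij)
      have e' := pow_injOn_Iio_orderOf (by rw [Set.mem_Iio, hord]; omega)
        (by rw [Set.mem_Iio, hord]; omega) e
      exact Fin.ext (by simp at e'; omega)
    have he : ∀ i, M.HasEigenvalue (f i) := by
      intro i
      fin_cases i
      · simpa [f] using hμ
      · have e : ((μ ^ 3) ^ 3) ^ 3 = μ ^ 2 := by
          rw [← pow_mul, ← pow_mul, show 3 * (3 * 3) = 5 * 5 + 2 by norm_num, pow_add, pow_mul, h5μ, one_pow, one_mul]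
        simpa [f, e] using h3
      · simpa [f] using h1
      · have e : (μ ^ 3) ^ 3 = μ ^ 4 := by
          rw [← pow_mul, show 3 * 3 = 5 + 4 by norm_num, pow_add, h5μ, one_mul]
        simpa [f, e] using h2
    choose v hv using fun i => (he i).exists_hasEigenvector
    have := (M.eigenvectors_linearIndependent' f hf v hv).fintype_card_le_finrank
    rw [Fintype.card_fin] at this
    omega
  -- the cofactor of `M - 1` in `M ^ 5 - 1` is injective
  set Q : Module.End K V := M ^ 4 + M ^ 3 + M ^ 2 + M + 1 with hQ
  have hQker : LinearMap.ker Q = ⊥ := by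
    by_contra hne
    haveI : Nontrivial (LinearMap.ker Q) := Submodule.nontrivial_iff_ne_bot.mpr hne
    have hinv : ∀ x ∈ LinearMap.ker Q, M x ∈ LinearMap.ker Q := by
      intro x hx
      rw [LinearMap.mem_ker] at hx ⊢
      have hc : Q * M = M * Q := by
        simp only [hQ, add_mul, mul_add, one_mul, mul_one, ← pow_succ, ← pow_succ', pow_two, mul_assoc]
      rw [← Module.End.mul_apply, hc, Module.End.mul_apply, hx, map_zero]
    obtain ⟨μ, hμ⟩ := Module.End.exists_eigenvalue (M.restrict hinv)
    obtain ⟨⟨v, hv0⟩, hv⟩ := hμ.exists_hasEigenvector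
    have hvv : M v = μ • v := congrArg Subtype.val hv.apply_eq_smul
    have hvne : v ≠ 0 := fun h => hv.2 (Subtype.ext h)
    have : μ = 1 := hone (Module.End.hasEigenvalue_of_hasEigenvector ⟨Module.End.mem_eigenspace_iff.mpr hvv, hvne⟩)
    subst this
    have hQv : Q v = 0 := hv0
    rw [one_smul] at hvv
    have : (5 : K) • v = 0 := by
      rw [← hQv, hQ]
      simp only [LinearMap.add_apply, Module.End.one_apply, hpow (μ := 1) (by rw [one_smul]; exact hvv),
        one_pow, one_smul, hvv]
      module
    exact hvne ((smul_eq_zero.mp this).resolve_left h5)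
  refine LinearMap.ext fun x => ?_
  have h0 : Q ((M - 1) x) = 0 := by
    have : Q * (M - 1) = 0 := by
      rw [hQ, show (0 : Module.End K V) = M ^ 5 - 1 by rw [hM, sub_self]]
      simp only [add_mul, mul_sub, one_mul, mul_one, ← pow_succ]
      rw [← pow_two]
      abel
    rw [← Module.End.mul_apply, this, LinearMap.zero_apply]
  have := LinearMap.ker_eq_bot.mp hQker (h0.trans (map_zero Q).symm)
  rwa [LinearMap.sub_apply, sub_eq_zero] at this

/-- The matrix statement. -/
theorem eq_one_of_conj_sq {F : Type*} [Field F] (h5 : (5 : F) ≠ 0) {a g : GL (Fin 3) F}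
    (ha : a ^ 5 = 1) (hg : g * a * g⁻¹ = a * a) : a = 1 := by
  let K := AlgebraicClosure F
  let f : Matrix (Fin 3) (Fin 3) F →+* Matrix (Fin 3) (Fin 3) K := (algebraMap F K).mapMatrix
  let T : Matrix (Fin 3) (Fin 3) K ≃ₐ[K] Module.End K (Fin 3 → K) := Matrix.toLinAlgEquiv'
  have hfi : Function.Injective f := fun A B h => Matrix.ext fun i j =>
    (algebraMap F K).injective (congrFun (congrFun h i) j)
  have key : T (f (a : Matrix (Fin 3) (Fin 3) F)) = 1 := by
    refine eq_one_of_conj_sq_end (V := Fin 3 → K) (by rw [Module.finrank_fin_fun]) ?_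
      (G := T (f (g : Matrix (Fin 3) (Fin 3) F))) ?_ ?_ ?_
    · intro h
      exact h5 ((algebraMap F K).injective (by rw [map_ofNat, map_zero]; exact h))
    · have h1 : T (f ((g⁻¹ : GL (Fin 3) F) : Matrix (Fin 3) (Fin 3) F)) * T (f g) = 1 := by
        rw [← map_mul, ← map_mul, ← Units.val_mul, inv_mul_cancel, Units.val_one, map_one, map_one]
      intro x y h
      have hx := LinearMap.congr_fun h1 x
      have hy := LinearMap.congr_fun h1 y
      rw [Module.End.mul_apply, h, ← Module.End.mul_apply, hy] at hx
      exact hx.symm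
    · rw [← map_pow, ← map_pow, ← Units.val_pow_eq_pow_val, ha, Units.val_one, map_one, map_one]
    · rw [← map_mul, ← map_mul, ← map_mul, ← map_mul, ← map_mul, ← map_mul, ← Units.val_mul,
        ← Units.val_mul, ← Units.val_mul, mul_inv_eq_iff_eq_mul.mp hg]
  refine Units.ext (hfi (T.injective ?_))
  rw [key, Units.val_one, map_one, map_one]

end CfsgLib.Geometric.SLThree
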