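import Mathlib
import Cfsg.Agent.Lib.SectRank.BSW.Main

/-!
A finite group with a semidihedral-type involution centraliser and a self-centralising subgroup of
order nine, all of whose non-identity elements it centralises: some element of order five is
conjugate to its square.
-/

set_option autoImplicit false
set_option linter.unusedSectionVars false
set_option linter.style.haveILetI false

namespace CfsgLib.Geometric.SLThree

open Subgroup

variable {G : Type*} [Group G] [Finite G]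

/-- The configuration: `Y` is an abelian subgroup of index two in the centraliser of the involution
`t`, `V` has order nine. -/
structure TenData (G : Type*) [Group G] where
  t : G
  Y : Subgroup G
  s : G
  i : G
  j : G
  V : Subgroup G
  t_sq : t * t = 1
  t_ne : t ≠ 1
  Y_le : ∀ y ∈ Y, y * t = t * y
  t_mem : t ∈ Y
  Y_comm : ∀ x ∈ Y, ∀ y ∈ Y, x * y = y * x
  index_two : ∀ x z : G, x * t = t * x → x ∉ Y → z * t = t * z → z ∉ Y → x * z ∈ Y
  sq_out : ∀ x : G, x * t = t * x → x ∉ Y → x * x = 1 ∨ x * x = t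
  only_inv : ∀ u ∈ Y, u * u = 1 → u = 1 ∨ u = t
  centralizer_Y : ∀ y ∈ Y, y ≠ 1 → y ≠ t → ∀ g : G, g * y = y * g → g ∈ Y
  s_comm : s * t = t * s
  s_notMem : s ∉ Y
  s_sq : s * s = 1
  conj_s : IsConj t s
  i_mem : i ∈ Y
  i_sq : i * i = t
  i_inv : s * i * s⁻¹ = i⁻¹
  j_comm : j * t = t * j
  j_notMem : j ∉ Y
  j_sq : j * j = t
  no_three : ¬ 3 ∣ Nat.card (centralizer ({t} : Set G))
  V_card : Nat.card V = 9
  V_cc : ∀ v ∈ V, v ≠ 1 → ∀ g : G, g * v = v * g ↔ g ∈ V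
  t_inv : ∀ v ∈ V, t * v * t⁻¹ = v⁻¹
  i_norm : i ∈ normalizer (V : Set G)
  j_norm : j ∈ normalizer (V : Set G)

namespace TenData

variable (D : TenData G)

/-- The centraliser of the involution. -/
abbrev C : Subgroup G := centralizer ({D.t} : Set G)

lemma mem_C {x : G} : x ∈ D.C ↔ x * D.t = D.t * x := mem_centralizer_singleton_iff

lemma Y_le_C : D.Y ≤ D.C := fun y hy => D.mem_C.mpr (D.Y_le y hy)

lemma t_inv' : D.t⁻¹ = D.t := inv_eq_of_mul_eq_one_right D.t_sq

lemma t_comm {x : G} (hx : x ∈ D.C) : x * D.t = D.t * x := D.mem_C.mp hx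

lemma mul_notMem {x y : G} (hy : y ∈ D.Y) (hx : x ∉ D.Y) : y * x ∉ D.Y := fun h =>
  hx (by simpa using D.Y.mul_mem (D.Y.inv_mem hy) h)

lemma s_inv : D.s⁻¹ = D.s := inv_eq_of_mul_eq_one_right D.s_sq

lemma s_mul_notMem {x : G} (hx : x ∈ D.C) (hxY : x ∉ D.Y) : D.s * x ∈ D.Y :=
  D.index_two _ _ D.s_comm D.s_notMem (D.t_comm hx) hxY

lemma s_mul_mem {y : G} (hy : y ∈ D.Y) : D.s * y ∈ D.C ∧ D.s * y ∉ D.Y :=
  ⟨mul_mem (D.mem_C.mpr D.s_comm) (D.Y_le_C hy), fun h =>
    D.s_notMem (by simpa using D.Y.mul_mem h (D.Y.inv_mem hy))⟩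

lemma conj_mem {x y : G} (hx : x ∈ D.C) (hy : y ∈ D.Y) : x * y * x⁻¹ ∈ D.Y := by
  by_cases hxY : x ∈ D.Y
  · exact D.Y.mul_mem (D.Y.mul_mem hxY hy) (D.Y.inv_mem hxY)
  have hxi : y * x⁻¹ ∉ D.Y := D.mul_notMem hy (by simpa using hxY)
  rw [mul_assoc]
  exact D.index_two _ _ (D.t_comm hx) hxY (D.t_comm (mul_mem (D.Y_le_C hy) (inv_mem hx))) hxi

/-- The twist `y ↦ (s y)²`. -/
def ψ (y : G) : G := D.s * y * (D.s * y)

lemma ψ_cases {y : G} (hy : y ∈ D.Y) : D.ψ y = 1 ∨ D.ψ y = D.t :=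
  D.sq_out _ (D.t_comm (D.s_mul_mem hy).1) (D.s_mul_mem hy).2

lemma ψ_mem {y : G} (hy : y ∈ D.Y) : D.ψ y ∈ D.Y := by
  rcases D.ψ_cases hy with h | h <;> rw [h]
  exacts [D.Y.one_mem, D.t_mem]

lemma s_conj {y : G} (hy : y ∈ D.Y) : D.s * y * D.s = D.ψ y * y⁻¹ := by
  rw [ψ]; group

lemma ψ_mul {y z : G} (hy : y ∈ D.Y) (hz : z ∈ D.Y) : D.ψ (y * z) = D.ψ y * D.ψ z := by
  have h1 : D.s * y * D.s ∈ D.Y := by
    rw [D.s_conj hy]; exact D.Y.mul_mem (D.ψ_mem hy) (D.Y.inv_mem hy)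
  have h2 : D.s * z * D.s ∈ D.Y := by
    rw [D.s_conj hz]; exact D.Y.mul_mem (D.ψ_mem hz) (D.Y.inv_mem hz)
  have hs := D.s_sq
  have e : D.ψ (y * z) = (D.s * y * D.s) * ((D.s * z * D.s) * y) * z := by
    simp only [ψ, mul_assoc]
    rw [← mul_assoc D.s D.s, hs, one_mul]
  rw [e, D.Y_comm _ h2 _ hy, ψ, ψ]
  simp only [mul_assoc]

lemma ψ_i : D.ψ D.i = 1 := by
  have h := D.i_inv
  rw [D.s_inv] at h
  rw [ψ, ← mul_assoc, h, inv_mul_cancel]

lemma ψ_t : D.ψ D.t = 1 := by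
  rw [ψ, ← mul_assoc, D.s_comm, mul_assoc D.t, D.s_sq, mul_one, D.t_sq]

lemma ψ_one : D.ψ 1 = 1 := by rw [ψ, mul_one, D.s_sq]

/-- The part of `Y` inverted by `s`. -/
def K : Subgroup G where
  carrier := {y | y ∈ D.Y ∧ D.ψ y = 1}
  mul_mem' {a b} ha hb := ⟨D.Y.mul_mem ha.1 hb.1, by rw [D.ψ_mul ha.1 hb.1, ha.2, hb.2, one_mul]⟩
  one_mem' := ⟨D.Y.one_mem, D.ψ_one⟩
  inv_mem' {a} ha := ⟨D.Y.inv_mem ha.1, by
    have := D.ψ_mul ha.1 (D.Y.inv_mem ha.1)
    rw [mul_inv_cancel, D.ψ_one, ha.2, one_mul] at this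
    exact this.symm⟩

lemma s_inverts {y : G} (hy : y ∈ D.K) : D.s * y * D.s⁻¹ = y⁻¹ := by
  rw [D.s_inv, D.s_conj hy.1, hy.2, one_mul]

lemma sq_eq {x : G} (hx : x ∈ D.C) (hxY : x ∉ D.Y) : x * x = D.ψ (D.s * x) := by
  rw [ψ, ← mul_assoc D.s D.s, D.s_sq, one_mul]

lemma exists_ψ_t : ∃ y ∈ D.Y, D.ψ y = D.t :=
  ⟨D.s * D.j, D.s_mul_notMem (D.mem_C.mpr D.j_comm) D.j_notMem, by
    rw [← D.sq_eq (D.mem_C.mpr D.j_comm) D.j_notMem, D.j_sq]⟩

lemma t_not_one : D.t ≠ 1 := D.t_ne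

lemma Y_card : Nat.card D.Y = 2 * Nat.card D.K := by
  classical
  letI := Fintype.ofFinite G
  obtain ⟨a, ha, hat⟩ := D.exists_ψ_t
  let e : D.Y ≃ D.K × Bool :=
    { toFun := fun y => if h : D.ψ (y : G) = 1 then (⟨y, y.2, h⟩, true) else
        (⟨(y : G) * a, D.Y.mul_mem y.2 ha, by
          rw [D.ψ_mul y.2 ha, (D.ψ_cases y.2).resolve_left h, hat, D.t_sq]⟩, false)
      invFun := fun z => bif z.2 then ⟨z.1, z.1.2.1⟩ else ⟨(z.1 : G) * a⁻¹,
        D.Y.mul_mem z.1.2.1 (D.Y.inv_mem ha)⟩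
      left_inv := fun y => by
        by_cases h : D.ψ (y : G) = 1 <;> simp [h]
      right_inv := fun ⟨z, b⟩ => by
        cases b
        · have : ¬ D.ψ ((z : G) * a⁻¹) = 1 := by
            intro h
            have h2 := D.ψ_mul (D.Y.mul_mem z.2.1 (D.Y.inv_mem ha)) ha
            rw [inv_mul_cancel_right, z.2.2, h, one_mul, hat] at h2
            exact D.t_ne h2.symm
          simp [this]
        · simp [z.2.2] }
  rw [Nat.card_congr e, Nat.card_prod, Nat.card_eq_fintype_card (α := Bool), Fintype.card_bool,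
    mul_comm]

lemma C_card : Nat.card D.C = 2 * Nat.card D.Y := by
  classical
  let e : D.C ≃ D.Y × Bool :=
    { toFun := fun x => if h : (x : G) ∈ D.Y then (⟨x, h⟩, true) else
        (⟨D.s * x, D.s_mul_notMem x.2 h⟩, false)
      invFun := fun z => bif z.2 then ⟨z.1, D.Y_le_C z.1.2⟩ else
        ⟨D.s * z.1, (D.s_mul_mem z.1.2).1⟩
      left_inv := fun x => by
        by_cases h : (x : G) ∈ D.Y <;> simp [h, ← mul_assoc, D.s_sq]
      right_inv := fun ⟨z, b⟩ => by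
        cases b
        · simp [(D.s_mul_mem z.2).2, ← mul_assoc, D.s_sq]
        · simp [z.2] }
  rw [Nat.card_congr e, Nat.card_prod, Nat.card_eq_fintype_card (α := Bool), Fintype.card_bool,
    mul_comm]

lemma sq_eq_t {y : G} (hy : y ∈ D.Y) (h : y * y = D.t) : y = D.i ∨ y = D.i⁻¹ := by
  have hc := D.Y_comm y hy D.i D.i_mem
  have hc2 := D.Y_comm y hy D.i⁻¹ (D.Y.inv_mem D.i_mem)
  have h2 : y * D.i⁻¹ * (y * D.i⁻¹) = 1 := by
    calc y * D.i⁻¹ * (y * D.i⁻¹) = y * (D.i⁻¹ * y) * D.i⁻¹ := by group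
      _ = y * (y * D.i⁻¹) * D.i⁻¹ := by rw [hc2]
      _ = y * y * (D.i * D.i)⁻¹ := by group
      _ = 1 := by rw [h, D.i_sq, mul_inv_cancel]
  rcases D.only_inv _ (D.Y.mul_mem hy (D.Y.inv_mem D.i_mem)) h2 with e | e
  · exact Or.inl (mul_inv_eq_one.mp e)
  · refine Or.inr ?_
    rw [mul_inv_eq_iff_eq_mul] at e
    rw [e, eq_inv_iff_mul_eq_one, mul_assoc, D.i_sq, D.t_sq]

/-- All involutions of `C` other than `t` are conjugate to `t`. -/
lemma isConj_of_mem_C {u : G} (hu : u ∈ D.C) (h2 : u * u = 1) (h1 : u ≠ 1) : IsConj D.t u := by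
  classical
  by_cases huY : u ∈ D.Y
  · rcases D.only_inv u huY h2 with e | e
    · exact absurd e h1
    · exact e ▸ IsConj.refl _
  have hκ : D.s * u ∈ D.K := ⟨D.s_mul_notMem hu huY, by rw [← D.sq_eq hu huY, h2]⟩
  -- the map `y ↦ y² ψ y` covers `K`
  let f : D.Y → D.K := fun y => ⟨(y : G) * y * D.ψ (y : G),
    D.Y.mul_mem (D.Y.mul_mem y.2 y.2) (D.ψ_mem y.2), by
      rw [D.ψ_mul (D.Y.mul_mem y.2 y.2) (D.ψ_mem y.2), D.ψ_mul y.2 y.2]
      rcases D.ψ_cases y.2 with e | e <;> simp [e, D.ψ_one, D.ψ_t, D.t_sq]⟩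
  have hfib : ∀ y z : D.Y, f y = f z → (z : G) = y ∨ (z : G) = y * D.t := by
    intro y z h
    have h' : (y : G) * y * D.ψ (y : G) = (z : G) * z * D.ψ (z : G) := congrArg Subtype.val h
    have hc := D.Y_comm
    set w := (z : G)⁻¹ * (y : G) with hw
    have hwY : w ∈ D.Y := D.Y.mul_mem (D.Y.inv_mem z.2) y.2
    have hyw : (y : G) = z * w := by rw [hw, mul_inv_cancel_left]
    have h3 : w * w * D.ψ w = 1 := by
      rw [hyw, D.ψ_mul z.2 hwY] at h'
      have e : (z : G) * w * (z * w) * (D.ψ (z : G) * D.ψ w) =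
          (z * z * D.ψ (z : G)) * (w * w * D.ψ w) := by
        rw [show (z : G) * w * (z * w) = z * z * (w * w) by
            rw [mul_assoc, ← mul_assoc w (z : G) w, hc w hwY _ z.2]; group,
          show (z : G) * z * (w * w) * (D.ψ (z : G) * D.ψ w) =
            z * z * (w * w * D.ψ (z : G)) * D.ψ w by group,
          hc _ (D.Y.mul_mem hwY hwY) _ (D.ψ_mem z.2)]
        group
      rw [e] at h'
      exact mul_eq_left.mp h'
    have hw2 : w = 1 ∨ w = D.t := by
      rcases D.ψ_cases hwY with e | e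
      · rw [e, mul_one] at h3; exact D.only_inv w hwY h3
      · exfalso
        rw [e] at h3
        have h4 : w * w = D.t := by rw [← D.t_inv']; exact eq_inv_of_mul_eq_one_left h3
        have hi1 : D.ψ w = 1 := by
          rcases D.sq_eq_t hwY h4 with e' | e' <;> rw [e']
          · exact D.ψ_i
          · have := D.ψ_mul D.i_mem (D.Y.inv_mem D.i_mem)
            rw [mul_inv_cancel, D.ψ_one, D.ψ_i, one_mul] at this
            exact this.symm
        exact D.t_ne (e.symm.trans hi1)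
    rcases hw2 with e | e
    · left; rw [hyw, e, mul_one]
    · right; rw [hyw, e, mul_assoc, D.t_sq, mul_one]
  have hsurj : Function.Surjective f := by
    letI := Fintype.ofFinite G
    have hle : Fintype.card D.Y ≤ 2 * (Finset.univ.image f).card := by
      rw [← Finset.card_univ]
      refine Finset.card_le_mul_card_image _ 2 fun b hb => ?_
      obtain ⟨y, -, rfl⟩ := Finset.mem_image.mp hb
      refine le_trans (Finset.card_le_card (t := ({y, y * ⟨D.t, D.t_mem⟩} : Finset D.Y)) ?_)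
        (Finset.card_le_two (a := y) (b := y * ⟨D.t, D.t_mem⟩))
      intro z hz
      rw [Finset.mem_filter] at hz
      rcases hfib y z hz.2.symm with e | e
      · exact Finset.mem_insert.mpr (Or.inl (Subtype.ext e))
      · exact Finset.mem_insert.mpr (Or.inr (Finset.mem_singleton.mpr (Subtype.ext e)))
    have := D.Y_card
    rw [Nat.card_eq_fintype_card, Nat.card_eq_fintype_card] at this
    intro κ
    have hall : Finset.univ.image f = Finset.univ :=
      Finset.eq_univ_of_card _ (le_antisymm (Finset.card_le_univ _) (by omega))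
    obtain ⟨y, -, hy⟩ := Finset.mem_image.mp (hall ▸ Finset.mem_univ κ)
    exact ⟨y, hy⟩
  obtain ⟨y, hy⟩ := hsurj ⟨D.s * u, hκ⟩
  have hy' : (y : G) * y * D.ψ (y : G) = D.s * u := congrArg Subtype.val hy
  refine D.conj_s.trans (isConj_iff.mpr ⟨(y : G)⁻¹, ?_⟩)
  rw [inv_inv]
  have h3 : u = D.s * ((y : G) * y * D.ψ (y : G)) := by rw [hy', ← mul_assoc, D.s_sq, one_mul]
  have h4 : D.s * (y : G) * D.s = D.ψ (y : G) * (y : G)⁻¹ := D.s_conj y.2
  have hψs : D.ψ (y : G) * D.s = D.s * D.ψ (y : G) := by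
    rcases D.ψ_cases y.2 with e | e <;> rw [e]
    · simp
    · exact D.s_comm.symm
  calc (y : G)⁻¹ * D.s * y = (D.ψ (y : G))⁻¹ * (D.ψ (y : G) * (y : G)⁻¹) * D.s * y := by group
    _ = (D.ψ (y : G))⁻¹ * (D.s * y * D.s) * D.s * y := by rw [h4]
    _ = (D.ψ (y : G))⁻¹ * D.s * y * (D.s * D.s) * y := by group
    _ = D.ψ (y : G) * D.s * ((y : G) * y) := by
      rw [D.s_sq]
      rcases D.ψ_cases y.2 with e | e <;> rw [e] <;> simp [D.t_inv', mul_assoc]
    _ = D.s * ((y : G) * y * D.ψ (y : G)) := by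
      rw [hψs, mul_assoc, D.Y_comm _ (D.ψ_mem y.2) _ (D.Y.mul_mem y.2 y.2)]
    _ = u := h3.symm

lemma V_comm {u v : G} (hu : u ∈ D.V) (hv : v ∈ D.V) : u * v = v * u := by
  by_cases h : v = 1
  · simp [h]
  exact (D.V_cc v hv h u).mpr hu

lemma cube {v : G} (hv : v ∈ D.V) : v ^ 3 = 1 := by
  by_contra h
  haveI : Finite D.V := inferInstance
  have h9 : v ^ 9 = 1 := by
    have := pow_card_eq_one' (G := D.V) (x := ⟨v, hv⟩)
    rw [D.V_card] at this
    exact congrArg Subtype.val this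
  -- `t` inverts `v`; conjugation by `i` gives an element of `C` acting as an element of order `4`
  have hiv : D.i * v * D.i⁻¹ ∈ D.V := (mem_normalizer_iff.mp D.i_norm v).mp hv
  have hv1 : v ≠ 1 := fun e => h (by rw [e, one_pow])
  have hcyc : ∀ u ∈ D.V, u ∈ zpowers v := by
    have ho : orderOf v = 9 := by
      haveI : Fact (Nat.Prime 3) := ⟨Nat.prime_three⟩
      exact orderOf_eq_prime_pow (p := 3) (n := 1) (by simpa using h) (by simpa using h9)
    intro u hu
    have : zpowers v = D.V :=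
      eq_of_le_of_card_ge (zpowers_le.mpr hv) (by rw [Nat.card_zpowers, ho, D.V_card])
    rwa [this]
  obtain ⟨n, hn⟩ := hcyc _ hiv
  have h2 : D.i * (D.i * v * D.i⁻¹) * D.i⁻¹ = v⁻¹ := by
    rw [← D.t_inv v hv, ← D.i_sq]; group
  have hn' : v ^ n = D.i * v * D.i⁻¹ := hn
  rw [← hn', ← conj_zpow, ← hn', ← zpow_mul] at h2
  have ho : orderOf v = 9 := by
    haveI : Fact (Nat.Prime 3) := ⟨Nat.prime_three⟩
    exact orderOf_eq_prime_pow (p := 3) (n := 1) (by simpa using h) (by simpa using h9)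
  have h3 : v ^ (n * n + 1) = 1 := by rw [zpow_add, h2, zpow_one, inv_mul_cancel]
  rw [← orderOf_dvd_iff_zpow_eq_one, ho] at h3
  have h4 : ((n * n + 1 : ℤ) : ZMod 9) = 0 := (ZMod.intCast_zmod_eq_zero_iff_dvd _ _).mpr h3
  push_cast at h4
  exact (by decide : ∀ a : ZMod 9, a * a + 1 ≠ 0) _ h4

lemma free {c v : G} (hc : c ∈ D.C) (hv : v ∈ D.V) (hv1 : v ≠ 1) (h : c * v = v * c) : c = 1 := by
  by_contra hc1
  have hcV := (D.V_cc v hv hv1 c).mp h
  have h1 := D.t_inv c hcV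
  rw [← D.t_comm hc, mul_inv_cancel_right] at h1
  have h2 : c * c = 1 := by nth_rewrite 1 [h1]; exact inv_mul_cancel c
  exact hc1 (by
    have h3 := D.cube hcV
    rwa [pow_succ, pow_two, h2, one_mul] at h3)

lemma card_normalizer : Nat.card (normalizer (D.V : Set G)) = 72 := by
  classical
  set N := normalizer (D.V : Set G)
  -- the fixed point free part
  have hQ : Nat.card (N ⊓ D.C : Subgroup G) = 8 := by
    obtain ⟨v, hv, hv1⟩ : ∃ v ∈ D.V, v ≠ 1 := by
      by_contra hc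
      push Not at hc
      have : D.V = ⊥ := (eq_bot_iff_forall _).mpr hc
      have h9 := D.V_card
      rw [this, card_bot] at h9
      omega
    let g : (N ⊓ D.C : Subgroup G) → {u : D.V // u ≠ 1} := fun c =>
      ⟨⟨(c : G) * v * (c : G)⁻¹, (mem_normalizer_iff.mp c.2.1 v).mp hv⟩, fun e => hv1 (by
        have := congrArg Subtype.val e
        simpa [mul_inv_eq_one] using this)⟩
    have hg : Function.Injective g := by
      intro a b e
      have e' : (a : G) * v * (a : G)⁻¹ = (b : G) * v * (b : G)⁻¹ :=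
        congrArg (fun z : {u : D.V // u ≠ 1} => ((z : D.V) : G)) e
      have hfix : (b : G)⁻¹ * a * v = v * ((b : G)⁻¹ * a) := by
        calc (b : G)⁻¹ * a * v = (b : G)⁻¹ * ((a : G) * v * (a : G)⁻¹) * a := by group
          _ = (b : G)⁻¹ * ((b : G) * v * (b : G)⁻¹) * a := by rw [e']
          _ = _ := by group
      exact Subtype.ext (inv_mul_eq_one.mp (D.free (mul_mem (inv_mem b.2.2) a.2.2) hv hv1 hfix)).symm
    have hle : Nat.card (N ⊓ D.C : Subgroup G) ≤ 8 := by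
      have h := Nat.card_le_card_of_injective g hg
      letI := Fintype.ofFinite G
      have hc9 := D.V_card
      rw [Nat.card_eq_fintype_card] at hc9
      rw [Nat.card_eq_fintype_card (α := {u : D.V // u ≠ 1}), Fintype.card_subtype_compl,
        Fintype.card_subtype_eq, hc9] at h
      omega
    -- it contains `⟨i⟩` properly
    have hi4 : orderOf D.i = 4 := by
      refine orderOf_eq_prime_pow (p := 2) (n := 1) ?_ ?_
      · rw [pow_one, pow_two, D.i_sq]; exact D.t_ne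
      · rw [show 2 ^ (1 + 1) = 2 * 2 from rfl, pow_mul, pow_two D.i, D.i_sq, pow_two, D.t_sq]
    have hsub : zpowers D.i ≤ N ⊓ D.C :=
      zpowers_le.mpr ⟨D.i_norm, D.Y_le_C D.i_mem⟩
    have hj : D.j ∈ N ⊓ D.C := ⟨D.j_norm, D.mem_C.mpr D.j_comm⟩
    have hd := card_dvd_of_le hsub
    rw [Nat.card_zpowers, hi4] at hd
    have hne : Nat.card (N ⊓ D.C : Subgroup G) ≠ 4 := fun e4 => by
      have := eq_of_le_of_card_ge hsub (by rw [e4, Nat.card_zpowers, hi4])
      exact D.j_notMem (zpowers_le.mpr D.i_mem (this ▸ hj))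
    have hpos : 0 < Nat.card (N ⊓ D.C : Subgroup G) := Nat.card_pos
    omega
  let e : D.V × (N ⊓ D.C : Subgroup G) → N := fun z =>
    ⟨(z.1 : G) * z.2, mul_mem (le_normalizer z.1.2) z.2.2.1⟩
  have he : Function.Bijective e := by
    constructor
    · rintro ⟨v, c⟩ ⟨v', c'⟩ h
      have h' : (v : G) * c = (v' : G) * c' := congrArg Subtype.val h
      have hmem : (v' : G)⁻¹ * v ∈ D.C := by
        have : (v' : G)⁻¹ * v = (c' : G) * (c : G)⁻¹ := by
          rw [eq_mul_inv_iff_mul_eq, mul_assoc, h', inv_mul_cancel_left]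
        rw [this]; exact mul_mem c'.2.2 (inv_mem c.2.2)
      have h1 : (v' : G)⁻¹ * v = 1 := by
        by_contra hne
        have hV := D.V.mul_mem (D.V.inv_mem v'.2) v.2
        exact hne (D.free hmem hV hne rfl)
      have hvv : v = v' := Subtype.ext (inv_mul_eq_one.mp h1).symm
      subst hvv
      exact Prod.ext rfl (Subtype.ext (mul_left_cancel h'))
    · rintro ⟨x, hx⟩
      have hu : D.t * x * D.t⁻¹ * x⁻¹ ∈ D.V := by
        obtain ⟨v, hv, hv1⟩ : ∃ v ∈ D.V, v ≠ 1 := by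
          by_contra hc
          push Not at hc
          have h9 := D.V_card
          rw [(eq_bot_iff_forall _).mpr hc, card_bot] at h9
          omega
        refine (D.V_cc v hv hv1 _).mp ?_
        have hw : x⁻¹ * v * x ∈ D.V := by
          have := (mem_normalizer_iff.mp (inv_mem hx) v).mp hv
          simpa using this
        have h1 := D.t_inv _ hw
        have h2 := D.t_inv v hv
        calc D.t * x * D.t⁻¹ * x⁻¹ * v
            = D.t * x * D.t⁻¹ * (x⁻¹ * v * x) * x⁻¹ := by group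
          _ = D.t * x * (D.t * (x⁻¹ * v * x) * D.t⁻¹) * D.t⁻¹ * x⁻¹ := by
              rw [D.t_inv']
              simp only [mul_assoc]
              rw [← mul_assoc D.t D.t, D.t_sq, one_mul]
          _ = D.t * x * (x⁻¹ * v * x)⁻¹ * D.t⁻¹ * x⁻¹ := by rw [h1]
          _ = (D.t * v⁻¹ * D.t⁻¹) * (D.t * x * D.t⁻¹ * x⁻¹) := by group
          _ = v * (D.t * x * D.t⁻¹ * x⁻¹) := by rw [D.t_inv _ (D.V.inv_mem hv), inv_inv]
      set u := D.t * x * D.t⁻¹ * x⁻¹ with hudef
      -- `u²` moves `x` into `C`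
      have hux : D.t * x * D.t⁻¹ = u * x := by rw [hudef, inv_mul_cancel_right]
      have hu3 := D.cube hu
      have hc : (u * u) * x ∈ D.C := by
        rw [D.mem_C]
        have h1 : D.t * (u * u * x) * D.t⁻¹ = u * u * x := by
          calc D.t * (u * u * x) * D.t⁻¹
              = (D.t * u * D.t⁻¹) * (D.t * u * D.t⁻¹) * (D.t * x * D.t⁻¹) := by group
            _ = u⁻¹ * u⁻¹ * (u * x) := by rw [D.t_inv u hu, hux]
            _ = u⁻¹ * x := by group
            _ = u⁻¹ * u ^ 3 * x := by rw [hu3, mul_one]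
            _ = _ := by simp [pow_succ, mul_assoc]
        exact (mul_inv_eq_iff_eq_mul.mp h1).symm
      refine ⟨(⟨(u * u)⁻¹, D.V.inv_mem (D.V.mul_mem hu hu)⟩,
        ⟨u * u * x, mul_mem (mul_mem (le_normalizer hu) (le_normalizer hu)) hx, hc⟩), ?_⟩
      exact Subtype.ext (inv_mul_cancel_left _ _)
  rw [← Nat.card_congr (Equiv.ofBijective e he), Nat.card_prod, D.V_card, hQ]

lemma V_sylow : ∃ P : Sylow 3 G, (P : Subgroup G) = D.V := by
  haveI : Fact (Nat.Prime 3) := ⟨Nat.prime_three⟩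
  have hp : IsPGroup 3 D.V := IsPGroup.of_card (n := 2) (by rw [D.V_card]; norm_num)
  obtain ⟨P, hP⟩ := hp.exists_le_sylow
  refine ⟨P, ?_⟩
  by_contra hne
  have hlt : D.V.subgroupOf (P : Subgroup G) < ⊤ := lt_top_iff_ne_top.mpr fun h =>
    hne (le_antisymm (subgroupOf_eq_top.mp h) hP)
  haveI := P.2.isNilpotent
  obtain ⟨x, hx, hxn⟩ := SetLike.exists_of_lt (Group.normalizerCondition_of_isNilpotent _ hlt)
  have hxN : (x : G) ∈ normalizer (D.V : Set G) := by
    rw [mem_normalizer_iff]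
    intro v
    constructor
    · intro hv
      exact (mem_normalizer_iff.mp hx ⟨v, hP hv⟩).mp hv
    · intro hv
      have hvP : v ∈ (P : Subgroup G) := by
        have h1 := mul_mem (mul_mem (inv_mem x.2) (hP hv)) x.2
        simpa [mul_assoc] using h1
      exact (mem_normalizer_iff.mp hx ⟨v, hvP⟩).mpr hv
  have hbig : D.V < normalizer (D.V : Set G) ⊓ (P : Subgroup G) :=
    lt_of_le_of_ne (le_inf le_normalizer hP) fun e =>
      hxn (show (x : G) ∈ D.V by rw [e]; exact ⟨hxN, x.2⟩)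
  obtain ⟨n, hn⟩ := IsPGroup.iff_card.mp (P.2.to_le (inf_le_right :
    normalizer (D.V : Set G) ⊓ (P : Subgroup G) ≤ P))
  have h1 := card_dvd_of_le (inf_le_left :
    normalizer (D.V : Set G) ⊓ (P : Subgroup G) ≤ normalizer (D.V : Set G))
  rw [D.card_normalizer, hn] at h1
  have h2 : n ≤ 2 := by
    by_contra h
    have : 3 ^ 3 ∣ 72 := (pow_dvd_pow 3 (by omega)).trans h1
    norm_num at this
  have h3 := card_le_of_le hbig.le
  rw [D.V_card, hn] at h3
  have h4 : Nat.card (normalizer (D.V : Set G) ⊓ (P : Subgroup G) : Subgroup G) ≤ Nat.card D.V := by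
    rw [D.V_card, hn]
    calc 3 ^ n ≤ 3 ^ 2 := Nat.pow_le_pow_right (by norm_num) h2
      _ = 9 := rfl
  exact hbig.ne (eq_of_le_of_card_ge hbig.le h4)

include D in
/-- The order is `72` times a number congruent to one modulo three. -/
lemma card_eq : ∃ m, Nat.card G = 72 * m ∧ m % 3 = 1 := by
  haveI : Fact (Nat.Prime 3) := ⟨Nat.prime_three⟩
  obtain ⟨P, hP⟩ := D.V_sylow
  refine ⟨Nat.card (Sylow 3 G), ?_, ?_⟩
  · have h1 := card_mul_index (normalizer ((P : Subgroup G) : Set G))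
    have h2 : Nat.card (Sylow 3 G) = (normalizer ((P : Subgroup G) : Set G)).index :=
      Sylow.card_eq_index_normalizer P
    rw [hP] at h2
    rw [hP, D.card_normalizer, ← h2] at h1
    exact h1.symm
  · have := card_sylow_modEq_one 3 G
    exact this

lemma i_order : orderOf D.i = 4 := by
  refine orderOf_eq_prime_pow (p := 2) (n := 1) ?_ ?_
  · rw [pow_one, pow_two, D.i_sq]; exact D.t_ne
  · rw [show 2 ^ (1 + 1) = 2 * 2 from rfl, pow_mul, pow_two D.i, D.i_sq, pow_two, D.t_sq]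

/-- A homomorphism of the centraliser onto a group of order two killing `K` and `s`. -/
lemma exists_hom : ∃ φ : D.C →* Multiplicative (ZMod 2),
    (∀ x : D.C, (x : G) * x = 1 → φ x = 1) ∧
    (∀ x : D.C, (x : G) * x = D.t → ¬ ((x : G) = D.i ∨ (x : G) = D.i⁻¹) →
      φ x ≠ 1) ∧
    (∀ x : D.C, φ x = 1 → (x : G) ∈ D.K ∨ D.s * x ∈ D.K) := by
  classical
  let D0 : Subgroup D.C :=
    { carrier := {x | ((x : G) ∈ D.Y ∧ D.ψ (x : G) = 1) ∨ ((x : G) ∉ D.Y ∧ (x : G) * x = 1)}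
      one_mem' := Or.inl ⟨D.Y.one_mem, D.ψ_one⟩
      mul_mem' := by
        rintro ⟨a, ha⟩ ⟨b, hb⟩ h1 h2
        have hs := D.s_mul_notMem (x := a) ha
        have key : ∀ x : G, x ∈ D.C → x ∉ D.Y → x * x = 1 → D.s * x ∈ D.K := fun x hx hxY e =>
          ⟨D.s_mul_notMem hx hxY, by rw [← D.sq_eq hx hxY, e]⟩
        have back : ∀ κ ∈ D.K, D.s * κ ∉ D.Y ∧ D.s * κ * (D.s * κ) = 1 := fun κ hκ =>
          ⟨(D.s_mul_mem hκ.1).2, hκ.2⟩
        show (a * b ∈ D.Y ∧ D.ψ (a * b) = 1) ∨ (a * b ∉ D.Y ∧ a * b * (a * b) = 1)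
        rcases h1 with h1 | ⟨h1, h1'⟩ <;> rcases h2 with h2 | ⟨h2, h2'⟩
        · exact Or.inl (D.K.mul_mem h1 h2)
        · have hκ := D.K.mul_mem (D.K.inv_mem (show a ∈ D.K from h1)) (key b hb h2 h2')
          have e : a * b = D.s * (a⁻¹ * (D.s * b)) := by
            have := D.s_inverts (y := a⁻¹) (D.K.inv_mem h1)
            rw [inv_inv, D.s_inv] at this
            rw [← mul_assoc D.s, ← mul_assoc _ D.s, this]
          rw [e]; exact Or.inr (back _ hκ)
        · have hκ := D.K.mul_mem (key a ha h1 h1') (show b ∈ D.K from h2)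
          have e : a * b = D.s * ((D.s * a) * b) := by
            rw [← mul_assoc, ← mul_assoc D.s D.s, D.s_sq, one_mul]
          rw [e]; exact Or.inr (back _ hκ)
        · have hκ := D.K.mul_mem (D.K.inv_mem (key a ha h1 h1')) (key b hb h2 h2')
          have e : a * b = (D.s * a)⁻¹ * (D.s * b) := by
            rw [mul_inv_rev, D.s_inv, inv_eq_of_mul_eq_one_right h1', mul_assoc, ← mul_assoc D.s,
              D.s_sq, one_mul]
          rw [e]; exact Or.inl hκ
      inv_mem' := by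
        rintro ⟨a, ha⟩ h1
        show (a⁻¹ ∈ D.Y ∧ D.ψ a⁻¹ = 1) ∨ (a⁻¹ ∉ D.Y ∧ a⁻¹ * a⁻¹ = 1)
        rcases h1 with h1 | ⟨h1, h1'⟩
        · exact Or.inl (D.K.inv_mem (show a ∈ D.K from h1))
        · exact Or.inr ⟨by simpa using h1, by rw [← mul_inv_rev, h1', inv_one]⟩ }
  have mem0 : ∀ x : D.C, x ∈ D0 ↔
      (((x : G) ∈ D.Y ∧ D.ψ (x : G) = 1) ∨ ((x : G) ∉ D.Y ∧ (x : G) * x = 1)) := fun _ => Iff.rfl
  have hidx : D0.index = 2 := by
    obtain ⟨y, hy, hyt⟩ := D.exists_ψ_t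
    refine index_eq_two_iff.mpr ⟨⟨y, D.Y_le_C hy⟩, fun b => ?_⟩
    have inY : ∀ z : D.C, (z : G) ∈ D.Y → (z ∈ D0 ↔ D.ψ (z : G) = 1) := fun z hz => by
      simp [mem0, hz]
    have outY : ∀ z : D.C, (z : G) ∉ D.Y → (z ∈ D0 ↔ D.ψ (D.s * z) = 1) := fun z hz => by
      simp [mem0, hz, ← D.sq_eq z.2 hz]
    have htne := D.t_ne
    by_cases hb : (b : G) ∈ D.Y
    · rw [inY b hb, inY _ (by exact D.Y.mul_mem hb hy)]
      show Xor (D.ψ ((b : G) * y) = 1) _
      rw [D.ψ_mul hb hy, hyt]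
      rcases D.ψ_cases hb with e | e <;> simp [e, Xor, htne, D.t_sq]
    · have hby : (b : G) * y ∉ D.Y := fun h => hb (by simpa using D.Y.mul_mem h (D.Y.inv_mem hy))
      rw [outY b hb, outY _ hby]
      show Xor (D.ψ (D.s * ((b : G) * y)) = 1) _
      rw [← mul_assoc, D.ψ_mul (D.s_mul_notMem b.2 hb) hy, hyt]
      rcases D.ψ_cases (D.s_mul_notMem b.2 hb) with e | e <;> simp [e, Xor, htne, D.t_sq]
  let φ : D.C →* Multiplicative (ZMod 2) :=
    { toFun := fun x => if x ∈ D0 then 1 else Multiplicative.ofAdd 1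
      map_one' := if_pos D0.one_mem
      map_mul' := fun a b => by
        have := mul_mem_iff_of_index_two hidx (a := a) (b := b)
        by_cases ha : a ∈ D0 <;> by_cases hb : b ∈ D0
        · rw [if_pos (this.mpr (iff_of_true ha hb)), if_pos ha, if_pos hb, one_mul]
        · rw [if_neg (fun h => hb ((this.mp h).mp ha)), if_pos ha, if_neg hb, one_mul]
        · rw [if_neg (fun h => ha ((this.mp h).mpr hb)), if_neg ha, if_pos hb, mul_one]
        · rw [if_pos (this.mpr (iff_of_false ha hb)), if_neg ha, if_neg hb]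
          decide }
  have hφ : ∀ x, φ x = 1 ↔ x ∈ D0 := fun x => by
    by_cases h : x ∈ D0 <;> simp [φ, h]
  refine ⟨φ, fun x hx => (hφ x).mpr ?_, fun x hx hni h => ?_, fun x hx => ?_⟩
  · by_cases hY : (x : G) ∈ D.Y
    · rcases D.only_inv x hY hx with e | e
      · exact Or.inl ⟨hY, by rw [e, D.ψ_one]⟩
      · exact Or.inl ⟨hY, by rw [e, D.ψ_t]⟩
    · exact Or.inr ⟨hY, hx⟩
  · rcases (mem0 x).mp ((hφ x).mp h) with ⟨hY, -⟩ | ⟨-, e⟩
    · exact hni (D.sq_eq_t hY hx)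
    · exact D.t_ne (hx.symm.trans e)
  · rcases (mem0 x).mp ((hφ x).mp hx) with h | ⟨h, h'⟩
    · exact Or.inl h
    · exact Or.inr ⟨D.s_mul_notMem x.2 h, by rw [← D.sq_eq x.2 h, h']⟩

end TenData

end CfsgLib.Geometric.SLThree
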