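import Cfsg.Agent.Lib.Geometric.SLThree.GroupTen

/-!
The configuration `TenData`: transfer gives a subgroup of index two to which the
Brauer–Suzuki–Wall counting applies, so the order is `720` and an element of order five is
conjugate to its square.
-/

set_option autoImplicit false
set_option linter.unusedSectionVars false
set_option linter.style.haveILetI false

namespace CfsgLib.Geometric.SLThree

open Subgroup MulAction

namespace TenData

variable {G : Type*} [Group G] [Finite G] (D : TenData G)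
include D

lemma orderOf_dvd_four {x : G} (hx : x ∈ D.C) (hxY : x ∉ D.Y) : x ^ 4 = 1 := by
  rcases D.sq_out x (D.t_comm hx) hxY with e | e <;>
    rw [show 4 = 2 * 2 from rfl, pow_mul, pow_two x, e, pow_two] <;> simp [D.t_sq]

lemma j_ne_i {u : G} (hu : u ∈ D.Y) : ¬ IsConj D.j u := by
  intro h
  classical
  obtain ⟨c, hc⟩ := isConj_iff.mp h
  have hu2 : c * D.t * c⁻¹ = u * u := by rw [← hc, ← D.j_sq]; group
  have hu1 : u * u ≠ 1 := fun e => D.t_ne (by rw [e] at hu2; simpa [mul_inv_eq_one] using hu2)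
  have hu4 : u * u * (u * u) = 1 := by rw [← hu2]; simp [mul_assoc, ← mul_assoc D.t, D.t_sq]
  have hut : u * u = D.t := by
    rcases D.only_inv _ (D.Y.mul_mem hu hu) hu4 with e | e
    · exact absurd e hu1
    · exact e
  rw [hut] at hu2
  have hcC : c ∈ D.C := D.mem_C.mpr (mul_inv_eq_iff_eq_mul.mp hu2)
  exact D.j_notMem (by simpa [← hc, mul_assoc] using D.conj_mem (inv_mem hcC) hu)

lemma odd_index : Odd D.C.index := by
  classical
  haveI : Fact (Nat.Prime 2) := ⟨Nat.prime_two⟩
  -- a Sylow two-subgroup of `C` is one of `G`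
  obtain ⟨S⟩ : Nonempty (Sylow 2 D.C) := inferInstance
  obtain ⟨P, hP⟩ := (S.2.map D.C.subtype).exists_le_sylow
  rw [Nat.odd_iff]
  by_contra h
  have h2 : 2 ∣ D.C.index := by omega
  have hSP : ((S : Subgroup D.C).map D.C.subtype) ≠ (P : Subgroup G) := by
    intro e
    have h1 := P.not_dvd_index
    apply h1
    rw [← e, index_map_subtype]
    exact dvd_mul_of_dvd_right h2 _
  set S' := (S : Subgroup D.C).map D.C.subtype
  have hlt : S'.subgroupOf (P : Subgroup G) < ⊤ := lt_top_iff_ne_top.mpr fun h' =>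
    hSP (le_antisymm hP (subgroupOf_eq_top.mp h'))
  haveI := P.2.isNilpotent
  obtain ⟨x, hx, hxn⟩ := SetLike.exists_of_lt (Group.normalizerCondition_of_isNilpotent _ hlt)
  have hSC : ∀ y ∈ S', y ∈ D.C := by rintro _ ⟨y, -, rfl⟩; exact y.2
  have hn : ∀ y ∈ S', (x : G) * y * (x : G)⁻¹ ∈ S' := fun y hy =>
    (mem_normalizer_iff.mp hx ⟨y, hP hy⟩).mp hy
  -- `t` and some conjugates of `i`, `j` lie in `S'`
  have hi2 : IsPGroup 2 (zpowers (⟨D.i, D.Y_le_C D.i_mem⟩ : D.C)) :=
    IsPGroup.of_card (n := 2) (by rw [Nat.card_zpowers, ← orderOf_coe]; exact D.i_order)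
  obtain ⟨T, hT⟩ := hi2.exists_le_sylow
  obtain ⟨c, hc⟩ := exists_smul_eq D.C T S
  have hiS : (c : G) * D.i * (c : G)⁻¹ ∈ S' := by
    refine ⟨c * ⟨D.i, D.Y_le_C D.i_mem⟩ * c⁻¹, ?_, rfl⟩
    rw [← hc]
    exact ⟨_, hT (mem_zpowers _), rfl⟩
  have htS : D.t ∈ S' := by
    have := S'.mul_mem hiS hiS
    rw [show (c : G) * D.i * (c : G)⁻¹ * ((c : G) * D.i * (c : G)⁻¹)
      = (c : G) * (D.i * D.i) * (c : G)⁻¹ by group, D.i_sq, D.t_comm c.2, mul_inv_cancel_right] at this
    exact this
  set u := (x : G) * D.t * (x : G)⁻¹ with hu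
  have huS : u ∈ S' := hn _ htS
  -- `u` commutes with all of `S'`
  have hcent : ∀ y ∈ S', u * y = y * u := by
    intro y hy
    have hy' : (x : G)⁻¹ * y * x ∈ S' := by
      have h' : x⁻¹ ∈ normalizer (S'.subgroupOf (P : Subgroup G) : Set (P : Subgroup G)) := inv_mem hx
      have := (mem_normalizer_iff.mp h' ⟨y, hP hy⟩).mp hy
      simpa [mem_subgroupOf] using this
    have h1 := D.t_comm (hSC _ hy')
    calc u * y = (x : G) * (D.t * ((x : G)⁻¹ * y * x)) * (x : G)⁻¹ := by rw [hu]; group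
      _ = (x : G) * (((x : G)⁻¹ * y * x) * D.t) * (x : G)⁻¹ := by rw [h1]
      _ = y * u := by rw [hu]; group
  have hu2 : u * u = 1 := by rw [hu]; simp [mul_assoc, ← mul_assoc D.t, D.t_sq]
  have hu1 : u ≠ 1 := fun e => D.t_ne (by rw [hu] at e; simpa [mul_inv_eq_one] using e)
  by_cases hut : u = D.t
  · have hxC : (x : G) ∈ D.C := D.mem_C.mpr (mul_inv_eq_iff_eq_mul.mp hut)
    have hext : IsPGroup 2 ((S : Subgroup D.C) ⊔ zpowers (⟨x, hxC⟩ : D.C) : Subgroup D.C) := by
      refine (P.2.comap_of_injective D.C.subtype Subtype.val_injective).to_le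
        (sup_le (fun y hy => ?_) (zpowers_le.mpr x.2))
      exact hP ⟨y, hy, rfl⟩
    have := S.3 hext le_sup_left
    exact hxn ⟨⟨x, hxC⟩, this ▸ (mem_sup_right (mem_zpowers _) :
      (⟨x, hxC⟩ : D.C) ∈ (S : Subgroup D.C) ⊔ zpowers (⟨x, hxC⟩ : D.C)), rfl⟩
  · -- then `u` is outside `Y` and inverts `i`
    have huC := hSC u huS
    have huY : u ∉ D.Y := fun h' => by
      rcases D.only_inv u h' hu2 with e | e
      exacts [hu1 e, hut e]
    set i' := (c : G) * D.i * (c : G)⁻¹ with hi'
    have hi'Y : i' ∈ D.Y := D.conj_mem c.2 D.i_mem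
    have hi'2 : i' * i' = D.t := by
      rw [hi', show (c : G) * D.i * (c : G)⁻¹ * ((c : G) * D.i * (c : G)⁻¹)
        = (c : G) * (D.i * D.i) * (c : G)⁻¹ by group, D.i_sq, D.t_comm c.2, mul_inv_cancel_right]
    have hsu : D.s * u ∈ D.Y := D.s_mul_notMem huC huY
    have hψi : D.ψ i' = 1 := by
      rcases D.sq_eq_t hi'Y hi'2 with e | e <;> rw [e]
      · exact D.ψ_i
      · have := D.ψ_mul D.i_mem (D.Y.inv_mem D.i_mem)
        rw [mul_inv_cancel, D.ψ_one, D.ψ_i, one_mul] at this
        exact this.symm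
    have hinv : u * i' * u⁻¹ = i'⁻¹ := by
      have e : u = D.s * (D.s * u) := by rw [← mul_assoc, D.s_sq, one_mul]
      rw [e, mul_inv_rev, show D.s * (D.s * u) * i' * ((D.s * u)⁻¹ * D.s⁻¹)
        = D.s * ((D.s * u) * i' * (D.s * u)⁻¹) * D.s⁻¹ by group,
        D.Y_comm _ hsu _ hi'Y, mul_inv_cancel_right]
      exact D.s_inverts ⟨hi'Y, hψi⟩
    rw [hcent i' hiS, mul_inv_cancel_right, eq_inv_iff_mul_eq_one, hi'2] at hinv
    exact D.t_ne hinv

omit D in
lemma orderOf_conj' (g x : G) : orderOf (g * x * g⁻¹) = orderOf x :=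
  (MulAut.conj g).orderOf_eq x

/-- All involutions are conjugate to `t`. -/
lemma isConj_involution {u : G} (h2 : u * u = 1) (h1 : u ≠ 1) : IsConj D.t u := by
  haveI : Fact (Nat.Prime 2) := ⟨Nat.prime_two⟩
  obtain ⟨S⟩ : Nonempty (Sylow 2 D.C) := inferInstance
  have hodd := D.odd_index
  have hc2 : Nat.card ((S : Subgroup D.C).map D.C.subtype) = 2 ^ (Nat.card G).factorization 2 := by
    rw [card_map_of_injective Subtype.val_injective, S.card_eq_multiplicity]
    congr 1
    rw [← card_mul_index D.C, Nat.factorization_mul Nat.card_pos.ne' index_ne_zero_of_finite,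
      Finsupp.add_apply, Nat.factorization_eq_zero_of_not_dvd (n := D.C.index)
        (fun h => by have := Nat.odd_iff.mp hodd; omega), add_zero]
  obtain ⟨Q, hQ⟩ := (IsPGroup.of_card (p := 2) (G := zpowers u) (n := 1) (by
    rw [Nat.card_zpowers, pow_one, orderOf_eq_prime (by rw [pow_two]; exact h2) h1])).exists_le_sylow
  obtain ⟨g, hg⟩ := exists_smul_eq G Q (Sylow.ofCard _ hc2)
  have hmem : g * u * g⁻¹ ∈ D.C := by
    have : g * u * g⁻¹ ∈ (S : Subgroup D.C).map D.C.subtype := by
      show g * u * g⁻¹ ∈ ((Sylow.ofCard _ hc2 : Sylow 2 G) : Subgroup G)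
      rw [← hg]; exact ⟨u, hQ (mem_zpowers _), rfl⟩
    obtain ⟨y, -, hy⟩ := this
    exact hy ▸ y.2
  exact (D.isConj_of_mem_C hmem
    (by rw [show g * u * g⁻¹ * (g * u * g⁻¹) = g * (u * u) * g⁻¹ by group, h2, mul_one, mul_inv_cancel])
    (fun e => h1 (by simpa [mul_inv_eq_one] using e))).trans (isConj_iff.mpr ⟨g⁻¹, by group⟩)

/-- The subgroup of index two. -/
lemma exists_index_two : ∃ M : Subgroup G, M.index = 2 ∧ D.j ∉ M ∧
    (∀ x : G, x * x = 1 → x ∈ M) ∧ (∀ y ∈ D.K, y ∈ M) := by
  classical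
  obtain ⟨φ, hφinv, hφj, -⟩ := D.exists_hom
  haveI : FiniteIndex D.C := ⟨index_ne_zero_of_finite⟩
  letI := Fintype.ofFinite G
  let Φ : G →* Multiplicative (ZMod 2) := MonoidHom.transfer φ
  have two : ∀ a : Multiplicative (ZMod 2), a ≠ 1 → a = Multiplicative.ofAdd 1 := by decide
  have hodd := D.odd_index
  have hj4 := D.orderOf_dvd_four (D.mem_C.mpr D.j_comm) D.j_notMem
  have hΦ : Φ D.j = Multiplicative.ofAdd 1 := by
    rw [MonoidHom.transfer_eq_prod_quotient_orbitRel_zpowers_quot]
    set W := Quotient (orbitRel (zpowers D.j) (G ⧸ D.C))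
    -- orbits of length one contribute, the others do not
    have hterm : ∀ q : W, φ ⟨q.out.out⁻¹ * D.j ^ Function.minimalPeriod (D.j • ·) q.out * q.out.out,
        QuotientGroup.out_conj_pow_minimalPeriod_mem D.C D.j q.out⟩ =
        Multiplicative.ofAdd (if Function.minimalPeriod (D.j • ·) q.out = 1 then (1 : ZMod 2) else 0) := by
      intro q
      have hp : Function.minimalPeriod (D.j • ·) q.out ∣ 4 :=
        Function.IsPeriodicPt.minimalPeriod_dvd (by
          show (D.j • ·)^[4] q.out = q.out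
          rw [smul_iterate, hj4]
          exact one_smul _ _)
      rcases (Nat.dvd_prime_pow Nat.prime_two).mp (show _ ∣ 2 ^ 2 from hp) with ⟨n, hn, e⟩
      interval_cases n
      · rw [if_pos (by rw [e]; rfl)]
        refine two _ (hφj _ ?_ ?_)
        · have hmem := QuotientGroup.out_conj_pow_minimalPeriod_mem D.C D.j q.out
          simp only [e, pow_zero, pow_one] at hmem
          simp only [e, pow_zero, pow_one]
          set g := q.out.out
          by_cases hY : g⁻¹ * D.j * g ∈ D.Y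
          · exact absurd (isConj_iff.mpr ⟨g⁻¹, by rw [inv_inv]⟩) (D.j_ne_i hY)
          rcases D.sq_out _ (D.t_comm hmem) hY with h | h
          · exfalso
            have h' : D.j * D.j = 1 := by
              calc D.j * D.j = g * (g⁻¹ * D.j * g * (g⁻¹ * D.j * g)) * g⁻¹ := by group
                _ = 1 := by rw [h, mul_one, mul_inv_cancel]
            exact D.t_ne (D.j_sq.symm.trans h')
          · exact h
        · simp only [e, pow_zero, pow_one]
          rintro (h | h)
          · exact D.j_ne_i D.i_mem (isConj_iff.mpr ⟨(q.out.out)⁻¹, by rw [inv_inv, h]⟩)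
          · exact D.j_ne_i (D.Y.inv_mem D.i_mem) (isConj_iff.mpr ⟨(q.out.out)⁻¹, by rw [inv_inv, h]⟩)
      all_goals
        rw [if_neg (by rw [e]; norm_num), ofAdd_zero]
        refine hφinv _ ?_
        simp only [e]
        set g := q.out.out
        have key : ∀ y : G, y * y = 1 → g⁻¹ * y * g * (g⁻¹ * y * g) = 1 := fun y hy => by
          calc g⁻¹ * y * g * (g⁻¹ * y * g) = g⁻¹ * (y * y) * g := by group
            _ = 1 := by rw [hy, mul_one, inv_mul_cancel]
        refine key _ ?_
        rw [← pow_add]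
        norm_num
        first
          | exact hj4
          | rw [show (8 : ℕ) = 4 * 2 from rfl, pow_mul, hj4, one_pow]
    rw [Finset.prod_congr rfl fun q _ => hterm q, ← ofAdd_sum]
    refine congrArg _ ?_
    rw [Finset.sum_boole]
    -- the orbits of length one are the fixed points
    have hP : IsPGroup 2 (zpowers D.j) := IsPGroup.of_card (n := 2) (by
      rw [Nat.card_zpowers]
      refine orderOf_eq_prime_pow (p := 2) (n := 1) ?_ (by simpa using hj4)
      rw [pow_one, pow_two, D.j_sq]; exact D.t_ne)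
    haveI : Fact (Nat.Prime 2) := ⟨Nat.prime_two⟩
    have hfix := hP.card_modEq_card_fixedPoints (G ⧸ D.C)
    rw [← index_eq_card] at hfix
    have hcard : (Finset.univ.filter fun q : W => Function.minimalPeriod (D.j • ·) q.out = 1).card
        = Nat.card (fixedPoints (zpowers D.j) (G ⧸ D.C)) := by
      rw [Nat.card_eq_fintype_card, ← Fintype.card_subtype]
      have hper : ∀ x : G ⧸ D.C, Function.minimalPeriod (D.j • ·) x = 1 ↔
          x ∈ fixedPoints (zpowers D.j) (G ⧸ D.C) := by
        intro x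
        rw [Function.minimalPeriod_eq_one_iff_isFixedPt, mem_fixedPoints]
        constructor
        · rintro h ⟨y, n, rfl⟩
          exact (stabilizer G x).zpow_mem h n
        · intro h
          exact h ⟨D.j, mem_zpowers _⟩
      refine Fintype.card_congr
        { toFun := fun q => ⟨q.1.out, (hper _).mp q.2⟩
          invFun := fun x => ⟨Quotient.mk'' x.1, ?_⟩
          left_inv := fun q => Subtype.ext (Quotient.out_eq' q.1)
          right_inv := fun x => Subtype.ext ?_ }
      all_goals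
        have hx : (Quotient.mk'' x.1 : W).out = x.1 := by
          have h := Quotient.mk_out' (s₁ := orbitRel (zpowers D.j) (G ⧸ D.C)) x.1
          obtain ⟨y, hy⟩ : ∃ y : zpowers D.j, y • x.1 = (Quotient.mk'' x.1 : W).out := h
          rw [← hy]; exact x.2 y
      · rw [hx]; exact (hper _).mpr x.2
      · exact hx
    rw [hcard]
    have : Odd (Nat.card (fixedPoints (zpowers D.j) (G ⧸ D.C))) := by
      rw [Nat.odd_iff, ← hfix, ← Nat.odd_iff]
      exact hodd
    obtain ⟨n, hn⟩ := this
    rw [hn]; push_cast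
    rw [show (2 : ZMod 2) = 0 from rfl, zero_mul, zero_add]
  have hsurj : Function.Surjective Φ := fun a => by
    by_cases ha : a = 1
    · exact ⟨1, by rw [ha, map_one]⟩
    · exact ⟨D.j, hΦ.trans (two a ha).symm⟩
  have hinv : ∀ x : G, x * x = 1 → x ∈ Φ.ker := by
    intro x hx
    by_cases h1 : x = 1
    · rw [h1]; exact one_mem _
    have hconj : IsConj D.t x := D.isConj_involution hx h1
    obtain ⟨c, hc⟩ := isConj_iff.mp hconj
    rw [MonoidHom.mem_ker, ← hc, ← D.j_sq, map_mul, map_mul, map_mul, hΦ, map_inv,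
      show Multiplicative.ofAdd (1 : ZMod 2) * Multiplicative.ofAdd 1 = 1 by decide, mul_one,
      mul_inv_cancel]
  refine ⟨Φ.ker, ?_, ?_, hinv, fun y hy => ?_⟩
  · rw [index_ker, MonoidHom.range_eq_top.mpr hsurj, card_top]
    simp
  · rw [MonoidHom.mem_ker, hΦ]
    decide
  · have h1 := hinv D.s D.s_sq
    have h2 : D.s * y * (D.s * y) = 1 := hy.2
    have := mul_mem h1 (hinv _ h2)
    rwa [← mul_assoc, D.s_sq, one_mul] at this

/-- The order of the group and of the centraliser. -/
theorem card_720 : Nat.card G = 720 ∧ Nat.card D.C = 16 := by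
  classical
  obtain ⟨M, hM, hjM, hinvM, hKM⟩ := D.exists_index_two
  have hsM : D.s ∈ M := hinvM _ D.s_sq
  have htM : D.t ∈ M := hinvM _ D.t_sq
  have hmemM : ∀ x : G, x ∈ D.C → x ∈ M → x ∈ D.K ∨ D.s * x ∈ D.K := by
    intro x hx hxM
    by_cases hY : x ∈ D.Y
    · left
      refine ⟨hY, (D.ψ_cases hY).resolve_right fun e => ?_⟩
      -- `x * (s * j)` would be in `K`
      have ha := D.s_mul_notMem (D.mem_C.mpr D.j_comm) D.j_notMem
      have hψa : D.ψ (D.s * D.j) = D.t := by
        rw [← D.sq_eq (D.mem_C.mpr D.j_comm) D.j_notMem, D.j_sq]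
      have hk : x * (D.s * D.j) ∈ M := hKM _ ⟨D.Y.mul_mem hY ha, by rw [D.ψ_mul hY ha, e, hψa, D.t_sq]⟩
      exact hjM ((M.mul_mem_cancel_left hsM).mp ((M.mul_mem_cancel_left hxM).mp hk))
    · right
      have h := D.s_mul_notMem hx hY
      refine ⟨h, (D.ψ_cases h).resolve_right fun e => ?_⟩
      have ha := D.s_mul_notMem (D.mem_C.mpr D.j_comm) D.j_notMem
      have hψa : D.ψ (D.s * D.j) = D.t := by
        rw [← D.sq_eq (D.mem_C.mpr D.j_comm) D.j_notMem, D.j_sq]
      have hk : D.s * x * (D.s * D.j) ∈ M :=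
        hKM _ ⟨D.Y.mul_mem h ha, by rw [D.ψ_mul h ha, e, hψa, D.t_sq]⟩
      exact hjM ((M.mul_mem_cancel_left hsM).mp ((M.mul_mem_cancel_left (M.mul_mem hsM hxM)).mp hk))
  have hz : ∀ {a b : M}, a = b ↔ (a : G) = b := fun {a b} => Subtype.ext_iff
  let t0 : M := ⟨D.t, htM⟩
  let s0 : M := ⟨D.s, hsM⟩
  let K0 : Subgroup M := D.K.subgroupOf M
  have hC0 : ∀ x : M, x ∈ centralizer ({t0} : Set M) ↔ (x : G) ∈ D.C := fun x => by
    rw [mem_centralizer_singleton_iff, D.mem_C, hz]; rfl
  have ht0 : orderOf t0 = 2 := by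
    rw [← orderOf_coe]; exact orderOf_eq_prime (by rw [pow_two]; exact D.t_sq) D.t_ne
  have hKab : IsMulCommutative K0 :=
    ⟨⟨fun a b => Subtype.ext (Subtype.ext (D.Y_comm _ a.2.1 _ b.2.1))⟩⟩
  have hKH : K0 ≤ centralizer ({t0} : Set M) := fun x hx => (hC0 x).mpr (D.Y_le_C hx.1)
  have htK : t0 ∈ K0 := ⟨D.t_mem, D.ψ_t⟩
  have hs0 : orderOf s0 = 2 := by
    rw [← orderOf_coe]
    exact orderOf_eq_prime (by rw [pow_two]; exact D.s_sq) fun e => D.s_notMem (by rw [show D.s = 1 from e]; exact D.Y.one_mem)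
  have hsH : s0 ∈ centralizer ({t0} : Set M) := (hC0 s0).mpr (D.mem_C.mpr D.s_comm)
  have hsK : s0 ∉ K0 := fun h => D.s_notMem h.1
  have hH : K0 ⊔ zpowers s0 = centralizer ({t0} : Set M) := by
    refine le_antisymm (sup_le hKH (zpowers_le.mpr hsH)) fun x hx => ?_
    rcases hmemM x ((hC0 x).mp hx) x.2 with h | h
    · exact mem_sup_left h
    · have he : x = s0 * ⟨D.s * x, M.mul_mem hsM x.2⟩ :=
        Subtype.ext (by show (x : G) = D.s * (D.s * x); rw [← mul_assoc, D.s_sq, one_mul])
      rw [he]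
      exact mul_mem (mem_sup_right (mem_zpowers _)) (mem_sup_left h)
  have hCK : K0 ⊓ centralizer ({s0} : Set M) = zpowers t0 := by
    refine le_antisymm (fun x hx => ?_) (zpowers_le.mpr ⟨htK, ?_⟩)
    · have hc : (x : G) * D.s = D.s * x := congrArg Subtype.val (mem_centralizer_singleton_iff.mp hx.2)
      have h1 := D.s_inverts (y := (x : G)) hx.1
      rw [← hc, mul_inv_cancel_right, eq_inv_iff_mul_eq_one] at h1
      rcases D.only_inv _ hx.1.1 h1 with e | e
      · rw [show x = 1 from Subtype.ext e]; exact one_mem _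
      · rw [show x = t0 from Subtype.ext e]; exact mem_zpowers _
    · exact mem_centralizer_singleton_iff.mpr (Subtype.ext D.s_comm.symm)
  have hinv : ∀ x ∈ K0, s0 * x * s0⁻¹ = x⁻¹ := fun x hx => Subtype.ext (D.s_inverts (y := (x : G)) hx)
  have hTI : ∀ g : M, g ∉ centralizer ({t0} : Set M) →
      K0 ⊓ K0.map (MulAut.conj g).toMonoidHom = ⊥ := by
    intro g hg
    rw [eq_bot_iff]
    rintro x ⟨hx, y, hy, hyx⟩
    rw [mem_bot]
    by_contra hx1
    have hyx' : (g : G) * y * (g : G)⁻¹ = x := congrArg Subtype.val hyx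
    have htg : ¬ (g : G) * D.t = D.t * g := fun e => hg ((hC0 g).mpr (D.mem_C.mpr e))
    have hx1' : (x : G) ≠ 1 := fun e => hx1 (Subtype.ext e)
    have hy1 : (y : G) ≠ 1 := fun e => hx1' (by rw [← hyx', e, mul_one, mul_inv_cancel])
    by_cases hxt : (x : G) = D.t
    · by_cases hyt : (y : G) = D.t
      · rw [hyt, hxt, mul_inv_eq_iff_eq_mul] at hyx'; exact htg hyx'
      · have h2 : (y : G) * y = 1 := by
          have := D.t_sq; rw [← hxt, ← hyx'] at this
          calc (y : G) * y = (g : G)⁻¹ * ((g : G) * y * (g : G)⁻¹ * ((g : G) * y * (g : G)⁻¹)) * g := by group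
            _ = 1 := by rw [this, mul_one, inv_mul_cancel]
        rcases D.only_inv _ hy.1 h2 with e | e
        exacts [hy1 e, hyt e]
    · -- `g t g⁻¹` centralises `x`, so lies in `Y`
      have h1 : (g : G) * D.t * (g : G)⁻¹ * x = x * ((g : G) * D.t * (g : G)⁻¹) := by
        rw [← hyx']
        calc (g : G) * D.t * (g : G)⁻¹ * ((g : G) * y * (g : G)⁻¹)
            = (g : G) * (D.t * y) * (g : G)⁻¹ := by group
          _ = (g : G) * ((y : G) * D.t) * (g : G)⁻¹ := by rw [show D.t * (y : G) = y * D.t from (D.Y_le (y : G) hy.1).symm]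
          _ = _ := by group
      have h2 := D.centralizer_Y _ hx.1 hx1' hxt _ h1
      rcases D.only_inv _ h2 (by simp [mul_assoc, ← mul_assoc D.t, D.t_sq]) with e | e
      · exact D.t_ne (by simpa [mul_inv_eq_one] using e)
      · rw [mul_inv_eq_iff_eq_mul] at e; exact htg e
  have hconj : ∀ x y : M, orderOf x = 2 → orderOf y = 2 → IsConj x y := by
    suffices h : ∀ x : M, orderOf x = 2 → IsConj t0 x from
      fun x y hx hy => (h x hx).symm.trans (h y hy)
    intro x hx
    have h2 : (x : G) * x = 1 := by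
      have := pow_orderOf_eq_one x
      rw [hx, pow_two] at this
      exact congrArg Subtype.val this
    have h1 : (x : G) ≠ 1 := fun e => by
      rw [show x = 1 from Subtype.ext e, orderOf_one] at hx; omega
    have hc := D.isConj_involution h2 h1
    obtain ⟨c, hc⟩ := isConj_iff.mp hc
    by_cases hcM : c ∈ M
    · exact isConj_iff.mpr ⟨⟨c, hcM⟩, Subtype.ext hc⟩
    · have : c * D.j ∈ M := (mul_mem_iff_of_index_two hM).mpr (iff_of_false hcM hjM)
      refine isConj_iff.mpr ⟨⟨c * D.j, this⟩, Subtype.ext ?_⟩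
      show c * D.j * D.t * (c * D.j)⁻¹ = x
      rw [← hc, mul_inv_rev, mul_assoc c D.j, D.j_comm]
      group
  let B : CfsgLib.SectRank.BSW.Setting M :=
    ⟨t0, ht0, K0, hKab, hKH, htK, s0, hs0, hsH, hsK, hH, hCK, hinv, hTI, hconj⟩
  letI := Fintype.ofFinite M
  have hKle : D.K ≤ M := hKM
  have hk : B.k = Nat.card D.K := Nat.card_congr (subgroupOfEquivOfLe hKle).toEquiv
  have hC : Nat.card D.C = 4 * B.k := by rw [D.C_card, D.Y_card, hk]; ring
  have hk4 : 4 ∣ B.k := by
    rw [hk, ← D.i_order]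
    exact Subgroup.orderOf_dvd_natCard D.K ⟨D.i_mem, D.ψ_i⟩
  have hGk : Nat.card G = 4 * B.k * B.v := by
    rw [← card_mul_index M, hM, B.card_G]; ring
  obtain ⟨m, hm, hm3⟩ := D.card_eq
  -- a non-identity element of `V` is real and outside
  obtain ⟨v, hv, hv1⟩ : ∃ v ∈ D.V, v ≠ 1 := by
    by_contra hc
    push Not at hc
    have h9 := D.V_card
    rw [(eq_bot_iff_forall _).mpr hc, card_bot] at h9
    omega
  have hvM : v ∈ M := by
    have h3 := D.cube hv
    have h2 : v * v ∈ M := mul_self_mem_of_index_two hM v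
    have : v = (v * v) * (v * v) := by
      calc v = v ^ 3 * v := by rw [h3, one_mul]
        _ = _ := by simp [pow_succ, mul_assoc]
    rw [this]; exact mul_mem h2 h2
  let v0 : M := ⟨v, hvM⟩
  have hv0 : B.Out v0 := by
    refine ⟨fun e => hv1 (congrArg Subtype.val e), ?_⟩
    rintro ⟨x, hx⟩
    have hC' : (x : G)⁻¹ * v * x ∈ D.C := D.Y_le_C hx.1
    refine D.no_three ?_
    have ho : orderOf ((x : G)⁻¹ * v * x) = 3 := by
      haveI : Fact (Nat.Prime 3) := ⟨Nat.prime_three⟩
      refine orderOf_eq_prime ?_ fun e => hv1 ?_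
      · have := conj_pow (a := (x : G)⁻¹) (b := v) (i := 3)
        rw [inv_inv] at this
        rw [this, D.cube hv, mul_one, inv_mul_cancel]
      · calc v = (x : G) * ((x : G)⁻¹ * v * x) * (x : G)⁻¹ := by group
          _ = 1 := by rw [e, mul_one, mul_inv_cancel]
    exact ho ▸ Subgroup.orderOf_dvd_natCard _ hC'
  have hreal : B.Real v0 := ⟨hv0, t0, ht0, Subtype.ext (D.t_inv v hv)⟩
  have hβ : B.β v0 = 9 := by
    rw [B.β_real hreal, ← D.V_card]
    have hVM : D.V ≤ M := fun u hu => by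
      have h2 : u * u ∈ M := mul_self_mem_of_index_two hM u
      have : u = (u * u) * (u * u) := by
        calc u = u ^ 3 * u := by rw [D.cube hu, one_mul]
          _ = _ := by simp [pow_succ, mul_assoc]
      rw [this]; exact mul_mem h2 h2
    rw [← Nat.card_congr (subgroupOfEquivOfLe hVM).toEquiv]
    refine congrArg (fun L : Subgroup M => Nat.card L) ?_
    ext x
    rw [mem_centralizer_singleton_iff, mem_subgroupOf, ← D.V_cc v hv hv1 x, hz]
    rfl
  have h4 : 4 ≤ B.k := Nat.le_of_dvd B.k_pos hk4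
  rcases B.dichotomy (by omega) with ⟨hvv, hb⟩ | ⟨hvv, hb⟩
  · obtain ⟨z, hz'⟩ := hb v0 hv0
    rw [hβ] at hz'
    have hdvd : (B.k : ℤ) ∣ 8 := ⟨2 + z, by push_cast at hz' ⊢; linarith⟩
    have hle : B.k ≤ 8 := by exact_mod_cast Int.le_of_dvd (by norm_num) hdvd
    have : B.k = 4 ∨ B.k = 8 := by omega
    rcases this with e | e <;> rw [e] at hvv hGk hC <;> norm_num at hvv <;>
      rw [show B.v = _ from by exact_mod_cast hvv] at hGk <;> omega
  · obtain ⟨z, hz'⟩ := hb v0 hv0
    rw [hβ] at hz'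
    have hdvd : ((B.k : ℤ) - 1) ∣ 9 := ⟨-z, by push_cast at hz' ⊢; linarith⟩
    have hle : (B.k : ℤ) - 1 ≤ 9 := Int.le_of_dvd (by norm_num) hdvd
    have : B.k = 4 ∨ B.k = 8 := by omega
    rcases this with e | e <;> rw [e] at hvv hGk hC hdvd <;> norm_num at hvv hdvd <;>
      rw [show B.v = _ from by exact_mod_cast hvv] at hGk <;> omega

/-- An element of order five is conjugate to its square. -/
theorem exists_five : ∃ w g : G, w ^ 5 = 1 ∧ w ≠ 1 ∧ g * w * g⁻¹ = w * w := by
  classical
  obtain ⟨hG, hC⟩ := D.card_720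
  haveI : Fact (Nat.Prime 5) := ⟨by norm_num⟩
  haveI : Fact (Nat.Prime 3) := ⟨Nat.prime_three⟩
  haveI : Fact (Nat.Prime 2) := ⟨Nat.prime_two⟩
  obtain ⟨P⟩ : Nonempty (Sylow 5 G) := inferInstance
  have h3 : ¬ 25 ∣ 720 := by decide
  have hP5 : Nat.card (P : Subgroup G) = 5 := by
    rw [P.card_eq_multiplicity, hG]
    have h1 : (720 : ℕ).factorization 5 = 1 := by
      rw [show 720 = 5 * 144 from rfl, Nat.factorization_mul (by norm_num) (by norm_num),
        Finsupp.add_apply, Nat.Prime.factorization_self (by norm_num),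
        Nat.factorization_eq_zero_of_not_dvd (by norm_num), add_zero]
    rw [h1, pow_one]
  obtain ⟨w, hwP, hw1⟩ : ∃ w ∈ (P : Subgroup G), w ≠ 1 := by
    by_contra hc
    push Not at hc
    rw [(eq_bot_iff_forall _).mpr hc, card_bot] at hP5
    omega
  have hw : orderOf w = 5 := by
    have := Subgroup.orderOf_dvd_natCard _ hwP
    rw [hP5] at this
    exact ((Nat.dvd_prime (by norm_num)).mp this).resolve_left fun h => hw1 (orderOf_eq_one_iff.mp h)
  have hPw : (P : Subgroup G) = zpowers w :=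
    (eq_of_le_of_card_ge (zpowers_le.mpr hwP) (by rw [Nat.card_zpowers, hw, hP5])).symm
  -- the centraliser of `w` is `P`
  have hcent : Nat.card (centralizer ({w} : Set G)) = 5 := by
    have hd : Nat.card (centralizer ({w} : Set G)) ∣ 720 := hG ▸ card_subgroup_dvd_card _
    have h2 : ¬ 2 ∣ Nat.card (centralizer ({w} : Set G)) := by
      intro h
      obtain ⟨u, hu⟩ := exists_prime_orderOf_dvd_card' (G := centralizer ({w} : Set G)) 2 h
      have hu2 : (u : G) * u = 1 := by
        have := pow_orderOf_eq_one (u : G)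
        rwa [orderOf_coe, hu, pow_two] at this
      have hu1 : (u : G) ≠ 1 := fun e => by
        rw [← orderOf_coe, e, orderOf_one] at hu; omega
      have hc := D.isConj_involution hu2 hu1
      obtain ⟨c, hc⟩ := isConj_iff.mp hc
      have huw : (u : G) * w = w * u := mem_centralizer_singleton_iff.mp u.2
      have hmem : c⁻¹ * w * c ∈ D.C := by
        rw [D.mem_C]
        have ht : D.t = c⁻¹ * u * c := by rw [← hc]; group
        rw [ht]
        calc _ = c⁻¹ * (w * u) * c := by group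
          _ = c⁻¹ * ((u : G) * w) * c := by rw [huw]
          _ = _ := by group
      have h16 := Subgroup.orderOf_dvd_natCard _ hmem
      rw [show c⁻¹ * w * c = c⁻¹ * w * c⁻¹⁻¹ by rw [inv_inv], orderOf_conj', hw, hC] at h16
      omega
    have h3' : ¬ 3 ∣ Nat.card (centralizer ({w} : Set G)) := by
      intro h
      obtain ⟨u, hu⟩ := exists_prime_orderOf_dvd_card' (G := centralizer ({w} : Set G)) 3 h
      rw [← orderOf_coe] at hu
      obtain ⟨P3, hP3⟩ := D.V_sylow
      obtain ⟨Q, hQ⟩ := (IsPGroup.of_card (p := 3) (G := zpowers (u : G)) (n := 1) (by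
        rw [Nat.card_zpowers, hu, pow_one])).exists_le_sylow
      obtain ⟨g, hg⟩ := exists_smul_eq G Q P3
      have hv : g * u * g⁻¹ ∈ D.V := by
        rw [← hP3, ← hg]; exact ⟨u, hQ (mem_zpowers _), rfl⟩
      have hne : g * u * g⁻¹ ≠ 1 := fun e => by
        rw [← orderOf_conj' g, e, orderOf_one] at hu; omega
      have huw : (u : G) * w = w * u := mem_centralizer_singleton_iff.mp u.2
      have hw' : g * w * g⁻¹ ∈ D.V := (D.V_cc _ hv hne _).mp (by
        calc g * w * g⁻¹ * (g * u * g⁻¹) = g * (w * u) * g⁻¹ := by group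
          _ = g * ((u : G) * w) * g⁻¹ := by rw [huw]
          _ = _ := by group)
      have h9 := Subgroup.orderOf_dvd_natCard _ hw'
      rw [orderOf_conj', hw, D.V_card] at h9
      omega
    have h5 : 5 ∣ Nat.card (centralizer ({w} : Set G)) :=
      hw ▸ Subgroup.orderOf_dvd_natCard _ (mem_centralizer_singleton_iff.mpr rfl)
    have hmem : Nat.card (centralizer ({w} : Set G)) ∈ (720 : ℕ).divisors :=
      Nat.mem_divisors.mpr ⟨hd, by norm_num⟩
    obtain ⟨k, hk⟩ := h5
    have hk144 : k ∣ 144 := by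
      have : 5 * k ∣ 5 * 144 := hk ▸ hd
      exact (Nat.mul_dvd_mul_iff_left (by norm_num)).mp this
    have hk2 : ¬ 2 ∣ k := fun h => h2 (hk ▸ h.mul_left 5)
    have hk3 : ¬ 3 ∣ k := fun h => h3' (hk ▸ h.mul_left 5)
    have hkm : k ∈ (144 : ℕ).divisors := Nat.mem_divisors.mpr ⟨hk144, by norm_num⟩
    have : k = 1 := by
      revert hk2 hk3
      have : ∀ k ∈ (144 : ℕ).divisors, ¬ 2 ∣ k → ¬ 3 ∣ k → k = 1 := by decide +kernel
      exact this k hkm
    omega
  -- the normaliser has order twenty and induces all automorphisms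
  letI := Fintype.ofFinite G
  set N := normalizer ((P : Subgroup G) : Set G)
  have hmap : ∀ g : N, (g : G) * w * (g : G)⁻¹ ∈ (Finset.univ.filter fun u : G => u ∈ zpowers w ∧ u ≠ 1) := by
    intro g
    simp only [Finset.mem_filter, Finset.mem_univ, true_and]
    refine ⟨hPw ▸ (mem_normalizer_iff.mp g.2 w).mp hwP, fun e => hw1 ?_⟩
    simpa [mul_inv_eq_one] using e
  set T := Finset.univ.filter fun u : G => u ∈ zpowers w ∧ u ≠ 1
  have hT : T.card = 4 := by
    have : insert (1 : G) T = Finset.univ.filter fun u : G => u ∈ zpowers w := by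
      ext u
      by_cases hu : u = 1
      · simp [T, hu]
      · simp [T, hu]
    have h2 := congrArg Finset.card this
    have h3 : Nat.card (zpowers w) = (Finset.univ.filter fun u : G => u ∈ zpowers w).card := by
      rw [Nat.card_eq_fintype_card]; exact Fintype.card_subtype _
    rw [Finset.card_insert_of_notMem (by simp [T]), ← h3, Nat.card_zpowers, hw] at h2
    omega
  set I := (Finset.univ : Finset N).image fun g : N => (g : G) * w * (g : G)⁻¹
  have hIT : I ⊆ T := by
    intro u hu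
    obtain ⟨g, -, rfl⟩ := Finset.mem_image.mp hu
    exact hmap g
  have hle : Fintype.card N ≤ 5 * I.card := by
    rw [← Finset.card_univ]
    refine Finset.card_le_mul_card_image _ 5 fun b hb => ?_
    obtain ⟨g, -, rfl⟩ := Finset.mem_image.mp hb
    rw [← hcent, Nat.card_eq_fintype_card, ← Finset.card_univ]
    let sh : {h : N // (h : G) * w * (h : G)⁻¹ = (g : G) * w * (g : G)⁻¹} → centralizer ({w} : Set G) :=
      fun h => ⟨(g : G)⁻¹ * (h.1 : G), mem_centralizer_singleton_iff.mpr (by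
        calc (g : G)⁻¹ * (h.1 : G) * w = (g : G)⁻¹ * ((h.1 : G) * w * (h.1 : G)⁻¹) * h.1 := by group
          _ = (g : G)⁻¹ * ((g : G) * w * (g : G)⁻¹) * h.1 := by rw [h.2]
          _ = _ := by group)⟩
    rw [← Fintype.card_subtype]
    exact Fintype.card_le_of_injective sh fun a b e =>
      Subtype.ext (Subtype.ext (mul_left_cancel (congrArg Subtype.val e)))
  have hsyl : ∃ n, Nat.card G = Nat.card N * n ∧ n % 5 = 1 := by
    refine ⟨Nat.card (Sylow 5 G), ?_, card_sylow_modEq_one 5 G⟩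
    have h2 : Nat.card (Sylow 5 G) = N.index := Sylow.card_eq_index_normalizer P
    rw [h2, card_mul_index]
  obtain ⟨n, hn, hn5⟩ := hsyl
  have h5N : 5 ∣ Nat.card N := hP5 ▸ card_dvd_of_le le_normalizer
  have hI : I.card ≤ 4 := hT ▸ Finset.card_le_card hIT
  have hI4 : I.card = 4 := by
    rw [hG] at hn
    rw [← Nat.card_eq_fintype_card] at hle
    obtain ⟨a, ha⟩ := h5N
    rw [ha] at hn hle
    have ha4 : a ≤ I.card := by omega
    have ha4' : a ≤ 4 := le_trans ha4 hI
    have : a = 4 := by interval_cases a <;> omega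
    omega
  have hIeq : I = T := Finset.eq_of_subset_of_card_le hIT (by rw [hT, hI4])
  have hww : w * w ∈ T := by
    simp only [T, Finset.mem_filter, Finset.mem_univ, true_and]
    refine ⟨mul_mem (mem_zpowers _) (mem_zpowers _), fun e => ?_⟩
    have : orderOf w ∣ 2 := orderOf_dvd_of_pow_eq_one (by rw [pow_two]; exact e)
    rw [hw] at this
    norm_num at this
  rw [← hIeq] at hww
  obtain ⟨g, -, hg⟩ := Finset.mem_image.mp hww
  exact ⟨w, g, by rw [← hw]; exact pow_orderOf_eq_one w, hw1, hg⟩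

end TenData

end CfsgLib.Geometric.SLThree
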