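import Cfsg.Agent.Lib.Geometric.SLThree.TenOfConj

/-!
The two lines of the axis permuted by the centraliser of the inverting involution.
-/

set_option autoImplicit false
set_option linter.unusedSectionVars false
set_option linter.style.haveILetI false

namespace CfsgLib.Geometric.SLThree

open Matrix MulAction

variable {F : Type*} [Field F] [Finite F]

namespace C6Hyp

variable {o : Omega F} {H : Subgroup (GL (Fin 3) F)}

/-- Two lines of the axis permuted by the centraliser of the inverting involution. -/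
structure LinePair (hH : C6Hyp o H) where
  v : Fin 2 → hH.L0.K
  w : Fin 2 → hH.L0.K
  li : LinearIndependent hH.L0.K ![v, w]
  perm : ∀ g : hH.L0.X, (IsEig hH.L0.ρ g v ∧ IsEig hH.L0.ρ g w) ∨
    ((∃ a : hH.L0.K, hH.L0.ρ g v = a • w) ∧ ∃ b : hH.L0.K, hH.L0.ρ g w = b • v)

namespace LinePair

variable {hH : C6Hyp o H} (Q : hH.LinePair)

lemma v_ne : Q.v ≠ 0 := Q.li.ne_zero 0

lemma w_ne : Q.w ≠ 0 := Q.li.ne_zero 1

lemma span_top : Submodule.span hH.L0.K {Q.v, Q.w} = ⊤ := hH.L0.hρ.span_pair_top Q.li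

lemma cmp {r s r' s' : hH.L0.K} (e : r • Q.v + s • Q.w = r' • Q.v + s' • Q.w) : r = r' ∧ s = s' := by
  have := LinearIndependent.pair_iff.mp Q.li (r - r') (s - s') (by
    rw [sub_smul, sub_smul, sub_add_sub_comm, e, sub_self])
  exact ⟨sub_eq_zero.mp this.1, sub_eq_zero.mp this.2⟩

lemma ext2 {x y : hH.L0.X} (h1 : hH.L0.ρ x Q.v = hH.L0.ρ y Q.v) (h2 : hH.L0.ρ x Q.w = hH.L0.ρ y Q.w)
    (z : Fin 2 → hH.L0.K) : hH.L0.ρ x z = hH.L0.ρ y z := by
  obtain ⟨p, q, rfl⟩ := PlaneRep.mem_span_pair_of Q.span_top z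
  rw [map_add, map_add, map_smul, map_smul, map_smul, map_smul, h1, h2]

/-- The stabiliser of both lines. -/
def Ys : Subgroup hH.L0.X :=
{ carrier := {g | IsEig hH.L0.ρ g Q.v ∧ IsEig hH.L0.ρ g Q.w}
  one_mem' := ⟨⟨1, by rw [PlaneRep.rho_one, one_smul]⟩, ⟨1, by rw [PlaneRep.rho_one, one_smul]⟩⟩
  mul_mem' := by
    rintro g h ⟨⟨a, ha⟩, ⟨b, hb⟩⟩ ⟨⟨c, hc⟩, ⟨d, hd⟩⟩
    exact ⟨⟨c * a, by rw [PlaneRep.rho_mul, hc, map_smul, ha, smul_smul]⟩,
      ⟨d * b, by rw [PlaneRep.rho_mul, hd, map_smul, hb, smul_smul]⟩⟩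
  inv_mem' := by
    rintro g ⟨⟨a, ha⟩, ⟨b, hb⟩⟩
    refine ⟨⟨a⁻¹, ?_⟩, ⟨b⁻¹, ?_⟩⟩
    · have h := congrArg (fun z => a⁻¹ • hH.L0.ρ g⁻¹ z) ha
      simp only [PlaneRep.rho_inv_apply, map_smul, smul_smul,
        inv_mul_cancel₀ (hH.L0.hρ.eig_ne_zero Q.v_ne ha), one_smul] at h
      exact h.symm
    · have h := congrArg (fun z => b⁻¹ • hH.L0.ρ g⁻¹ z) hb
      simp only [PlaneRep.rho_inv_apply, map_smul, smul_smul,
        inv_mul_cancel₀ (hH.L0.hρ.eig_ne_zero Q.w_ne hb), one_smul] at h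
      exact h.symm }

lemma mem_Ys {g : hH.L0.X} : g ∈ Q.Ys ↔ IsEig hH.L0.ρ g Q.v ∧ IsEig hH.L0.ρ g Q.w := Iff.rfl

lemma swap {g : hH.L0.X} (hg : g ∉ Q.Ys) :
    (∃ a : hH.L0.K, hH.L0.ρ g Q.v = a • Q.w) ∧ ∃ b : hH.L0.K, hH.L0.ρ g Q.w = b • Q.v :=
  (Q.perm g).resolve_left hg

lemma mul_out {x z : hH.L0.X} (hx : x ∉ Q.Ys) (hz : z ∉ Q.Ys) : x * z ∈ Q.Ys := by
  obtain ⟨⟨a, ha⟩, ⟨b, hb⟩⟩ := Q.swap hx
  obtain ⟨⟨c, hc⟩, ⟨d, hd⟩⟩ := Q.swap hz
  exact ⟨⟨c * b, by rw [PlaneRep.rho_mul, hc, map_smul, hb, smul_smul]⟩,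
    ⟨d * a, by rw [PlaneRep.rho_mul, hd, map_smul, ha, smul_smul]⟩⟩

lemma sc_mem {x : hH.L0.X} (hx : IsSc hH.L0.ρ x) : x ∈ Q.Ys :=
  ⟨hH.L0.hρ.isEig_of_isSc hx Q.v, hH.L0.hρ.isEig_of_isSc hx Q.w⟩

include Q in
lemma sc_cases {x : hH.L0.X} (h : IsSc hH.L0.ρ x) :
    (x : GL (Fin 3) F) ∈ o.Zc ∨ o.t⁻¹ * (x : GL (Fin 3) F) ∈ o.Zc := by
  obtain ⟨k, e | e⟩ := hH.scalar_cases h
  · exact Or.inl (o.mem_Zc_iff.mpr ⟨k, e⟩)
  · exact Or.inr (o.mem_Zc_iff.mpr ⟨k, by rw [e, ← o.Z_pow_comm, inv_mul_cancel_left]⟩)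

lemma sq_out {x : hH.L0.X} (hx : x ∉ Q.Ys) :
    ((x * x : hH.L0.X) : GL (Fin 3) F) ∈ o.Zc ∨ o.t⁻¹ * ((x * x : hH.L0.X) : GL (Fin 3) F) ∈ o.Zc := by
  obtain ⟨⟨a, ha⟩, ⟨b, hb⟩⟩ := Q.swap hx
  refine Q.sc_cases ⟨a * b, fun z => ?_⟩
  obtain ⟨r, r', rfl⟩ := PlaneRep.mem_span_pair_of Q.span_top z
  simp only [map_add, map_smul, PlaneRep.rho_mul, ha, hb, smul_smul, smul_add]
  congr 2 <;> ring

include Q in
lemma sq_sc {x : hH.L0.X} (hx : (x : GL (Fin 3) F) * x = o.t) : IsSc hH.L0.ρ (x * x) := by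
  rw [← hH.L0.img_eq_one, img_mul]; exact hH.img_sq_eq_one hx

/-- One square root of the involution fixes both lines, another interchanges them. -/
theorem exists_roots : ∃ i : hH.L0.X, i ∈ Q.Ys ∧
    (i : GL (Fin 3) F) ∈ Cfsg.Geo.subgroupNormalizer o.R ∧ (i : GL (Fin 3) F) * i = o.t ∧
    ∃ j : hH.L0.X, j ∉ Q.Ys ∧ (j : GL (Fin 3) F) ∈ Cfsg.Geo.subgroupNormalizer o.R ∧
      (j : GL (Fin 3) F) * j = o.t := by
  let A : hH.L0.X := ⟨o.W0, hH.L0.u_X⟩
  let B : hH.L0.X := ⟨o.W1, hH.L0.v_X⟩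
  have hA2 : (A : GL (Fin 3) F) * A = o.t := o.W0_sq
  have hB2 : (B : GL (Fin 3) F) * B = o.t := o.W1_sq
  have hAB2 : ((A * B : hH.L0.X) : GL (Fin 3) F) * (A * B : hH.L0.X) = o.t := hH.L0.uv_sq
  have hnot : ¬ (A ∈ Q.Ys ∧ B ∈ Q.Ys) := by
    rintro ⟨hA, hB⟩
    have h1 := hH.L0.hρ.isSc_of_involutions Q.v_ne hA.1 hB.1 (hH.not_sc_of_sq_t hA2) (hH.not_sc_of_sq_t hB2)
      (Q.sq_sc hA2) (Q.sq_sc hB2)
    refine hH.not_sc_of_sq_t hAB2 ?_
    rw [← hH.L0.img_eq_one, img_mul] at h1 ⊢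
    have hAA := hH.img_sq_eq_one hA2
    have hinv : img hH.L0.ρ A⁻¹ * img hH.L0.ρ A = 1 := by
      rw [← img_mul, inv_mul_cancel, hH.L0.img_eq_one]; exact PlaneRep.isSc_one
    calc img hH.L0.ρ A * img hH.L0.ρ B = (img hH.L0.ρ A⁻¹ * img hH.L0.ρ A) * img hH.L0.ρ A * img hH.L0.ρ B := by
          rw [hinv, one_mul]
      _ = img hH.L0.ρ A⁻¹ * (img hH.L0.ρ A * img hH.L0.ρ A) * img hH.L0.ρ B := by group
      _ = 1 := by rw [hAA, mul_one, h1]
  have normW : ∀ {x : hH.L0.X}, (x = A ∨ x = B ∨ x = A * B) →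
      (x : GL (Fin 3) F) ∈ Cfsg.Geo.subgroupNormalizer o.R := by
    rintro x (rfl | rfl | rfl)
    · exact o.W0_norm
    · exact o.W1_norm
    · exact mul_mem o.W0_norm o.W1_norm
  by_cases hA : A ∈ Q.Ys
  · exact ⟨A, hA, normW (Or.inl rfl), hA2, B, fun hB => hnot ⟨hA, hB⟩, normW (Or.inr (Or.inl rfl)), hB2⟩
  by_cases hB : B ∈ Q.Ys
  · exact ⟨B, hB, normW (Or.inr (Or.inl rfl)), hB2, A, hA, normW (Or.inl rfl), hA2⟩
  · refine ⟨A * B, ?_, normW (Or.inr (Or.inr rfl)), hAB2, A, hA, normW (Or.inl rfl), hA2⟩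
    obtain ⟨⟨a, ha⟩, ⟨b, hb⟩⟩ := Q.swap hA
    obtain ⟨⟨c, hc⟩, ⟨d, hd⟩⟩ := Q.swap hB
    exact ⟨⟨c * b, by rw [PlaneRep.rho_mul, hc, map_smul, hb, smul_smul]⟩,
      ⟨d * a, by rw [PlaneRep.rho_mul, hd, map_smul, ha, smul_smul]⟩⟩

/-- The involutions, modulo scalars, fixing both lines. -/
theorem only_inv {u : hH.L0.X} (hu : u ∈ Q.Ys) (h2 : (u : GL (Fin 3) F) * u ∈ o.Zc) :
    (u : GL (Fin 3) F) ∈ o.Zc ∨ o.t⁻¹ * (u : GL (Fin 3) F) ∈ o.Zc := by
  obtain ⟨i, hi, -, hi2, -⟩ := Q.exists_roots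
  obtain ⟨k, hk⟩ := o.mem_Zc_iff.mp h2
  let z : hH.L0.X := ⟨o.Z ^ k, hH.mem_X0 (pow_mem hH.Z_mem k) (o.Z_pow_comm k o.t).symm⟩
  have hzY : ∀ x : Fin 2 → hH.L0.K, IsEig hH.L0.ρ z x := fun x =>
    hH.L0.hρ.isEig_of_isSc ((hH.L0.isSc_iff z).mpr ⟨o.w ^ k, fun y _ => by
      show ap (o.Z ^ k) y = _
      rw [o.Z_dg.pow k]; funext m; fin_cases m <;> simp⟩) x
  set u' := u * z with hu'
  have hu'2 : (u' : GL (Fin 3) F) * u' = 1 := by
    show (u : GL (Fin 3) F) * o.Z ^ k * (u * o.Z ^ k) = 1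
    rw [o.Z_pow_comm, Z_mul_sq, hk, ← pow_add, show k + k + k = 3 * k by ring, pow_mul, o.Z_cube,
      one_pow]
  have hu'Y : u' ∈ Q.Ys := mul_mem hu ⟨hzY Q.v, hzY Q.w⟩
  have hu'eq : (u : GL (Fin 3) F) = o.Z ^ (2 * k) * (u' : GL (Fin 3) F) := by
    show _ = o.Z ^ (2 * k) * ((u : GL (Fin 3) F) * o.Z ^ k)
    rw [o.Z_pow_comm k, ← mul_assoc, ← pow_add, show 2 * k + k = 3 * k by ring, pow_mul, o.Z_cube,
      one_pow, one_mul]
  by_cases e1 : (u' : GL (Fin 3) F) = 1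
  · exact Or.inl (o.mem_Zc_iff.mpr ⟨2 * k, by rw [hu'eq, e1, mul_one]⟩)
  by_cases et : (u' : GL (Fin 3) F) = o.t
  · exact Or.inr (o.mem_Zc_iff.mpr ⟨2 * k, by
      rw [hu'eq, et, ← o.Z_pow_comm, inv_mul_cancel_left]⟩)
  exfalso
  have hsc := hH.not_sc_of_inv hu'2 e1 et
  have h2' : IsSc hH.L0.ρ (u' * u') := by
    rw [show u' * u' = 1 from Subtype.ext (by simpa using hu'2)]; exact PlaneRep.isSc_one
  have h1 := hH.L0.hρ.isSc_of_involutions Q.v_ne hu'Y.1 hi.1 hsc (hH.not_sc_of_sq_t hi2) h2' (Q.sq_sc hi2)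
  refine hH.img_ne hu'2 hi2 ?_
  rw [← hH.L0.img_eq_one, img_mul] at h1
  calc img hH.L0.ρ u' = img hH.L0.ρ u' * (img hH.L0.ρ u'⁻¹ * img hH.L0.ρ i) := by rw [h1, mul_one]
    _ = img hH.L0.ρ i := by
      rw [← mul_assoc, ← img_mul, mul_inv_cancel, (hH.L0.img_eq_one 1).mpr PlaneRep.isSc_one, one_mul]

theorem comm {x y : hH.L0.X} (hx : x ∈ Q.Ys) (hy : y ∈ Q.Ys) : x * y = y * x := by
  obtain ⟨⟨a, ha⟩, ⟨b, hb⟩⟩ := hx
  obtain ⟨⟨c, hc⟩, ⟨d, hd⟩⟩ := hy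
  obtain ⟨e, he⟩ := hH.L0.eig_c x.2
  obtain ⟨f, hf⟩ := hH.L0.eig_c y.2
  refine hH.L0.eq_of_res (Q.ext2 ?_ ?_) ?_
  · rw [PlaneRep.rho_mul, PlaneRep.rho_mul, ha, hc, map_smul, map_smul, ha, hc, smul_comm]
  · rw [PlaneRep.rho_mul, PlaneRep.rho_mul, hb, hd, map_smul, map_smul, hb, hd, smul_comm]
  · rw [Subgroup.coe_mul, Subgroup.coe_mul, ap_mul, ap_mul, he, hf, ap_smul, ap_smul, he, hf, smul_comm]

theorem notMem_of_inv {s : hH.L0.X} (h2 : (s : GL (Fin 3) F) * s = 1) (h1 : (s : GL (Fin 3) F) ≠ 1)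
    (hne : (s : GL (Fin 3) F) ≠ o.t) : s ∉ Q.Ys := by
  intro h
  rcases Q.only_inv h (by rw [h2]; exact one_mem _) with e | e
  · obtain ⟨k, hk⟩ := o.mem_Zc_iff.mp e
    exact h1 (eq_of_involutions (u' := 1) h2 (mul_one 1) (by rw [mul_one]; exact hk))
  · obtain ⟨k, hk⟩ := o.mem_Zc_iff.mp e
    exact hne (eq_of_involutions h2 o.t_sq (i := k) (by
      rw [← o.Z_pow_comm, ← hk]; exact (mul_inv_cancel_left o.t (s : GL (Fin 3) F)).symm))

theorem inverts {s' i : hH.L0.X} (hsY : s' ∉ Q.Ys) (hs2 : (s' : GL (Fin 3) F) * s' = 1)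
    (hi : i ∈ Q.Ys) (hi2 : (i : GL (Fin 3) F) * i = o.t) : s' * i * s'⁻¹ = i⁻¹ := by
  have hss : s' * s' = 1 := Subtype.ext hs2
  rw [inv_eq_of_mul_eq_one_right hss]
  refine eq_inv_of_mul_eq_one_left ?_
  obtain ⟨⟨a, ha⟩, ⟨b, hb⟩⟩ := hi
  obtain ⟨⟨p, hp⟩, ⟨q, hq⟩⟩ := Q.swap hsY
  obtain ⟨e, he⟩ := hH.L0.eig_c i.2
  obtain ⟨σ, hσ⟩ := hH.L0.eig_c s'.2
  have hpq : p * q = 1 := by
    have h : hH.L0.ρ (s' * s') Q.v = Q.v := by rw [hss, PlaneRep.rho_one]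
    rw [PlaneRep.rho_mul, hp, map_smul, hq, smul_smul] at h
    exact smul_left_injective hH.L0.K Q.v_ne (h.trans (one_smul hH.L0.K Q.v).symm)
  have hts : ∀ z : Fin 2 → hH.L0.K, hH.L0.ρ (i * i) z = -z := by
    intro z
    have hres : ∀ x, hH.L0.A.res o.t x = -x := fun x => by
      rw [Axis.res_apply, show ap o.t (hH.L0.A.emb x) = -hH.L0.A.emb x from o.t_isHom.ap_ker (hH.L0.A.φ_emb x), map_neg, hH.L0.A.coord_emb]
    rw [Axis.rep_apply, Subgroup.coe_mul, hi2, Axis.resK_apply, hres, hres]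
    funext m; fin_cases m <;> simp [Axis.up]
  have haa : a * a = -1 := by
    have h := hts Q.v
    rw [PlaneRep.rho_mul, ha, map_smul, ha, smul_smul, ← neg_one_smul hH.L0.K Q.v] at h
    exact smul_left_injective hH.L0.K Q.v_ne h
  have hbb : b * b = -1 := by
    have h := hts Q.w
    rw [PlaneRep.rho_mul, hb, map_smul, hb, smul_smul, ← neg_one_smul hH.L0.K Q.w] at h
    exact smul_left_injective hH.L0.K Q.w_ne h
  have hba : b = -a := by
    refine (mul_self_eq_mul_self_iff.mp (hbb.trans haa.symm)).resolve_left fun e => ?_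
    refine hH.not_sc_of_sq_t hi2 ⟨a, fun z => ?_⟩
    obtain ⟨r, r', rfl⟩ := PlaneRep.mem_span_pair_of Q.span_top z
    rw [map_add, map_smul, map_smul, ha, hb, e, smul_comm r, smul_comm r', ← smul_add]
  refine hH.L0.eq_of_res (Q.ext2 ?_ ?_) ?_
  · simp only [PlaneRep.rho_mul, ha, hp, hb, map_smul, hq, smul_smul, PlaneRep.rho_one]
    rw [show a * (p * (b * q)) = 1 by rw [hba]; linear_combination -(a * a) * hpq - haa, one_smul]
  · simp only [PlaneRep.rho_mul, ha, hp, hb, map_smul, hq, smul_smul, PlaneRep.rho_one]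
    rw [show b * (q * (a * p)) = 1 by rw [hba]; linear_combination -(a * a) * hpq - haa, one_smul]
  · have hee : e * e = 1 := by
      have h : ap (((i * i : hH.L0.X)) : GL (Fin 3) F) hH.L0.A.c = hH.L0.A.c := by
        rw [Subgroup.coe_mul, hi2]; exact o.t_isHom.ap_c
      rw [Subgroup.coe_mul, ap_mul, he, ap_smul, he, smul_smul] at h
      exact smul_left_injective F hH.L0.A.c_ne (h.trans (one_smul F hH.L0.A.c).symm)
    have hσσ : σ * σ = 1 := by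
      have h : ap (((s' * s' : hH.L0.X)) : GL (Fin 3) F) hH.L0.A.c = hH.L0.A.c := by
        rw [hss, Subgroup.coe_one, ap_one]
      rw [Subgroup.coe_mul, ap_mul, hσ, ap_smul, hσ, smul_smul] at h
      exact smul_left_injective F hH.L0.A.c_ne (h.trans (one_smul F hH.L0.A.c).symm)
    simp only [Subgroup.coe_mul, Subgroup.coe_one, ap_mul, ap_one, he, hσ, ap_smul, smul_smul]
    rw [show e * (σ * (e * σ)) = 1 by linear_combination σ * σ * hee + hσσ, one_smul]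

/-- Centralisers, modulo scalars, of the other elements fixing both lines. -/
theorem cent (hN : HasNbr o H) {y : hH.L0.X} (hy : y ∈ Q.Ys) (hy1 : (y : GL (Fin 3) F) ∉ o.Zc)
    (hyt : o.t⁻¹ * (y : GL (Fin 3) F) ∉ o.Zc) {g : GL (Fin 3) F} (hg : g ∈ H) {k : ℕ}
    (hk : g * (y : GL (Fin 3) F) = o.Z ^ k * ((y : GL (Fin 3) F) * g)) :
    ∃ h : g ∈ hH.L0.X, (⟨g, h⟩ : hH.L0.X) ∈ Q.Ys := by
  obtain ⟨i, hi, -, hi2, j, hj, -, -⟩ := Q.exists_roots
  obtain ⟨⟨a, ha⟩, ⟨b, hb⟩⟩ := id hy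
  obtain ⟨e, he⟩ := hH.L0.eig_c y.2
  have hab : a ≠ b := by
    intro h
    have hsc : IsSc hH.L0.ρ y := ⟨a, fun z => by
      obtain ⟨r, r', rfl⟩ := PlaneRep.mem_span_pair_of Q.span_top z
      rw [map_add, map_smul, map_smul, ha, hb, ← h, smul_comm r, smul_comm r', ← smul_add]⟩
    rcases Q.sc_cases hsc with h' | h'
    · exact hy1 h'
    · exact hyt h'
  set E := algebraMap F hH.L0.K e with hE
  have hEne : E ≠ a ∧ E ≠ b := by
    obtain ⟨⟨p, hp⟩, ⟨q, hq⟩⟩ := Q.swap hj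
    have hp0 : p ≠ 0 := fun h0 => by
      rw [h0, zero_smul, ← map_zero (hH.L0.ρ j)] at hp; exact Q.v_ne ((hH.L0.ρ j).injective hp)
    have hq0 : q ≠ 0 := fun h0 => by
      rw [h0, zero_smul, ← map_zero (hH.L0.ρ j)] at hq; exact Q.w_ne ((hH.L0.ρ j).injective hq)
    obtain ⟨ej, hej⟩ := hH.L0.eig_c j.2
    have hej0 : ej ≠ 0 := smul_ap_mem hej hH.L0.A.c_ne
    set y' := j * y * j⁻¹ with hy'
    have hjv : hH.L0.ρ j⁻¹ Q.v = q⁻¹ • Q.w := by
      have := congrArg (fun z => q⁻¹ • hH.L0.ρ j⁻¹ z) hq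
      simp only [PlaneRep.rho_inv_apply, map_smul, smul_smul, inv_mul_cancel₀ hq0, one_smul] at this
      exact this.symm
    have hjw : hH.L0.ρ j⁻¹ Q.w = p⁻¹ • Q.v := by
      have := congrArg (fun z => p⁻¹ • hH.L0.ρ j⁻¹ z) hp
      simp only [PlaneRep.rho_inv_apply, map_smul, smul_smul, inv_mul_cancel₀ hp0, one_smul] at this
      exact this.symm
    have hyv : hH.L0.ρ y' Q.v = b • Q.v := by
      rw [hy', PlaneRep.rho_mul, PlaneRep.rho_mul, hjv, map_smul, hb, map_smul, map_smul, hq,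
        smul_smul, smul_smul]
      congr 1; field_simp
    have hyw : hH.L0.ρ y' Q.w = a • Q.w := by
      rw [hy', PlaneRep.rho_mul, PlaneRep.rho_mul, hjw, map_smul, ha, map_smul, map_smul, hp,
        smul_smul, smul_smul]
      congr 1; field_simp
    have hyc : ap (y' : GL (Fin 3) F) hH.L0.A.c = e • hH.L0.A.c := by
      rw [hy', Subgroup.coe_mul, Subgroup.coe_mul, InvMemClass.coe_inv, ap_mul, ap_mul,
        ap_inv_of_eig hej hej0, ap_smul, he, ap_smul, ap_smul, hej, smul_smul, smul_smul]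
      congr 1; field_simp
    clear_value y'
    have hprod : ∀ z, hH.L0.ρ (y * y') z = (a * b) • z := fun z => by
      obtain ⟨r, r', rfl⟩ := PlaneRep.mem_span_pair_of Q.span_top z
      rw [map_add, map_smul, map_smul, PlaneRep.rho_mul, PlaneRep.rho_mul, hyv, hyw, map_smul,
        map_smul, ha, hb, smul_add, smul_smul, smul_smul, smul_smul, smul_smul, smul_smul, smul_smul]
      congr 2 <;> ring
    obtain ⟨β, hβ⟩ := (hH.L0.isSc_iff (y * y')).mp ⟨_, hprod⟩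
    have hβK : algebraMap F hH.L0.K β = a * b := by
      have hA : hH.L0.A.φ (![1, 0, 0] : Fin 3 → F) = 0 := by
        show o.φ0 _ = 0
        simp [Omega.φ0_apply]
      have h1 := hprod (Axis.up hH.L0.K (hH.L0.A.coord ![1, 0, 0]))
      rw [Axis.rep_apply, Axis.resK_up, Axis.res_apply, hH.L0.A.emb_coord _ hA, hβ _ hA, map_smul,
        Axis.up_smul] at h1
      exact smul_left_injective hH.L0.K
        (Axis.up_ne_zero hH.L0.K (hH.L0.A.coord_ne_zero hA (by intro h; simpa using congrFun h 0))) h1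
    have hl := hH.lambda (x := ((y * y' : hH.L0.X) : GL (Fin 3) F)) (y * y').2.1 (α := e * e) (β := β)
      (by
        change ap (((y * y' : hH.L0.X)) : GL (Fin 3) F) hH.L0.A.c = (e * e) • hH.L0.A.c
        rw [Subgroup.coe_mul, ap_mul, hyc, ap_smul, he, smul_smul]) hβ
    have hlK : (E * E) ^ 2 = (a * b) ^ 2 := by
      rw [← hβK, hE, ← map_mul, ← map_pow, ← map_pow, hl]
    have ha0 : a ≠ 0 := hH.L0.hρ.eig_ne_zero Q.v_ne ha
    have hb0 : b ≠ 0 := hH.L0.hρ.eig_ne_zero Q.w_ne hb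
    have key : E = a ∨ E = b → False := by
      intro hh
      have hb2 : a * a = E * E ∧ b * b = E * E := by
        rcases hh with h | h
        · refine ⟨by rw [h], mul_left_cancel₀ (mul_ne_zero ha0 ha0) ?_⟩
          rw [h] at hlK ⊢
          linear_combination -hlK
        · refine ⟨mul_left_cancel₀ (mul_ne_zero hb0 hb0) ?_, by rw [h]⟩
          rw [h] at hlK ⊢
          linear_combination -hlK
      have hyy : ∀ z, hH.L0.ρ (y * y) z = algebraMap F hH.L0.K (e * e) • z := fun z => by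
        obtain ⟨r, r', rfl⟩ := PlaneRep.mem_span_pair_of Q.span_top z
        rw [map_mul (algebraMap F hH.L0.K), ← hE, map_add, map_smul, map_smul, PlaneRep.rho_mul, PlaneRep.rho_mul, ha, hb,
          map_smul, map_smul, ha, hb, smul_smul a a, smul_smul b b, hb2.1, hb2.2, smul_add,
          smul_comm r, smul_comm r']
      have hc := hH.central_of_scalar (x := y * y) (α := e * e) (by
        change ap (((y * y : hH.L0.X)) : GL (Fin 3) F) hH.L0.A.c = (e * e) • hH.L0.A.c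
        rw [Subgroup.coe_mul, ap_mul, he, ap_smul, he, smul_smul]) hyy
      rcases Q.only_inv hy hc with h' | h'
      · exact hy1 h'
      · exact hyt h'
    exact ⟨fun h => key (Or.inl h), fun h => key (Or.inr h)⟩
  -- eigenvectors of `y` with another eigenvalue lie on the axis
  have haxis : ∀ {z : Fin 3 → F} {μ : F}, z ≠ 0 → ap (y : GL (Fin 3) F) z = μ • z → μ ≠ e →
      algebraMap F hH.L0.K μ = a ∨ algebraMap F hH.L0.K μ = b := by
    intro z μ hz hμ hμe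
    have hzA : hH.L0.A.φ z = 0 := by
      have h1 := congrArg hH.L0.A.φ hμ
      have h2 : hH.L0.A.φ (ap (y : GL (Fin 3) F) (z - hH.L0.A.φ z • hH.L0.A.c)) = 0 :=
        hH.L0.maps_axis y.2 (by rw [map_sub, map_smul, hH.L0.A.φ_c, smul_eq_mul, mul_one, sub_self])
      rw [ap_sub, ap_smul, he, map_sub, map_smul, map_smul, hH.L0.A.φ_c, hμ, map_smul] at h2
      simp only [smul_eq_mul] at h2
      exact (mul_eq_zero.mp (show (μ - e) * hH.L0.A.φ z = 0 by linear_combination h2)).resolve_left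
        (sub_ne_zero.mpr hμe)
    set u := Axis.up hH.L0.K (hH.L0.A.coord z) with hu
    have hyu : hH.L0.ρ y u = algebraMap F hH.L0.K μ • u := by
      rw [hu, Axis.rep_apply, Axis.resK_up, Axis.res_apply, hH.L0.A.emb_coord z hzA, hμ, map_smul,
        Axis.up_smul]
    obtain ⟨r, r', hr⟩ := PlaneRep.mem_span_pair_of Q.span_top u
    rw [← hr, map_add, map_smul, map_smul, ha, hb, smul_add, smul_smul, smul_smul, smul_smul,
      smul_smul] at hyu
    obtain ⟨h1, h2⟩ := Q.cmp hyu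
    by_contra hcon
    push Not at hcon
    have hr0 : r = 0 := (mul_eq_zero.mp (show (a - algebraMap F hH.L0.K μ) * r = 0 by
      linear_combination h1)).resolve_left (sub_ne_zero.mpr hcon.1.symm)
    have hr0' : r' = 0 := (mul_eq_zero.mp (show (b - algebraMap F hH.L0.K μ) * r' = 0 by
      linear_combination h2)).resolve_left (sub_ne_zero.mpr hcon.2.symm)
    refine Axis.up_ne_zero hH.L0.K (hH.L0.A.coord_ne_zero hzA hz) ?_
    rw [← hu, ← hr, hr0, hr0', zero_smul, zero_smul, add_zero]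
  have hgy : ∀ {x : Fin 3 → F} {μ : F}, ap (y : GL (Fin 3) F) x = μ • x →
      ap (y : GL (Fin 3) F) (ap g x) = (o.w ^ (2 * k) * μ) • ap g x := by
    intro x μ hx
    have h1 := congrArg (fun u => ap u x) hk
    simp only [ap_mul, hx, ap_smul] at h1
    rw [show ap (o.Z ^ k) (ap (y : GL (Fin 3) F) (ap g x))
        = o.w ^ k • ap (y : GL (Fin 3) F) (ap g x) by
      rw [o.Z_dg.pow k]; funext m; fin_cases m <;> simp] at h1
    rw [mul_smul, h1, smul_smul, ← pow_add, show 2 * k + k = 3 * k by ring, pow_mul, o.cube,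
      one_pow, one_smul]
  have hk0 : o.w ^ k = 1 := by
    by_contra hk'
    have hw2 : o.w ^ (2 * k) ≠ 1 := fun h => hk' (by
      calc o.w ^ k = o.w ^ (2 * k) * o.w ^ k := by rw [h, one_mul]
        _ = (o.w ^ 3) ^ k := by rw [← pow_add, ← pow_mul]; congr 1; ring
        _ = 1 := by rw [o.cube, one_pow])
    have he0 : e ≠ 0 := smul_ap_mem he hH.L0.A.c_ne
    have hz1 := hgy he
    have hz2 := hgy hz1
    rw [← mul_assoc, ← pow_add, show o.w ^ (2 * k + 2 * k) = o.w ^ k by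
      rw [show 2 * k + 2 * k = 3 * k + k by ring, pow_add, pow_mul, o.cube, one_pow, one_mul]] at hz2
    have n1 : o.w ^ (2 * k) * e ≠ e := fun h => hw2 (mul_right_cancel₀ he0 (h.trans (one_mul e).symm))
    have n2 : o.w ^ k * e ≠ e := fun h => hk' (mul_right_cancel₀ he0 (h.trans (one_mul e).symm))
    have c1 := haxis (ap_ne_zero g hH.L0.A.c_ne) hz1 n1
    have c2 := haxis (ap_ne_zero g (ap_ne_zero g hH.L0.A.c_ne)) hz2 n2
    have cubes : ∀ m : ℕ, (algebraMap F hH.L0.K (o.w ^ m * e)) ^ 3 = algebraMap F hH.L0.K (e * e * e) := by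
      intro m
      rw [← map_pow, mul_pow, ← pow_mul, mul_comm m, pow_mul, o.cube, one_pow, one_mul]
      congr 1; ring
    have hdiff : algebraMap F hH.L0.K (o.w ^ (2 * k) * e) ≠ algebraMap F hH.L0.K (o.w ^ k * e) := fun h => by
      have h' := mul_right_cancel₀ he0 ((algebraMap F hH.L0.K).injective h)
      apply hk'
      apply mul_left_cancel₀ (pow_ne_zero k o.ne_zero)
      rw [← pow_add, ← two_mul, h', mul_one]
    have ha3 : a ^ 3 = algebraMap F hH.L0.K (e * e * e) ∧ b ^ 3 = algebraMap F hH.L0.K (e * e * e) := by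
      rcases c1 with c1 | c1 <;> rcases c2 with c2 | c2
      · exact absurd (c1.trans c2.symm) hdiff
      · exact ⟨c1 ▸ cubes _, c2 ▸ cubes _⟩
      · exact ⟨c2 ▸ cubes _, c1 ▸ cubes _⟩
      · exact absurd (c1.trans c2.symm) hdiff
    have hyy : ∀ z, hH.L0.ρ (y * y * y) z = algebraMap F hH.L0.K (e * e * e) • z := fun z => by
      obtain ⟨r, r', rfl⟩ := PlaneRep.mem_span_pair_of Q.span_top z
      simp only [map_add, map_smul, PlaneRep.rho_mul, ha, hb, smul_smul, smul_add]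
      rw [← ha3.1]
      nth_rewrite 2 [ha3.1]
      rw [← ha3.2]
      congr 2 <;> ring
    have hc := hH.central_of_scalar (x := y * y * y) (α := e * e * e) (by
      change ap (((y * y * y : hH.L0.X)) : GL (Fin 3) F) hH.L0.A.c = (e * e * e) • hH.L0.A.c
      rw [Subgroup.coe_mul, Subgroup.coe_mul, ap_mul, ap_mul, he, ap_smul, he, smul_smul, ap_smul,
        he, smul_smul]) hyy
    refine hy1 (hH.no_three_X hN y.2.1 (hH.L0.mem_X.mp y.2).2 ?_)
    rw [pow_three, ← mul_assoc]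
    exact hc
  have hZk : o.Z ^ k = 1 := gl_ext fun x => by
    rw [o.Z_dg.pow k, hk0, ap_one]; funext m; fin_cases m <;> simp
  have hcomm : g * (y : GL (Fin 3) F) = y * g := by rw [hk, hZk, one_mul]
  have hz1 := hgy he
  rw [pow_mul, show o.w ^ 2 = o.w * o.w from pow_two _, mul_pow, hk0, one_mul, one_mul] at hz1
  set z := ap g hH.L0.A.c with hz
  have hzc : z = hH.L0.A.φ z • hH.L0.A.c := by
    by_contra hne'
    have hr : z - hH.L0.A.φ z • hH.L0.A.c ≠ 0 := sub_ne_zero.mpr hne'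
    have hr' : ap (y : GL (Fin 3) F) (z - hH.L0.A.φ z • hH.L0.A.c) = e • (z - hH.L0.A.φ z • hH.L0.A.c) := by
      rw [ap_sub, ap_smul, hz1, he, smul_sub, smul_comm]
    have hzA : hH.L0.A.φ (z - hH.L0.A.φ z • hH.L0.A.c) = 0 := by
      rw [map_sub, map_smul, hH.L0.A.φ_c, smul_eq_mul, mul_one, sub_self]
    set u := Axis.up hH.L0.K (hH.L0.A.coord (z - hH.L0.A.φ z • hH.L0.A.c)) with hu
    have hyu : hH.L0.ρ y u = E • u := by
      rw [hu, Axis.rep_apply, Axis.resK_up, Axis.res_apply, hH.L0.A.emb_coord _ hzA, hr', map_smul,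
        Axis.up_smul]
    obtain ⟨r, r', hrr⟩ := PlaneRep.mem_span_pair_of Q.span_top u
    rw [← hrr, map_add, map_smul, map_smul, ha, hb, smul_add, smul_smul, smul_smul, smul_smul,
      smul_smul] at hyu
    obtain ⟨h1, h2⟩ := Q.cmp hyu
    have hr0 : r = 0 := (mul_eq_zero.mp (show (a - E) * r = 0 by
      linear_combination h1)).resolve_left (sub_ne_zero.mpr hEne.1.symm)
    have hr0' : r' = 0 := (mul_eq_zero.mp (show (b - E) * r' = 0 by
      linear_combination h2)).resolve_left (sub_ne_zero.mpr hEne.2.symm)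
    refine Axis.up_ne_zero hH.L0.K (hH.L0.A.coord_ne_zero hzA hr) ?_
    rw [← hu, ← hrr, hr0, hr0', zero_smul, zero_smul, add_zero]
  have hgX : g ∈ hH.L0.X := hH.mem_X0 hg (o.t_isHom.commute_of_centre hH.notv hH.t_mem hg hzc)
  refine ⟨hgX, ?_⟩
  have hρc : ∀ u, hH.L0.ρ y (hH.L0.ρ ⟨g, hgX⟩ u) = hH.L0.ρ ⟨g, hgX⟩ (hH.L0.ρ y u) := fun u => by
    rw [← PlaneRep.rho_mul, ← PlaneRep.rho_mul,
      show y * (⟨g, hgX⟩ : hH.L0.X) = (⟨g, hgX⟩ : hH.L0.X) * y from Subtype.ext hcomm.symm]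
  constructor
  · obtain ⟨r, r', hrr⟩ := PlaneRep.mem_span_pair_of Q.span_top (hH.L0.ρ ⟨g, hgX⟩ Q.v)
    have h1 := hρc Q.v
    rw [ha, map_smul, ← hrr, map_add, map_smul, map_smul, ha, hb, smul_add, smul_smul, smul_smul,
      smul_smul, smul_smul] at h1
    have h2 := (Q.cmp h1).2
    have : r' = 0 := (mul_eq_zero.mp (show (b - a) * r' = 0 by linear_combination h2)).resolve_left
      (sub_ne_zero.mpr hab.symm)
    exact ⟨r, by rw [← hrr, this, zero_smul, add_zero]⟩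
  · obtain ⟨r, r', hrr⟩ := PlaneRep.mem_span_pair_of Q.span_top (hH.L0.ρ ⟨g, hgX⟩ Q.w)
    have h1 := hρc Q.w
    rw [hb, map_smul, ← hrr, map_add, map_smul, map_smul, ha, hb, smul_add, smul_smul, smul_smul,
      smul_smul, smul_smul] at h1
    have h2 := (Q.cmp h1).1
    have : r = 0 := (mul_eq_zero.mp (show (a - b) * r = 0 by linear_combination h2)).resolve_left
      (sub_ne_zero.mpr hab)
    exact ⟨r', by rw [← hrr, this, zero_smul, zero_add]⟩

end LinePair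

end C6Hyp

end CfsgLib.Geometric.SLThree
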