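import Cfsg.Agent.Lib.Geometric.SLThree.Ratio

/-!
The centraliser of the inverting involution: scalars on the axis, the neighbours of the involution,
and homologies with centre a coordinate vector.
-/

set_option autoImplicit false
set_option linter.unusedSectionVars false
set_option linter.style.haveILetI false

namespace CfsgLib.Geometric.SLThree

open Matrix MulAction

variable {F : Type*} [Field F]

/-- Points with stabilisers of order at least four lie in one orbit. -/
theorem TwoPoint.orbit_eq_of_big {G P : Type*} [Group G] [Finite G] [MulAction G P] [Finite P]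
    (h : TwoPoint G P) {p q : P} (hp : 4 ≤ Nat.card (stabilizer G p))
    (hq : 4 ≤ Nat.card (stabilizer G q)) : orbit G q = orbit G p := by
  obtain ⟨r, hr, hcase⟩ := h.cases
  obtain ⟨i, hi⟩ := hr p
  obtain ⟨j, hj⟩ := hr q
  rw [(TwoPoint.card_stab_orbit hi).1] at hp
  rw [(TwoPoint.card_stab_orbit hj).1] at hq
  rw [(TwoPoint.card_stab_orbit hi).2, (TwoPoint.card_stab_orbit hj).2]
  congr 1
  rcases hcase with ⟨k, -, hk⟩ | ⟨a, b, c, hab, hac, hbc, ha, hb, -⟩
  · have e1 : i = k := by by_contra e; rw [hk i e] at hp; omega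
    have e2 : j = k := by by_contra e; rw [hk j e] at hq; omega
    rw [e1, e2]
  · have key : ∀ l, 4 ≤ Nat.card (stabilizer G (r l)) → l = c := fun l hl => by
      rcases tri a b c l hab hac hbc with rfl | rfl | rfl
      · omega
      · omega
      · rfl
    rw [key i hp, key j hq]

namespace C6Hyp

variable [Finite F] {o : Omega F} {H : Subgroup (GL (Fin 3) F)} (hH : C6Hyp o H)
include hH

/-- The inverting involution with its two square roots. -/
noncomputable def L0 : Centred H where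
  s := o.t
  A := o.axis0
  two := o.two
  notv := hH.notv
  isHom := o.t_isHom
  mem := hH.t_mem
  u := o.W0
  v := o.W1
  u_mem := hH.W0_mem
  v_mem := hH.W1_mem
  u_sq := o.W0_sq
  v_sq := o.W1_sq
  anti := o.W0_W1

lemma mem_X0 {g : GL (Fin 3) F} (hg : g ∈ H) (h : g * o.t = o.t * g) : g ∈ hH.L0.X :=
  hH.L0.mem_X.mpr ⟨hg, h⟩

omit hH in
lemma t_ne_Z_pow (i : ℕ) : o.t ≠ o.Z ^ i := by
  intro h
  have h1 := congrFun (congrArg (fun g => ap g (Pi.single 0 1)) h) 0
  rw [(o.Z_dg.pow i), o.ap_t] at h1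
  simp at h1
  have h2 : (-1 : F) ^ 3 = (o.w ^ i) ^ 3 := by rw [h1]
  rw [← pow_mul, mul_comm i 3, pow_mul, o.cube, one_pow] at h2
  exact o.two (by linear_combination -h2)

omit hH in
lemma eq_one_of_Z_sq {i : ℕ} (h : o.Z ^ i * o.Z ^ i = 1) : o.Z ^ i = 1 := by
  have h3 : (o.Z ^ i) ^ 3 = 1 := by rw [← pow_mul, mul_comm, pow_mul, o.Z_cube, one_pow]
  rwa [pow_three, h, mul_one] at h3

omit hH in
lemma Z_mul_sq (i : ℕ) (y : GL (Fin 3) F) :
    o.Z ^ i * y * (o.Z ^ i * y) = o.Z ^ (i + i) * (y * y) := by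
  rw [mul_assoc, ← mul_assoc y, o.Z_pow_comm, mul_assoc, ← mul_assoc, ← pow_add]

omit hH in
lemma mul_t_sq {x : GL (Fin 3) F} (h2 : x * x = 1) (h : x * o.t = o.t * x) :
    x * o.t * (x * o.t) = 1 := by
  rw [show x * o.t * (x * o.t) = x * (o.t * x) * o.t by group, ← h, ← mul_assoc, h2, one_mul, o.t_sq]

/-- An element scalar on the axis is, up to a central element, trivial or the involution. -/
theorem scalar_cases {x : hH.L0.X} (h : IsSc hH.L0.ρ x) :
    ∃ i, (x : GL (Fin 3) F) = o.Z ^ i ∨ (x : GL (Fin 3) F) = o.Z ^ i * o.t := by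
  obtain ⟨β, hβ⟩ := (hH.L0.isSc_iff x).mp h
  obtain ⟨α, hα⟩ := hH.L0.eig_c x.2
  have hab : α ^ 2 = β ^ 2 := hH.lambda x.2.1 hα hβ
  have hd := det_eq_of_line_plane (g := (x : GL (Fin 3) F)) o.t_isHom.1 hα hβ
  rw [hH.det_eq_one x.2.1, ← hab] at hd
  obtain ⟨i, rfl⟩ : ∃ i : ℕ, α = o.w ^ i := by
    rcases o.root_cases (x := α) (by linear_combination -hd) with e | e | e
    · exact ⟨0, by simp [e]⟩
    · exact ⟨1, by simp [e]⟩
    · exact ⟨2, e⟩
  have hZ : ∀ y, ap (o.Z ^ i) y = o.w ^ i • y := fun y => by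
    rw [o.Z_dg.pow i]; funext j; fin_cases j <;> simp
  rcases sq_eq_sq_iff_eq_or_eq_neg.mp hab.symm with e | e
  · exact ⟨i, Or.inl (gl_ext_hom o.t_isHom.1 (hα.trans (hZ _).symm)
      fun y hy => by rw [hβ y hy, hZ, e])⟩
  · exact ⟨i, Or.inr (gl_ext_hom o.t_isHom.1 (by rw [ap_mul, o.t_isHom.ap_c, hZ]; exact hα)
      fun y hy => by rw [hβ y hy, ap_mul, o.t_isHom.ap_ker hy, hZ, e, neg_smul, smul_neg])⟩

/-- A square root of the involution is not scalar on the axis. -/
lemma not_sc_of_sq_t {x : hH.L0.X} (h : (x : GL (Fin 3) F) * x = o.t) : ¬ IsSc hH.L0.ρ x := by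
  intro hs
  obtain ⟨i, e | e⟩ := hH.scalar_cases hs <;> rw [e] at h
  · exact t_ne_Z_pow (i + i) (by rw [pow_add, h])
  · apply t_ne_Z_pow (o := o) (i + i)
    rw [← h, Z_mul_sq, o.t_sq, mul_one]

/-- A neighbour of the involution is not scalar on the axis. -/
lemma not_sc_of_inv {x : hH.L0.X} (h2 : (x : GL (Fin 3) F) * x = 1) (h1 : (x : GL (Fin 3) F) ≠ 1)
    (ht : (x : GL (Fin 3) F) ≠ o.t) : ¬ IsSc hH.L0.ρ x := by
  intro hs
  obtain ⟨i, e | e⟩ := hH.scalar_cases hs <;> rw [e] at h2 h1 ht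
  · exact h1 (eq_one_of_Z_sq h2)
  · rw [Z_mul_sq, o.t_sq, mul_one, pow_add] at h2
    exact ht (by rw [eq_one_of_Z_sq h2, one_mul])

lemma img_sq_eq_one {x : hH.L0.X} (h : (x : GL (Fin 3) F) * x = o.t) :
    img hH.L0.ρ x * img hH.L0.ρ x = 1 := by
  rw [← img_mul, hH.L0.img_eq_one, hH.L0.isSc_iff]
  exact ⟨-1, fun y hy => by
    rw [Subgroup.coe_mul, h, neg_one_smul]; exact o.t_isHom.ap_ker hy⟩

/-- A neighbour and a square root differ on the axis. -/
lemma img_ne {x w : hH.L0.X} (h2 : (x : GL (Fin 3) F) * x = 1) (hw : (w : GL (Fin 3) F) * w = o.t) :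
    img hH.L0.ρ x ≠ img hH.L0.ρ w := by
  intro e
  have h1 : IsSc hH.L0.ρ (x⁻¹ * w) := by
    rw [← hH.L0.img_eq_one, img_mul, ← e, ← img_mul, inv_mul_cancel, hH.L0.img_eq_one]
    exact PlaneRep.isSc_one
  have hx : ((x : GL (Fin 3) F))⁻¹ = x := inv_eq_of_mul_eq_one_right h2
  have hxt : (x : GL (Fin 3) F) * o.t = o.t * x := (hH.L0.mem_X.mp x.2).2
  obtain ⟨i, e | e⟩ := hH.scalar_cases h1 <;> rw [Subgroup.coe_mul, InvMemClass.coe_inv, hx] at e
  · have : (w : GL (Fin 3) F) = x * o.Z ^ i := by rw [← e, ← mul_assoc, h2, one_mul]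
    rw [this, mul_assoc, ← mul_assoc (o.Z ^ i), ← o.Z_pow_comm i (x : GL (Fin 3) F), mul_assoc,
      ← mul_assoc (x : GL (Fin 3) F), h2, one_mul, ← pow_add] at hw
    exact t_ne_Z_pow _ hw.symm
  · have : (w : GL (Fin 3) F) = o.Z ^ i * (x * o.t) := by
      rw [← mul_assoc, ← o.Z_pow_comm, mul_assoc, ← e, ← mul_assoc, h2, one_mul]
    rw [this, Z_mul_sq, mul_t_sq h2 hxt, mul_one] at hw
    exact t_ne_Z_pow _ hw.symm

/-- An involution commuting with the inverting involution, other than it, is conjugate in its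
centraliser to the product of the two. -/
theorem neighbour {s : GL (Fin 3) F} (hs : s ∈ H) (h2 : s * s = 1) (hst : s * o.t = o.t * s)
    (h1 : s ≠ 1) (hne : s ≠ o.t) :
    ∃ x ∈ H, x * o.t = o.t * x ∧ x * s * x⁻¹ = o.t * s := by
  classical
  haveI := hH.L0.finite_pts
  let x₀ : hH.L0.X := ⟨s, hH.mem_X0 hs hst⟩
  let w₀ : hH.L0.X := ⟨o.W0, hH.L0.u_X⟩
  have hx0 : ¬ IsSc hH.L0.ρ x₀ := hH.not_sc_of_inv h2 h1 hne
  have hw0 : ¬ IsSc hH.L0.ρ w₀ := hH.not_sc_of_sq_t (x := w₀) o.W0_sq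
  set a := img hH.L0.ρ x₀ with ha
  set b := img hH.L0.ρ w₀ with hb
  have ha2 : a * a = 1 := by
    rw [ha, ← img_mul, hH.L0.img_eq_one,
      show x₀ * x₀ = 1 from Subtype.ext (by simpa using h2)]
    exact PlaneRep.isSc_one
  have hb2 : b * b = 1 := hH.img_sq_eq_one (x := w₀) o.W0_sq
  have ha1 : a ≠ 1 := fun e => hx0 ((hH.L0.img_eq_one _).mp e)
  have hb1 : b ≠ 1 := fun e => hw0 ((hH.L0.img_eq_one _).mp e)
  have hab : a ≠ b := hH.img_ne (x := x₀) (w := w₀) h2 o.W0_sq
  have hai : a⁻¹ = a := inv_eq_of_mul_eq_one_right ha2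
  have hbi : b⁻¹ = b := inv_eq_of_mul_eq_one_right hb2
  set u := a * b with hu
  have hau : a * u * a⁻¹ = u⁻¹ := by
    rw [hu, _root_.mul_inv_rev, hai, hbi, ← mul_assoc, ha2, one_mul]
  have hpow : ∀ k : ℕ, a * u ^ k = (u ^ k)⁻¹ * a := fun k => by
    rw [← mul_inv_eq_iff_eq_mul, ← conj_pow, hau, inv_pow]
  have hum : u ^ orderOf u = 1 := pow_orderOf_eq_one u
  rcases Nat.even_or_odd (orderOf u) with ⟨k, hk⟩ | ⟨k, hk⟩
  · -- a central involution of the dihedral group
    set z := u ^ k with hz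
    have hz2 : z * z = 1 := by rw [hz, ← pow_add, ← hk, hum]
    have hk0 : 0 < k := by have := orderOf_pos u; omega
    have hz1 : z ≠ 1 := pow_ne_one_of_lt_orderOf (by omega) (by omega)
    have hzi : z⁻¹ = z := inv_eq_of_mul_eq_one_right hz2
    have haz : a * z = z * a := by rw [hz, hpow, ← hz, hzi]
    have hza : z ≠ a := by
      intro e
      have hc : a * u = u * a := by rw [← e, hz]; exact (Commute.pow_self u k).eq
      rw [← mul_inv_eq_iff_eq_mul, hau] at hc
      have h2u : orderOf u ∣ 2 := orderOf_dvd_of_pow_eq_one (by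
        rw [pow_two]; nth_rewrite 1 [← hc]; exact inv_mul_cancel u)
      have : k = 1 := by have := Nat.le_of_dvd two_pos h2u; omega
      subst this
      apply hb1
      rw [hz, pow_one, hu] at e
      exact mul_left_cancel (e.trans (mul_one a).symm)
    obtain ⟨x, hx⟩ := img_surjective hH.L0.ρ z
    have hk1 : IsSc hH.L0.ρ (x₀⁻¹ * (x * x₀ * x⁻¹)) := by
      rw [← hH.L0.img_eq_one]
      have himg : ∀ y : hH.L0.X, img hH.L0.ρ y⁻¹ = (img hH.L0.ρ y)⁻¹ := fun y => by
        refine eq_inv_of_mul_eq_one_left ?_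
        rw [← img_mul, inv_mul_cancel, hH.L0.img_eq_one]; exact PlaneRep.isSc_one
      rw [img_mul, img_mul, img_mul, himg, himg, hx, ← ha, ← haz]
      group
    have hxt : (x : GL (Fin 3) F) * o.t = o.t * x := (hH.L0.mem_X.mp x.2).2
    refine ⟨x, x.2.1, hxt, ?_⟩
    obtain ⟨i, e⟩ := hH.scalar_cases hk1
    simp only [Subgroup.coe_mul, InvMemClass.coe_inv] at e
    change s⁻¹ * ((x : GL (Fin 3) F) * s * (x : GL (Fin 3) F)⁻¹) = _ ∨
      s⁻¹ * ((x : GL (Fin 3) F) * s * (x : GL (Fin 3) F)⁻¹) = _ at e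
    have hsq : (x : GL (Fin 3) F) * s * (x : GL (Fin 3) F)⁻¹ * (x * s * (x : GL (Fin 3) F)⁻¹) = 1 := by
      rw [show (x : GL (Fin 3) F) * s * (x : GL (Fin 3) F)⁻¹ * (x * s * (x : GL (Fin 3) F)⁻¹)
        = x * (s * s) * (x : GL (Fin 3) F)⁻¹ by group, h2, mul_one, mul_inv_cancel]
    rcases e with e | e <;> rw [inv_mul_eq_iff_eq_mul] at e <;> rw [e] at hsq ⊢
    · exfalso
      rw [show s * o.Z ^ i * (s * o.Z ^ i) = s * (o.Z ^ i * s) * o.Z ^ i by group,
        ← o.Z_pow_comm, ← mul_assoc, h2, one_mul] at hsq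
      rw [eq_one_of_Z_sq hsq, mul_one] at e
      -- `x` commutes with `s`, hence fixes a point of `s` on the axis
      have hxs : (x : GL (Fin 3) F) * s = s * x := mul_inv_eq_iff_eq_mul.mp e
      obtain ⟨c, ψ, hψ⟩ := exists_isHom o.two (hH.sl hs) h2 h1
      obtain ⟨hc1, -, -⟩ := hψ.commute_imp o.two hst.symm
      set r := ψ (ap o.t c) with hr
      have hrr : r * r = 1 := by
        have h3 : ap o.t (ap o.t c) = c := by rw [← ap_mul, o.t_sq, ap_one]
        rw [hc1, ap_smul, hc1, smul_smul] at h3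
        have h4 : (r * r - 1) • c = 0 := by rw [sub_smul, one_smul, h3, sub_self]
        exact sub_eq_zero.mp ((smul_eq_zero.mp h4).resolve_right hψ.c_ne)
      rcases mul_self_eq_one_iff.mp hrr with e1 | e1
      · rw [e1, one_smul] at hc1
        have hc0 := o.t_isHom.eq_smul_of_fix o.two hc1
        set q := o.φ0 c with hq
        have hq0 : q ≠ 0 := fun h => hψ.c_ne (by rw [hc0, h, zero_smul])
        have hs0 : IsHom s o.c0 (q • ψ) := by
          refine ⟨?_, fun y => ?_⟩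
          · rw [LinearMap.smul_apply, smul_eq_mul, ← smul_eq_mul, ← map_smul, ← hc0, hψ.1]
          · rw [hψ.2, LinearMap.smul_apply, smul_eq_mul, hc0, smul_smul]
            congr 2
            ring
        exact hne (o.t_isHom.eq_of_centre hH.notv hH.t_mem hs hs0)
      · rw [e1, neg_one_smul] at hc1
        have hcA := o.t_isHom.ker_of_neg o.two hc1
        obtain ⟨hc2, -, -⟩ := hψ.commute_imp o.two hxs
        refine hza ?_
        rw [← hx, ha]
        refine hH.L0.img_eq_of_common (x := c) (fun h => hz1 (by rw [← hx]; exact (hH.L0.img_eq_one _).mpr h))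
          hx0 ?_ ?_ hcA hψ.c_ne ⟨_, hc2⟩ ⟨1, by rw [one_smul]; exact hψ.ap_c⟩
        · rw [← hH.L0.img_eq_one, img_mul, hx, hz2]
        · rw [← hH.L0.img_eq_one, img_mul, ← ha, ha2]
    · rw [show s * (o.Z ^ i * o.t) * (s * (o.Z ^ i * o.t))
        = s * (o.Z ^ i * (o.t * s)) * (o.Z ^ i * o.t) by group, ← hst,
        ← mul_assoc (o.Z ^ i) s, ← o.Z_pow_comm i s, ← mul_assoc, ← mul_assoc, ← mul_assoc, h2,
        one_mul, mul_assoc (o.Z ^ i), o.Z_pow_comm i o.t, ← mul_assoc, mul_assoc _ o.t, o.t_sq,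
        mul_one] at hsq
      rw [eq_one_of_Z_sq hsq, one_mul, hst]
  · -- conjugate in the dihedral group
    exfalso
    obtain ⟨x, hx⟩ := img_surjective hH.L0.ρ (u ^ k)
    have hconj : u ^ k * a * (u ^ k)⁻¹ = b := by
      have h3 : u ^ k * a = a * (u ^ k)⁻¹ := by
        rw [eq_mul_inv_iff_mul_eq, mul_assoc, hpow, ← mul_assoc, mul_inv_cancel, one_mul]
      rw [h3, mul_assoc, ← _root_.mul_inv_rev, ← pow_add]
      have h4 : (u ^ (k + k))⁻¹ = u :=
        inv_eq_of_mul_eq_one_right (by rw [← pow_succ, ← hum, hk, two_mul])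
      rw [h4, hu, ← mul_assoc, ha2, one_mul]
    have himg : ∀ y : hH.L0.X, img hH.L0.ρ y⁻¹ = (img hH.L0.ρ y)⁻¹ := fun y => by
      refine eq_inv_of_mul_eq_one_left ?_
      rw [← img_mul, inv_mul_cancel, hH.L0.img_eq_one]; exact PlaneRep.isSc_one
    have hsq : ((x * x₀ * x⁻¹ : hH.L0.X) : GL (Fin 3) F) * ((x * x₀ * x⁻¹ : hH.L0.X) : GL (Fin 3) F) = 1 := by
      rw [← Subgroup.coe_mul, show x * x₀ * x⁻¹ * (x * x₀ * x⁻¹) = x * (x₀ * x₀) * x⁻¹ by group,
        show x₀ * x₀ = 1 from Subtype.ext (by simpa using h2), mul_one, mul_inv_cancel]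
      rfl
    refine hH.img_ne (x := x * x₀ * x⁻¹) (w := w₀) hsq o.W0_sq ?_
    rw [img_mul, img_mul, himg, hx, ← ha, hconj]

/-- An involution commuting with the inverting one and different from it. -/
def HasNbr (o : Omega F) (H : Subgroup (GL (Fin 3) F)) : Prop :=
  ∃ s ∈ H, s * s = 1 ∧ s * o.t = o.t * s ∧ s ≠ 1 ∧ s ≠ o.t

/-- Elements scalar on the last two coordinates. -/
theorem side (hN : HasNbr o H) {g : GL (Fin 3) F} (hg : g ∈ H) {α β : F} (hd : IsDg g α β β) :
    α ^ 2 = β ^ 2 := by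
  classical
  by_contra hne
  obtain ⟨hα, hβ, -⟩ := hd.ne_zero
  have hab : α ≠ β := fun e => hne (by rw [e])
  have hc0 : ap g o.c0 = β • o.c0 := by
    rw [hd]; funext i; fin_cases i <;> simp [Omega.c0]
  have hgt := o.t_isHom.commute_of_centre hH.notv hH.t_mem hg hc0
  let g' : hH.L0.X := ⟨g, hH.mem_X0 hg hgt⟩
  let p : Fin 3 → F := ![1, 0, 0]
  let q : Fin 3 → F := ![0, 1, 1]
  have hpA : o.φ0 p = 0 := by simp [p, Omega.φ0_apply]
  have hqA : o.φ0 q = 0 := by simp [q, Omega.φ0_apply]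
  have hp0 : p ≠ 0 := fun h => by simpa [p] using congrFun h 0
  have hq0 : q ≠ 0 := fun h => by simpa [q] using congrFun h 1
  have hgp : ap g p = α • p := by rw [hd]; funext i; fin_cases i <;> simp [p]
  have hgq : ap g q = β • q := by rw [hd]; funext i; fin_cases i <;> simp [q]
  have hsc : ∀ k, IsSc hH.L0.ρ (g' ^ k) ↔ α ^ k = β ^ k := by
    intro k
    rw [hH.L0.isSc_iff, SubgroupClass.coe_pow]
    constructor
    · rintro ⟨r, hr⟩
      have h1 := congrFun (hr p hpA) 0
      have h2 := congrFun (hr q hqA) 1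
      rw [hd.pow k] at h1 h2
      simp [p, q] at h1 h2
      rw [h1, h2]
    · intro e
      exact ⟨β ^ k, fun y _ => by rw [hd.pow k, e]; funext i; fin_cases i <;> simp⟩
  have hgn : ¬ IsSc hH.L0.ρ g' := fun h => hab (by simpa using (hsc 1).mp (by rwa [pow_one]))
  set P := hH.L0.pt hgn hpA hp0 ⟨α, hgp⟩ with hP
  set Q := hH.L0.pt hgn hqA hq0 ⟨β, hgq⟩ with hQ
  set γ := img hH.L0.ρ g' with hγ
  haveI := hH.L0.finite_pts
  have hord : ∀ k, orderOf γ ∣ k ↔ α ^ k = β ^ k := fun k => by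
    rw [orderOf_dvd_iff_pow_eq_one, hγ, ← img_pow, hH.L0.img_eq_one, hsc]
  have hγP : γ • P = P := (hH.L0.smul_pt_eq hgn hpA hp0 ⟨α, hgp⟩ g').mpr ⟨α, hgp⟩
  have hγQ : γ • Q = Q := (hH.L0.smul_pt_eq hgn hqA hq0 ⟨β, hgq⟩ g').mpr ⟨β, hgq⟩
  by_cases horb : Q ∈ orbit (PImage hH.L0.ρ) P
  · obtain ⟨δ, hδ⟩ := horb
    obtain ⟨x, rfl⟩ := img_surjective hH.L0.ρ δ
    obtain ⟨r, hr⟩ := hH.L0.ap_of_smul_pt hgn hgn hpA hp0 ⟨α, hgp⟩ hqA hq0 ⟨β, hgq⟩ (h := x) hδ
    have hr0 : r ≠ 0 := fun h => ap_ne_zero _ hp0 (by rw [hr, h, zero_smul])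
    obtain ⟨a, ha⟩ := hH.L0.eig_c x.2
    change ap (x : GL (Fin 3) F) o.c0 = a • o.c0 at ha
    have ha0 : a ≠ 0 := smul_ap_mem ha o.t_isHom.c_ne
    set y := (x : GL (Fin 3) F) * g * (x : GL (Fin 3) F)⁻¹ with hy
    have hyH : y ∈ H := mul_mem (mul_mem x.2.1 hg) (inv_mem x.2.1)
    have hyq : ap y q = α • q := by
      rw [hy, ap_mul, ap_mul]
      have : ap (x : GL (Fin 3) F)⁻¹ q = r⁻¹ • p := by
        apply ap_injective (x : GL (Fin 3) F)
        rw [ap_ap_inv, ap_smul, hr, smul_smul, inv_mul_cancel₀ hr0, one_smul]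
      rw [this, ap_smul, hgp, ap_smul, ap_smul, hr, smul_smul, smul_smul]
      congr 1
      field_simp
    have hyc : ap y o.c0 = β • o.c0 := by
      rw [hy, ap_mul, ap_mul, ap_inv_of_eig ha ha0, ap_smul, hc0, ap_smul, ap_smul, ha, smul_smul,
        smul_smul]
      congr 1
      field_simp
    have hli : LinearIndependent F ![o.c0, q] := by
      rw [LinearIndependent.pair_iff]
      intro s t h
      have h1 := congrFun h 1
      have h2 := congrFun h 2
      simp [Omega.c0, q] at h1 h2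
      constructor
      · have : (2 : F) * s = 0 := by linear_combination h1 - h2
        exact (mul_eq_zero.mp this).resolve_left o.two
      · have : (2 : F) * t = 0 := by linear_combination h1 + h2
        exact (mul_eq_zero.mp this).resolve_left o.two
    have hcomm := hH.notv.comm_of_two hg hyH hli hc0 hgq hyc hyq
    set d := ap y p 0 with hd0
    have hyp : ap y p = d • p := by
      have h1 := congrArg (fun u => ap u p) hcomm
      simp only [ap_mul, hgp, ap_smul] at h1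
      rw [hd] at h1
      have e1 := congrFun h1 1
      have e2 := congrFun h1 2
      simp at e1 e2
      have z1 : ap y p 1 = 0 := e1.resolve_left hab.symm
      have z2 : ap y p 2 = 0 := e2.resolve_left hab.symm
      funext i; fin_cases i <;> simp [p, hd0]
      · exact z1
      · exact z2
    -- the other eigenvalue
    set z := ap (x : GL (Fin 3) F) q with hz
    have hzA : o.φ0 z = 0 := hH.L0.maps_axis x.2 hqA
    have hyz : ap y z = β • z := by
      rw [hy, hz, ap_mul, ap_mul, ap_inv_ap, hgq, ap_smul]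
    have hz12 : z 1 = z 2 := by
      rw [Omega.φ0_apply, mul_eq_zero, sub_eq_zero] at hzA
      exact hzA.resolve_left (inv_ne_zero o.two)
    have hzd : z = z 0 • p + z 1 • q := by
      funext i; fin_cases i <;> simp [p, q, hz12]
    rw [hzd, ap_add, ap_smul, ap_smul, hyp, hyq] at hyz
    have f0 := congrFun hyz 0
    have f1 := congrFun hyz 1
    simp [p, q] at f0 f1
    have hz1 : z 1 = 0 :=
      (mul_eq_zero.mp (show (α - β) * z 1 = 0 by linear_combination f1)).resolve_left (sub_ne_zero.mpr hab)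
    have hz0 : z 0 ≠ 0 := by
      intro h
      have : z = 0 := by rw [hzd, h, hz1, zero_smul, zero_smul, add_zero]
      exact ap_ne_zero _ hq0 (hz.symm.trans this)
    have hdβ : d = β := mul_left_cancel₀ hz0 (by linear_combination f0)
    have hl := hH.lambda (x := g * y) (mul_mem hg hyH) (α := β * β) (β := α * β)
      (by rw [ap_mul, hyc, ap_smul, hc0, smul_smul])
      (fun w hw => by
        have hw12 : w 1 = w 2 := by
          rw [Omega.φ0_apply, mul_eq_zero, sub_eq_zero] at hw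
          exact hw.resolve_left (inv_ne_zero o.two)
        have hwd : w = w 0 • p + w 1 • q := by
          funext i; fin_cases i <;> simp [p, q, hw12]
        rw [hwd]
        simp only [ap_mul, ap_add, ap_smul, hyp, hyq, hgp, hgq, hdβ]
        module)
    exact hne (mul_right_cancel₀ (pow_ne_zero 2 hβ) (by linear_combination -hl))
  · -- not conjugate: the order is three
    have h2 : ¬ orderOf γ ∣ 2 := fun h => hne ((hord 2).mp h)
    have hdP : orderOf γ ∣ Nat.card (stabilizer (PImage hH.L0.ρ) P) := TwoPoint.orderOf_dvd_stab hγP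
    have hdQ : orderOf γ ∣ Nat.card (stabilizer (PImage hH.L0.ρ) Q) := TwoPoint.orderOf_dvd_stab hγQ
    have hpos := orderOf_pos γ
    have h3 : 3 ≤ orderOf γ := by
      by_contra hlt
      apply h2
      have : orderOf γ = 1 ∨ orderOf γ = 2 := by omega
      rcases this with e | e <;> simp [e]
    by_cases h4 : 4 ≤ orderOf γ
    · refine horb ?_
      rw [← hH.L0.twoPoint.orbit_eq_of_big (h4.trans (Nat.le_of_dvd Nat.card_pos hdP))
        (h4.trans (Nat.le_of_dvd Nat.card_pos hdQ))]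
      exact mem_orbit_self Q
    · have e3 : orderOf γ = 3 := by omega
      obtain ⟨-, hle⟩ := hH.L0.twoPoint.two_three horb ((dvd_of_eq e3.symm).trans hdP) ((dvd_of_eq e3.symm).trans hdQ)
      obtain ⟨s, hs, hs2, hst, hs1, hsne⟩ := hN
      let x₀ : hH.L0.X := ⟨s, hH.mem_X0 hs hst⟩
      let w₀ : hH.L0.X := ⟨o.W0, hH.L0.u_X⟩
      let w₁ : hH.L0.X := ⟨o.W1, hH.L0.v_X⟩
      have hw2 : ((w₀ * w₁ : hH.L0.X) : GL (Fin 3) F) * (w₀ * w₁ : hH.L0.X) = o.t := hH.L0.uv_sq
      have n0 := hH.not_sc_of_sq_t (x := w₀) o.W0_sq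
      have n1 := hH.not_sc_of_sq_t (x := w₁) o.W1_sq
      have n01 := hH.not_sc_of_sq_t (x := w₀ * w₁) hw2
      have nx := hH.not_sc_of_inv (x := x₀) hs2 hs1 hsne
      have i0 := hH.img_sq_eq_one (x := w₀) o.W0_sq
      have i1 := hH.img_sq_eq_one (x := w₁) o.W1_sq
      have i01 := hH.img_sq_eq_one (x := w₀ * w₁) hw2
      have ix : img hH.L0.ρ x₀ * img hH.L0.ρ x₀ = 1 := by
        rw [← img_mul, hH.L0.img_eq_one, show x₀ * x₀ = 1 from Subtype.ext (by simpa using hs2)]
        exact PlaneRep.isSc_one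
      rw [← hH.L0.img_eq_one] at n0 n1 n01 nx
      let S := {γ : PImage hH.L0.ρ // γ ≠ 1 ∧ γ * γ = 1}
      let f : Fin 4 → S := ![⟨_, nx, ix⟩, ⟨_, n0, i0⟩, ⟨_, n1, i1⟩, ⟨_, n01, i01⟩]
      have e01 : img hH.L0.ρ (w₀ * w₁) = img hH.L0.ρ w₀ * img hH.L0.ρ w₁ := img_mul _ _ _
      have dA := hH.img_ne (x := x₀) (w := w₀) hs2 o.W0_sq
      have dB := hH.img_ne (x := x₀) (w := w₁) hs2 o.W1_sq
      have dC := hH.img_ne (x := x₀) (w := w₀ * w₁) hs2 hw2
      have dD : img hH.L0.ρ w₀ ≠ img hH.L0.ρ w₁ := fun e => n01 (by rw [e01, e, i1])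
      have dE : img hH.L0.ρ w₀ ≠ img hH.L0.ρ (w₀ * w₁) := fun e => n1 (by
        rw [e01] at e; exact mul_left_cancel (e.symm.trans (mul_one _).symm))
      have dF : img hH.L0.ρ w₁ ≠ img hH.L0.ρ (w₀ * w₁) := fun e => n0 (by
        rw [e01] at e; exact mul_right_cancel (e.symm.trans (one_mul _).symm))
      have hf : Function.Injective f := by
        intro i j h
        have h' := congrArg Subtype.val h
        fin_cases i <;> fin_cases j <;> first | rfl | skip
        all_goals exfalso; revert h'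
        · exact dA
        · exact dB
        · exact dC
        · exact dA.symm
        · exact dD
        · exact dE
        · exact dB.symm
        · exact dD.symm
        · exact dF
        · exact dC.symm
        · exact dE.symm
        · exact dF.symm
      have := Nat.card_le_card_of_injective f hf
      rw [Nat.card_fin] at this
      have : Nat.card S ≤ 3 := hle
      omega

end C6Hyp

end CfsgLib.Geometric.SLThree
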