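import Cfsg.Agent.Lib.Geometric.Centres
import Cfsg.Agent.Lib.Geometric.Monomial
import Cfsg.Agent.Lib.Geometric.SLThree.Homology

/-!
A subgroup of the three-dimensional special linear group containing the monomial matrices and a
non-monomial transvection is the whole special linear group, for fields with at least five elements.
-/

namespace CfsgLib.Geometric.SLThree

open Matrix

variable {F : Type*} [Field F]

/-- The functional with coefficients `a`. -/
def fn (a : Fin 3 → F) : (Fin 3 → F) →ₗ[F] F :=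
  a 0 • LinearMap.proj 0 + a 1 • LinearMap.proj 1 + a 2 • LinearMap.proj 2

@[simp] lemma fn_apply (a x : Fin 3 → F) : fn a x = a 0 * x 0 + a 1 * x 1 + a 2 * x 2 := by
  simp [fn]

lemma fn_single (a : Fin 3 → F) (i : Fin 3) : fn a (Pi.single i 1) = a i := by
  fin_cases i <;> simp

lemma eq_fn (φ : (Fin 3 → F) →ₗ[F] F) : φ = fn fun i => φ (Pi.single i 1) := by
  refine (Pi.basisFun F (Fin 3)).ext fun i => ?_
  rw [Pi.basisFun_apply, fn_single]

lemma fn_perm (π : Equiv.Perm (Fin 3)) (a x : Fin 3 → F) : fn (a ∘ π) (x ∘ π) = fn a x := by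
  simp only [fn_apply, Function.comp_apply]
  have := Equiv.sum_comp π (fun i => a i * x i)
  simpa [Fin.sum_univ_three] using this

variable {H : Subgroup (GL (Fin 3) F)}

/-- The transvection with centre `v` and axis covector `a` lies in `H`. -/
def Has (H : Subgroup (GL (Fin 3) F)) (v a : Fin 3 → F) : Prop :=
  ∃ h : fn a v = 0, tv v (fn a) h ∈ H

lemma Has.dot {v a : Fin 3 → F} (h : Has H v a) : a 0 * v 0 + a 1 * v 1 + a 2 * v 2 = 0 := by
  simpa using h.1

lemma Has.congr {v w a b : Fin 3 → F} (h : Has H v a) (hw : fn b w = 0)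
    (he : ∀ x, fn a x • v = fn b x • w) : Has H w b := by
  obtain ⟨h0, hm⟩ := h
  exact ⟨hw, tv_eq_tv h0 hw he ▸ hm⟩

lemma Has.of_smul {v a : Fin 3 → F} {t : F} (ht : t ≠ 0) (h : Has H (t • v) a) :
    Has H v (t • a) := by
  have := h.dot
  refine h.congr ?_ fun x => ?_
  · simp only [fn_apply, Pi.smul_apply, smul_eq_mul] at this ⊢
    linear_combination this
  · rw [smul_smul]
    congr 1
    simp only [fn_apply, Pi.smul_apply, smul_eq_mul]
    ring

lemma Has.sub_axis {v a b : Fin 3 → F} (h : Has H v a) (h' : Has H v b) : Has H v (a - b) := by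
  obtain ⟨h0, hm⟩ := h
  obtain ⟨h0', hm'⟩ := h'
  refine ⟨by simp only [fn_apply, Pi.sub_apply] at h0 h0' ⊢; linear_combination h0 - h0', ?_⟩
  convert mul_mem hm (inv_mem hm') using 1
  apply gl_ext
  intro x
  simp only [tv_inv, ap_mul, ap_tv, map_add, map_smul, LinearMap.neg_apply, smul_eq_mul, h0]
  simp only [fn_apply, Pi.sub_apply]
  module

lemma Has.sub_centre {v w a : Fin 3 → F} (h : Has H v a) (h' : Has H w a) : Has H (v - w) a := by
  obtain ⟨h0, hm⟩ := h
  obtain ⟨h0', hm'⟩ := h'
  refine ⟨by rw [map_sub, h0, h0', sub_zero], ?_⟩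
  convert mul_mem hm (inv_mem hm') using 1
  apply gl_ext
  intro x
  simp only [tv_inv, ap_mul, ap_tv, map_add, map_smul, LinearMap.neg_apply, smul_eq_mul, h0']
  module

lemma Has.conj {g : GL (Fin 3) F} (hg : g ∈ H) {v a b : Fin 3 → F} (h : Has H v a)
    (hb : ∀ x, fn b (ap g x) = fn a x) : Has H (ap g v) b := by
  obtain ⟨h0, hm⟩ := h
  refine ⟨by rw [hb, h0], ?_⟩
  have := mul_mem (mul_mem hg hm) (inv_mem hg)
  rw [conj_tv] at this
  convert this using 1
  refine tv_eq_tv _ _ fun x => ?_
  have hx := hb (ap g⁻¹ x)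
  rw [ap_ap_inv] at hx
  simp only [LinearMap.comp_apply, LinearEquiv.coe_coe, apEquiv_apply, hx]

variable (hH : ∀ π c, (mon π c : Matrix (Fin 3) (Fin 3) F).det = 1 → mon π c ∈ H)
include hH

/-- Conjugation by a diagonal element. -/
lemma Has.diag {v a : Fin 3 → F} (h : Has H v a) {x y z : F} (hxyz : x * y * z = 1) :
    Has H ![x * v 0, y * v 1, z * v 2] ![a 0 * (y * z), a 1 * (x * z), a 2 * (x * y)] := by
  have hx : x ≠ 0 := fun e => by simp [e] at hxyz
  have hy : y ≠ 0 := fun e => by simp [e] at hxyz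
  have hz : z ≠ 0 := fun e => by simp [e] at hxyz
  set g : GL (Fin 3) F := mon 1 ![Units.mk0 x hx, Units.mk0 y hy, Units.mk0 z hz]
  have hg : g ∈ H := hH _ _ (by rw [det_mon, Fin.prod_univ_three]; simp [hxyz])
  have hap : ∀ u : Fin 3 → F, ap g u = ![x * u 0, y * u 1, z * u 2] := by
    intro u; funext i
    rw [ap_mon]
    fin_cases i <;> simp [show Equiv.symm (1 : Equiv.Perm (Fin 3)) = 1 from rfl]
  rw [← hap]
  refine h.conj hg fun u => ?_
  simp only [hap, fn_apply, Matrix.cons_val]
  linear_combination (a 0 * u 0 + a 1 * u 1 + a 2 * u 2) * hxyz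

/-- A permutation of the coordinates, with a sign. -/
lemma exists_perm (π : Equiv.Perm (Fin 3)) :
    ∃ g ∈ H, ∃ s : F, s * s = 1 ∧ ∀ u : Fin 3 → F, ap g u = s • (u ∘ π) := by
  rcases Int.units_eq_one_or (Equiv.Perm.sign π⁻¹) with e | e
  · refine ⟨mon π⁻¹ 1, hH _ _ ?_, 1, one_mul 1, fun u => funext fun i => ?_⟩
    · rw [det_mon, e, Fin.prod_univ_three]; simp
    · simp [ap_mon, Equiv.Perm.inv_def]
  · refine ⟨mon π⁻¹ (fun _ => -1), hH _ _ ?_, -1, by ring, fun u => funext fun i => ?_⟩
    · rw [det_mon, e, Fin.prod_univ_three]; simp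
    · simp [ap_mon, Equiv.Perm.inv_def]

/-- Conjugation by a permutation. -/
lemma Has.perm {v a : Fin 3 → F} (h : Has H v a) (π : Equiv.Perm (Fin 3)) :
    Has H (v ∘ π) (a ∘ π) := by
  obtain ⟨g, hg, s, hs, hap⟩ := exists_perm hH π
  have h1 : Has H (ap g v) (s • (a ∘ π)) := h.conj hg fun u => by
    simp only [hap, fn_apply, Pi.smul_apply, smul_eq_mul]
    have e := fn_perm π a u
    simp only [fn_apply, Function.comp_apply] at e ⊢
    linear_combination e + (a (π 0) * u (π 0) + a (π 1) * u (π 1) + a (π 2) * u (π 2)) * hs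
  rw [hap] at h1
  have h2 := h1.of_smul (fun e => by simp [e] at hs)
  rwa [smul_smul, hs, one_smul] at h2

omit hH in
lemma exists_cube_ne [Fintype F] (hq : 5 ≤ Fintype.card F) : ∃ y : F, y ≠ 0 ∧ y ^ 3 ≠ 1 := by
  classical
  by_contra hc
  push Not at hc
  set p : Polynomial F := Polynomial.X ^ 4 - Polynomial.X
  have hp : p ≠ 0 := fun h => by
    have := congrArg (Polynomial.coeff · 4) h
    simp [p, Polynomial.coeff_X] at this
  have hsub : (Finset.univ : Finset F) ⊆ p.roots.toFinset := fun y _ => by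
    rw [Multiset.mem_toFinset, Polynomial.mem_roots hp, Polynomial.IsRoot.def]
    by_cases hy : y = 0
    · simp [p, hy]
    · simp only [p, Polynomial.eval_sub, Polynomial.eval_pow, Polynomial.eval_X]
      linear_combination y * hc y hy
  have h1 := Finset.card_le_card hsub
  have h2 := Multiset.toFinset_card_le p.roots
  have h3 := p.card_roots'
  have h4 : p.natDegree ≤ 4 := by simp only [p]; compute_degree
  rw [Finset.card_univ] at h1
  omega

/-- Vertex centre and a single other coordinate. -/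
lemma sl_of_vertex_side {x b : F} (hx : x ≠ 0) (hb : b ≠ 0)
    (h : Has H ![x, 0, 0] ![0, b, 0]) : Cfsg.Geo.specialLinear (Fin 3) F ≤ H := by
  have hA : ∀ t : F, Has H ![1, 0, 0] ![0, t, 0] := by
    intro t
    by_cases ht : t = 0
    · subst ht
      refine ⟨by simp, ?_⟩
      convert one_mem H
      exact gl_ext fun y => by simp
    have hu : t / (x * b) ≠ 0 := div_ne_zero ht (mul_ne_zero hx hb)
    set u := t / (x * b) with hu'
    have h1 := h.diag hH (x := u) (y := 1) (z := u⁻¹) (by field_simp)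
    refine h1.congr (by simp) fun y => ?_
    simp only [fn_apply]
    funext i
    fin_cases i
    · simp [hu']
      field_simp
    · simp
    · simp
  have hB : ∀ s t : F, Has H ![1, 0, 0] ![0, s, t] := by
    intro s t
    have hp : Has H ![1, 0, 0] ![0, 0, -t] := by
      convert (hA (-t)).perm hH (Equiv.swap 1 2) using 1 <;> funext i <;> fin_cases i <;>
        simp [Equiv.swap_apply_def]
    convert (hA s).sub_axis hp using 1
    funext i; fin_cases i <;> simp
  have h0 : FullCentre H (![1, 0, 0] : Fin 3 → F) := by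
    intro φ hφ
    obtain ⟨_, hm⟩ := hB (φ (Pi.single 1 1)) (φ (Pi.single 2 1))
    convert hm using 1
    refine tv_eq_tv _ _ fun y => ?_
    have he : φ (Pi.single 0 1) = 0 := by
      convert hφ using 2
      funext i; fin_cases i <;> simp
    congr 1
    conv_lhs => rw [eq_fn φ]
    simp [he]
  refine specialLinear_le_of_fullCentre (Pi.basisFun F (Fin 3)).span_eq ?_
  rintro _ ⟨i, rfl⟩
  obtain ⟨g, hg, s, hs, hap⟩ := exists_perm hH (Equiv.swap 0 i)
  have h1 := fullCentre_smul (fullCentre_ap hg h0) s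
  rw [hap, smul_smul, hs, one_smul] at h1
  convert h1 using 1
  funext j
  fin_cases i <;> fin_cases j <;> simp [Equiv.swap_apply_def]

variable [Fintype F] (hq : 5 ≤ Fintype.card F)
include hq

/-- Vertex centre. -/
lemma sl_of_vertex {v a : Fin 3 → F} (h : Has H v a) (h0 : v 0 ≠ 0) (h1 : v 1 = 0)
    (h2 : v 2 = 0) (ha : a ≠ 0) : Cfsg.Geo.specialLinear (Fin 3) F ≤ H := by
  have ha0 : a 0 = 0 := by
    have := h.dot
    rw [h1, h2] at this
    simpa [h0] using this
  have hv : v = ![v 0, 0, 0] := by funext i; fin_cases i <;> simp [h1, h2]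
  rw [hv] at h
  by_cases ha2 : a 2 = 0
  · have ha1 : a 1 ≠ 0 := fun e => ha (by funext i; fin_cases i <;> simp [ha0, e, ha2])
    refine sl_of_vertex_side hH h0 ha1 ?_
    convert h using 1
    funext i; fin_cases i <;> simp [ha0, ha2]
  · obtain ⟨y, hy, hy3⟩ := exists_cube_ne hq
    have hd := h.diag hH (x := y) (y := y) (z := (y ^ 2)⁻¹) (by field_simp)
    have he : Has H ![v 0, 0, 0] ![0, a 1, y ^ 3 * a 2] := by
      refine hd.congr (by simp) fun u => ?_
      simp only [fn_apply]
      funext i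
      fin_cases i
      · simp [ha0]
        field_simp
      · simp
      · simp
    have hp := (he.sub_axis h).perm hH (Equiv.swap 1 2)
    refine sl_of_vertex_side hH h0 (b := (y ^ 3 - 1) * a 2)
      (mul_ne_zero (sub_ne_zero.mpr hy3) ha2) ?_
    convert hp using 1 <;> funext i <;> simp only [Function.comp_apply, Pi.sub_apply] <;>
      fin_cases i <;> simp [Equiv.swap_apply_def, ha0]
    ring

/-- Side centre and a side as the axis. -/
lemma sl_of_side_axis {v a : Fin 3 → F} (h : Has H v a) (h0 : v 0 = 0) (h2 : v 2 ≠ 0)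
    (ha0 : a 0 ≠ 0) (ha1 : a 1 = 0) (ha2 : a 2 = 0) :
    Cfsg.Geo.specialLinear (Fin 3) F ≤ H := by
  obtain ⟨y, hy, hy3⟩ := exists_cube_ne hq
  have hd := h.diag hH (x := y) (y := y) (z := (y ^ 2)⁻¹) (by field_simp)
  have he : Has H ![0, v 1, (y ^ 3)⁻¹ * v 2] a := by
    refine hd.congr (by simp [ha1, ha2]) fun u => ?_
    simp only [fn_apply]
    funext i
    fin_cases i <;> simp [ha1, ha2, h0] <;> field_simp
  have hp := (h.sub_centre he).perm hH (Equiv.swap 0 2)
  refine sl_of_vertex hH hq hp ?_ ?_ ?_ ?_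
  · have : (1 : F) - (y ^ 3)⁻¹ ≠ 0 := sub_ne_zero.mpr fun e => hy3 (inv_eq_one.mp e.symm)
    simp only [Function.comp_apply, Pi.sub_apply]
    simpa [sub_mul, Equiv.swap_apply_def] using mul_ne_zero this h2
  · simp only [Function.comp_apply, Pi.sub_apply]
    simp [Equiv.swap_apply_def]
  · simp only [Function.comp_apply, Pi.sub_apply]
    simp [Equiv.swap_apply_def, h0]
  · exact fun e => ha0 (by simpa [Equiv.swap_apply_def] using congrFun e 2)

/-- Centre off the sides, axis through a vertex. -/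
lemma sl_of_full_centre {v a : Fin 3 → F} (h : Has H v a) (h0 : v 0 ≠ 0) (ha0 : a 0 = 0)
    (ha : a ≠ 0) : Cfsg.Geo.specialLinear (Fin 3) F ≤ H := by
  obtain ⟨y, hy, hy3⟩ := exists_cube_ne hq
  have hd := h.diag hH (x := (y ^ 2)⁻¹) (y := y) (z := y) (by field_simp)
  have he : Has H ![(y ^ 3)⁻¹ * v 0, v 1, v 2] a := by
    refine hd.congr ?_ fun u => ?_
    · have := h.dot
      rw [ha0] at this
      simpa [ha0] using this
    · simp only [fn_apply]
      funext i
      fin_cases i <;> simp [ha0] <;> field_simp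
  refine sl_of_vertex hH hq (h.sub_centre he) ?_ (by rw [Pi.sub_apply]; simp)
    (by rw [Pi.sub_apply]; simp) ha
  rw [Pi.sub_apply]
  have : (1 : F) - (y ^ 3)⁻¹ ≠ 0 := sub_ne_zero.mpr fun e => hy3 (inv_eq_one.mp e.symm)
  simpa [sub_mul] using mul_ne_zero this h0

/-- Centre on a side. -/
lemma sl_of_side {v a : Fin 3 → F} (h : Has H v a) (h0 : v 0 = 0) (h1 : v 1 ≠ 0) (h2 : v 2 ≠ 0)
    (hn : ¬ IsMon (tv v (fn a) h.1)) : Cfsg.Geo.specialLinear (Fin 3) F ≤ H := by
  by_cases ha0 : a 0 ≠ 0
  · obtain ⟨y, hy, hy3⟩ := exists_cube_ne hq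
    have hd := h.diag hH (x := (y ^ 2)⁻¹) (y := y) (z := y) (by field_simp)
    have he : Has H v ![y ^ 3 * a 0, a 1, a 2] := by
      refine hd.congr ?_ fun u => ?_
      · have := h.dot
        rw [h0] at this
        simpa [h0] using this
      · simp only [fn_apply]
        funext i
        fin_cases i <;> simp [h0] <;> field_simp
    exact sl_of_side_axis hH hq (he.sub_axis h) h0 h2
      (by simpa [← sub_one_mul] using mul_ne_zero (sub_ne_zero.mpr hy3) ha0) (by simp) (by simp)
  rw [not_not] at ha0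
  set k := a 1 * v 1 with hk
  have hk2 : a 2 * v 2 = -k := by
    have := h.dot
    rw [ha0] at this
    linear_combination this
  have hk0 : k ≠ 0 := by
    intro e
    have e1 : a 1 = 0 := (mul_eq_zero.mp (hk ▸ e : a 1 * v 1 = 0)).resolve_right h1
    have e2 : a 2 = 0 := (mul_eq_zero.mp (hk2.trans (by rw [e, neg_zero]))).resolve_right h2
    apply hn
    refine isMon_of_cols id fun j m hm => ?_
    simp only [id] at hm
    rw [ap_tv, fn_single]
    fin_cases j <;> simp at hm ⊢ <;> simp [hm, ha0, e1, e2]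
  -- the transvection moves a second centre onto a vertex
  obtain ⟨h0', hm⟩ := h
  have hne : a ∘ Equiv.swap (0 : Fin 3) 1 ≠ 0 := by
    intro e
    have := congrFun e 0
    simp only [Function.comp_apply, Equiv.swap_apply_left, Pi.zero_apply] at this
    exact hk0 (by rw [hk, this, zero_mul])
  have hmove : ∀ s : F, s ≠ 0 → ∃ b, b ≠ 0 ∧
      Has H ![0, v 1 + k * (1 - s) * v 1, s * v 2 + k * (1 - s) * v 2] b := by
    intro s hs
    have hd := Has.diag hH (show Has H v a from ⟨h0', hm⟩) (x := s⁻¹) (y := 1) (z := s) (by field_simp)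
    set b : Fin 3 → F := fun i => fn ![0, a 1, a 2 * s⁻¹]
      (ap (tv v (fn a) h0')⁻¹ (Pi.single i 1)) with hb
    have hbφ : ∀ x, fn b (ap (tv v (fn a) h0') x) = fn ![0, a 1, a 2 * s⁻¹] x := by
      intro x
      have e := eq_fn ((fn ![0, a 1, a 2 * s⁻¹]).comp
        (apEquiv (tv v (fn a) h0')⁻¹).toLinearMap)
      have := LinearMap.congr_fun e (ap (tv v (fn a) h0') x)
      simp only [LinearMap.comp_apply, LinearEquiv.coe_coe, apEquiv_apply, ap_inv_ap] at this
      exact this.symm
    refine ⟨b, fun e => ?_, ?_⟩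
    · have := hbφ (Pi.single 1 1)
      rw [e] at this
      simp at this
      exact hk0 (by rw [hk, ← this, zero_mul])
    · have hv' : Has H ![0, v 1, s * v 2] ![0, a 1, a 2 * s⁻¹] := by
        convert hd using 1 <;> funext i <;> fin_cases i <;> simp [h0, ha0, hs]
      convert hv'.conj hm hbφ using 1
      rw [ap_tv]
      funext i
      fin_cases i
      · simp [h0]
      · simp [ha0]
        left
        linear_combination -s * hk2
      · simp [ha0]
        left
        linear_combination -s * hk2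
  have perm0 : ∀ {x : F} {b : Fin 3 → F}, x ≠ 0 → b ≠ 0 → Has H ![0, x, 0] b →
      Cfsg.Geo.specialLinear (Fin 3) F ≤ H := by
    intro x b hx hb hh
    refine sl_of_vertex hH hq (hh.perm hH (Equiv.swap 0 1)) ?_ ?_ ?_ fun e => hb (funext fun i => ?_)
    · simpa [Equiv.swap_apply_def] using hx
    · simp [Equiv.swap_apply_def]
    · simp [Equiv.swap_apply_def]
    · simpa using congrFun e (Equiv.swap 0 1 i)
  have perm0' : ∀ {x : F} {b : Fin 3 → F}, x ≠ 0 → b ≠ 0 → Has H ![0, 0, x] b →
      Cfsg.Geo.specialLinear (Fin 3) F ≤ H := by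
    intro x b hx hb hh
    refine perm0 hx (fun e => hb (funext fun i => ?_)) (b := b ∘ Equiv.swap 1 2) ?_
    · simpa using congrFun e (Equiv.swap 1 2 i)
    · convert hh.perm hH (Equiv.swap 1 2) using 1
      funext i; fin_cases i <;> simp [Equiv.swap_apply_def]
  by_cases hk1 : k ≠ -1
  · have hk1' : 1 + k ≠ 0 := fun e => hk1 (by linear_combination e)
    obtain ⟨b, hb, hh⟩ := hmove ((1 + k) / k) (div_ne_zero hk1' hk0)
    refine perm0' (x := (1 + k) / k * v 2 + k * (1 - (1 + k) / k) * v 2) ?_ hb ?_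
    · have e1 : (1 + k) / k * v 2 + k * (1 - (1 + k) / k) * v 2 = v 2 / k := by field_simp; ring
      rw [e1]; exact div_ne_zero h2 hk0
    · convert hh using 1
      funext i; fin_cases i <;> simp
      field_simp; ring
  rw [not_not] at hk1
  by_cases hk3 : k ≠ 1
  · have hd : k - 1 ≠ 0 := sub_ne_zero.mpr hk3
    obtain ⟨b, hb, hh⟩ := hmove (k / (k - 1)) (div_ne_zero hk0 hd)
    refine perm0 (x := v 1 + k * (1 - k / (k - 1)) * v 1) ?_ hb ?_
    · have e1 : v 1 + k * (1 - k / (k - 1)) * v 1 = -v 1 / (k - 1) := by field_simp; ring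
      rw [e1]; exact div_ne_zero (neg_ne_zero.mpr h1) hd
    · convert hh using 1
      funext i; fin_cases i <;> simp
      field_simp; ring
  rw [not_not] at hk3
  exfalso
  apply hn
  refine isMon_of_cols ![0, 2, 1] fun j m hm => ?_
  rw [ap_tv, fn_single]
  fin_cases j <;> fin_cases m <;> simp at hm ⊢ <;>
    first
    | simp [ha0]
    | simp [h0]
    | linear_combination hk1
    | linear_combination hk2 - hk3

/-- Centre and axis off the sides, with unequal products. -/
lemma sl_of_full_full {v a : Fin 3 → F} (h : Has H v a) (h0 : v 0 ≠ 0) (h1 : v 1 ≠ 0)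
    (h2 : v 2 ≠ 0) (hne : a 1 * v 1 ≠ a 2 * v 2) : Cfsg.Geo.specialLinear (Fin 3) F ≤ H := by
  set r := -(v 1) / v 2 with hr
  have hr0 : r ≠ 0 := div_ne_zero (neg_ne_zero.mpr h1) h2
  set g : GL (Fin 3) F := mon (Equiv.swap 1 2) ![-1, Units.mk0 r hr0, (Units.mk0 r hr0)⁻¹] with hg
  have hgH : g ∈ H := hH _ _ (by
    rw [det_mon, Equiv.Perm.sign_swap (by decide), Fin.prod_univ_three]; simp [hr0])
  have hap : ∀ u : Fin 3 → F, ap g u = ![-u 0, r * u 2, r⁻¹ * u 1] := by
    intro u; funext i
    rw [hg, ap_mon]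
    fin_cases i <;> simp [Equiv.swap_apply_def]
  have h3 : Has H (ap g v) ![-a 0, a 2 * r⁻¹, a 1 * r] := h.conj hgH fun u => by
    simp only [hap, fn_apply, Matrix.cons_val]
    field_simp
    ring
  have hgv : ap g v = (-1 : F) • v := by
    rw [hap, hr]
    funext i
    fin_cases i <;> simp <;> field_simp
  rw [hgv] at h3
  have h4 := h.sub_axis (h3.of_smul (neg_ne_zero.mpr one_ne_zero))
  refine sl_of_full_centre hH hq h4 h0 (by simp) fun e => hne ?_
  have := congrFun e 1
  simp [hr] at this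
  field_simp at this
  linear_combination this

/-- A non-monomial transvection gives the special linear group. -/
theorem sl_of_tv {v : Fin 3 → F} {φ : (Fin 3 → F) →ₗ[F] F} {hv : φ v = 0} (hm : tv v φ hv ∈ H)
    (hn : ¬ IsMon (tv v φ hv)) : Cfsg.Geo.specialLinear (Fin 3) F ≤ H := by
  set a : Fin 3 → F := fun i => φ (Pi.single i 1) with ha'
  have hφ : φ = fn a := eq_fn φ
  have hva : fn a v = 0 := by rw [← hφ, hv]
  have htv : tv v φ hv = tv v (fn a) hva := tv_eq_tv _ _ fun x => by rw [hφ]
  rw [htv] at hm hn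
  have h : Has H v a := ⟨hva, hm⟩
  have ha : a ≠ 0 := by
    intro e
    apply hn
    refine ⟨1, 1, ?_⟩
    rw [mon_one]
    exact gl_ext fun x => by simp [e]
  have hperm : ∀ π : Equiv.Perm (Fin 3), a ∘ π ≠ 0 := fun π e => ha (funext fun i => by
    simpa using congrFun e (π.symm i))
  have hv0 : v ≠ 0 := by
    intro e
    apply hn
    refine ⟨1, 1, ?_⟩
    rw [mon_one]
    exact gl_ext fun x => by simp [e]
  -- the perm-conjugate is not monomial either
  have hmonperm : ∀ π : Equiv.Perm (Fin 3),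
      ¬ IsMon (tv (v ∘ π) (fn (a ∘ π)) (by rw [fn_perm, hva])) := by
    intro π hmn
    obtain ⟨g, -, s, hs, hap⟩ := exists_perm (H := Cfsg.Geo.specialLinear (Fin 3) F)
      (fun _ _ hd => (mem_specialLinear_iff _).mpr hd) π
    apply hn
    have hgm : IsMon g := by
      refine isMon_of_cols π.symm fun j m hm => ?_
      rw [hap]
      have : π m ≠ j := fun e => hm (by rw [← e, Equiv.symm_apply_apply])
      simp [this]
    have he : tv v (fn a) hva = g⁻¹ * tv (v ∘ π) (fn (a ∘ π)) (by rw [fn_perm, hva]) * g := by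
      apply gl_ext
      intro x
      apply ap_injective g
      rw [ap_mul, ap_mul, ap_ap_inv, ap_tv, ap_tv, ap_add, ap_smul, hap, hap, map_smul, fn_perm,
        smul_smul, smul_eq_mul, mul_comm (fn a x) s]
    rw [he]
    exact (hgm.inv.mul hmn).mul hgm
  have hvert : ∀ i j l : Fin 3, i ≠ j → i ≠ l → j ≠ l → v j = 0 → v l = 0 →
      Cfsg.Geo.specialLinear (Fin 3) F ≤ H := by
    intro i j l hij hil hjl hj hl
    have hi : v i ≠ 0 := fun e => hv0 (funext fun m => by
      rcases (show m = i ∨ m = j ∨ m = l by omega) with rfl | rfl | rfl <;> assumption)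
    refine sl_of_vertex hH hq (h.perm hH (Equiv.swap 0 i)) (by simpa using hi) ?_ ?_ (hperm _)
    · rcases (show Equiv.swap (0 : Fin 3) i 1 = j ∨ Equiv.swap (0 : Fin 3) i 1 = l by
        have : Equiv.swap (0 : Fin 3) i 1 ≠ i := fun e => by
          rw [Equiv.swap_apply_eq_iff, Equiv.swap_apply_right] at e; exact absurd e (by decide)
        omega) with e | e <;> simp [e, hj, hl]
    · rcases (show Equiv.swap (0 : Fin 3) i 2 = j ∨ Equiv.swap (0 : Fin 3) i 2 = l by
        have : Equiv.swap (0 : Fin 3) i 2 ≠ i := fun e => by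
          rw [Equiv.swap_apply_eq_iff, Equiv.swap_apply_right] at e; exact absurd e (by decide)
        omega) with e | e <;> simp [e, hj, hl]
  by_cases hz : ∃ i, v i = 0
  · obtain ⟨i, hi⟩ := hz
    by_cases hz2 : ∃ j, j ≠ i ∧ v j = 0
    · obtain ⟨j, hji, hj⟩ := hz2
      have hthird : ∀ i j : Fin 3, ∃ l : Fin 3, l ≠ i ∧ l ≠ j := by decide
      obtain ⟨l, hli, hlj⟩ := hthird i j
      exact hvert l i j hli hlj hji.symm hi hj
    push Not at hz2
    refine sl_of_side hH hq (h.perm hH (Equiv.swap 0 i)) (by simpa using hi) ?_ ?_ (hmonperm _)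
    · exact hz2 _ fun e => by
        rw [Equiv.swap_apply_eq_iff, Equiv.swap_apply_right] at e; exact absurd e (by decide)
    · exact hz2 _ fun e => by
        rw [Equiv.swap_apply_eq_iff, Equiv.swap_apply_right] at e; exact absurd e (by decide)
  push Not at hz
  by_cases hza : ∃ i, a i = 0
  · obtain ⟨i, hi⟩ := hza
    exact sl_of_full_centre hH hq (h.perm hH (Equiv.swap 0 i)) (by simpa using hz i)
      (by simpa using hi) (hperm _)
  push Not at hza
  have hd := h.dot
  by_cases e12 : a 1 * v 1 ≠ a 2 * v 2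
  · exact sl_of_full_full hH hq h (hz 0) (hz 1) (hz 2) e12
  rw [not_not] at e12
  by_cases e01 : a 0 * v 0 ≠ a 1 * v 1
  · refine sl_of_full_full hH hq (h.perm hH (Equiv.swap 0 2)) (by simpa using hz 2)
      (hz _) (hz _) fun e => e01 ?_
    simp [Equiv.swap_apply_def] at e
    exact e.symm
  rw [not_not] at e01
  -- characteristic three
  set k := a 0 * v 0 with hk
  have hk0 : k ≠ 0 := mul_ne_zero (hza 0) (hz 0)
  have h3 : (3 : F) = 0 := by
    have : 3 * k = 0 := by rw [← e12, ← e01] at hd; linear_combination hd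
    exact (mul_eq_zero.mp this).resolve_right hk0
  have hfr : Fact (Nat.Prime 3) := ⟨by norm_num⟩
  have hchar : CharP F 3 := by
    obtain ⟨p, hp⟩ := CharP.exists F
    have h33 : ((3 : ℕ) : F) = 0 := by simpa using h3
    have hdvd := (CharP.cast_eq_zero_iff F p 3).mp h33
    rcases (Nat.dvd_prime (by norm_num)).mp hdvd with rfl | rfl
    · exact absurd hp fun h => CharP.false_of_nontrivial_of_char_one (R := F)
    · exact hp
  classical
  obtain ⟨s, -, hs⟩ := Finset.exists_mem_notMem_of_card_lt_card (s := ({0, 1, -1} : Finset F))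
    (t := Finset.univ) (lt_of_le_of_lt Finset.card_le_three (by rw [Finset.card_univ]; omega))
  simp only [Finset.mem_insert, Finset.mem_singleton, not_or] at hs
  obtain ⟨hs0, hs1, hs2⟩ := hs
  set r := -1 - s with hr
  have hr0 : r ≠ 0 := fun e => hs2 (by linear_combination -e)
  obtain ⟨z, hz3⟩ := (bijective_frobenius F 3).2 (s * r)
  rw [frobenius_def] at hz3
  have hz0 : z ≠ 0 := fun e => by
    rw [e, zero_pow three_ne_zero] at hz3
    exact mul_ne_zero hs0 hr0 hz3.symm
  have hdia := h.diag hH (x := z⁻¹) (y := s / z) (z := r / z)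
    (by field_simp; linear_combination -hz3)
  have h' : Has H ![v 0, s * v 1, r * v 2] ![a 0, a 1 / s, a 2 / r] := by
    have hcoef : (![a 0, a 1 / s, a 2 / r] : Fin 3 → F) =
        ![a 0 * (s * r / z ^ 3), a 1 * (r / z ^ 3), a 2 * (s / z ^ 3)] := by
      rw [hz3]
      funext i
      fin_cases i <;> simp <;> field_simp
    rw [hcoef]
    refine hdia.congr ?_ fun u => ?_
    · simp only [fn_apply, Matrix.cons_val]
      field_simp
      linear_combination (s * r) * hd
    · simp only [fn_apply, Matrix.cons_val]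
      funext i
      fin_cases i <;> simp <;> field_simp
  obtain ⟨hw0, hw⟩ := h'
  obtain ⟨hv0', hv'⟩ := h
  have hort : fn a ![v 0, s * v 1, r * v 2] = 0 := by
    simp only [fn_apply, Matrix.cons_val]
    linear_combination s * e01.symm - r * e12 + r * e01.symm + k * hr
  have hc := tv_comm_mem hv' hw hort
  set m := -fn ![a 0, a 1 / s, a 2 / r] v with hm'
  have hm0 : m ≠ 0 := by
    intro e
    have e1 : k * (s * r + r + s) = 0 := by
      simp only [hm', fn_apply, Matrix.cons_val, neg_eq_zero] at e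
      field_simp at e
      linear_combination e + r * e01 + s * (e01.trans e12)
    have e2 : (s - 1) * (s - 1) = 0 := by
      have := (mul_eq_zero.mp e1).resolve_left hk0
      linear_combination -this - s * h3 + (s + 1) * hr
    exact hs1 (sub_eq_zero.mp (mul_self_eq_zero.mp e2))
  have hfin : Has H ![v 0, s * v 1, r * v 2] (m • a) := by
    refine Has.congr ⟨_, show tv _ (fn (m • a)) ?_ ∈ H from ?_⟩ ?_ fun _ => rfl
    · simp only [fn_apply, Pi.smul_apply, smul_eq_mul] at hort ⊢
      linear_combination m * hort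
    · convert hc using 1
      refine tv_eq_tv _ _ fun u => ?_
      congr 1
      simp only [fn_apply, LinearMap.smul_apply, Pi.smul_apply, smul_eq_mul, hm']
      ring
    · simp only [fn_apply, Pi.smul_apply, smul_eq_mul] at hort ⊢
      linear_combination m * hort
  refine sl_of_full_full hH hq hfin (by simpa using hz 0)
    (by simpa using mul_ne_zero hs0 (hz 1)) (by simpa using mul_ne_zero hr0 (hz 2)) fun e => ?_
  simp only [Pi.smul_apply, smul_eq_mul, Matrix.cons_val] at e
  have e3 : (m * k) * (s - r) = 0 := by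
    linear_combination e - (m * s) * (-e01) + (m * r) * (-e12 - e01)
  have e4 := sub_eq_zero.mp ((mul_eq_zero.mp e3).resolve_left (mul_ne_zero hm0 hk0))
  exact hs1 (by linear_combination -(e4.trans hr) + s * h3)

end CfsgLib.Geometric.SLThree
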