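import Cfsg.Agent.Lib.Geometric.LinearMonomial
import Cfsg.Agent.Lib.Geometric.LinearDecomp
import Cfsg.Agent.Lib.Geometric.SLThree.MonomialTv

/-!
The stabiliser of a decomposition into three lines is maximal in the three-dimensional special
linear group over fields with at least five elements.
-/

namespace CfsgLib.Geometric.SLThree

open Matrix

variable {F : Type*} [Field F]

/-- A monomial transvection has a coordinate of its centre zero, and lives in characteristic two. -/
lemma isMon_tv {v : Fin 3 → F} {φ : (Fin 3 → F) →ₗ[F] F} {hv : φ v = 0}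
    (hm : IsMon (tv v φ hv)) (hv0 : v ≠ 0) (hφ : φ ≠ 0) : (∃ i, v i = 0) ∧ (2 : F) = 0 := by
  set a : Fin 3 → F := fun i => φ (Pi.single i 1) with ha'
  have hsum : a 0 * v 0 + a 1 * v 1 + a 2 * v 2 = 0 := by
    rw [← hv]
    conv_rhs => rw [eq_fn φ]
    simp [a]
  obtain ⟨j, hj⟩ : ∃ j, a j ≠ 0 := by
    by_contra hc
    push Not at hc
    exact hφ ((eq_fn φ).trans (LinearMap.ext fun x => by
      simp [show ∀ i, φ (Pi.single i 1) = 0 from hc]))
  have hcol : ∀ k p q : Fin 3, p ≠ q → ((Pi.single k 1 : Fin 3 → F) p + a k * v p) *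
      ((Pi.single k 1 : Fin 3 → F) q + a k * v q) = 0 := by
    intro k p q hpq
    obtain ⟨π, c, hπ⟩ := hm
    have h1 : ∀ r, (Pi.single k 1 : Fin 3 → F) r + a k * v r =
        (Pi.single (π k) ((c (π k) : F) * 1) : Fin 3 → F) r := by
      intro r
      rw [← ap_mon_single, ← hπ, ap_tv]
      simp [a]
    rw [h1, h1]
    by_cases hp : p = π k
    · subst hp; simp [Pi.single_eq_of_ne hpq.symm]
    · simp [Pi.single_eq_of_ne hp]
  constructor
  · by_contra hc
    push Not at hc
    obtain ⟨p, q, hpj, hqj, hpq⟩ : ∃ p q : Fin 3, p ≠ j ∧ q ≠ j ∧ p ≠ q := by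
      have : ∀ j : Fin 3, ∃ p q : Fin 3, p ≠ j ∧ q ≠ j ∧ p ≠ q := by decide
      exact this j
    have := hcol j p q hpq
    rw [Pi.single_eq_of_ne hpj, Pi.single_eq_of_ne hqj, zero_add, zero_add] at this
    exact mul_ne_zero (mul_ne_zero hj (hc p)) (mul_ne_zero hj (hc q)) this
  · by_cases hone : ∀ l, l ≠ j → v l = 0
    · have hvj : v j ≠ 0 := fun e => hv0 (funext fun l => by
        by_cases hl : l = j
        · rw [hl, e]; rfl
        · exact hone l hl)
      exfalso
      apply mul_ne_zero hj hvj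
      fin_cases j <;> simp at hone ⊢ <;> simpa [hone 0, hone 1, hone 2] using hsum
    push Not at hone
    obtain ⟨l, hlj, hl⟩ := hone
    obtain ⟨m, hmj, hml⟩ : ∃ m : Fin 3, m ≠ j ∧ m ≠ l := by
      have : ∀ j l : Fin 3, ∃ m : Fin 3, m ≠ j ∧ m ≠ l := by decide
      exact this j l
    have h1 := hcol j j l hlj.symm
    rw [Pi.single_eq_same, Pi.single_eq_of_ne hlj, zero_add] at h1
    have e1 : 1 + a j * v j = 0 := (mul_eq_zero.mp h1).resolve_right (mul_ne_zero hj hl)
    have h2 := hcol j l m hml.symm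
    rw [Pi.single_eq_of_ne hlj, Pi.single_eq_of_ne hmj, zero_add, zero_add] at h2
    have e2 : v m = 0 := ((mul_eq_zero.mp h2).resolve_left (mul_ne_zero hj hl)
      |> mul_eq_zero.mp).resolve_left hj
    have hsum' : a j * v j + a l * v l + a m * v m = 0 := by
      rw [← hsum]
      fin_cases j <;> fin_cases l <;> fin_cases m <;> simp at hlj hmj hml ⊢ <;> ring
    have e3 : a l * v l = 1 := by rw [e2] at hsum'; linear_combination hsum' - e1
    have h3 := hcol l l j hlj
    rw [Pi.single_eq_same, Pi.single_eq_of_ne hlj.symm, zero_add, e3] at h3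
    have hal : a l ≠ 0 := fun e => by rw [e, zero_mul] at e3; exact zero_ne_one e3
    have hvj : v j ≠ 0 := fun e => by rw [e, mul_zero, add_zero] at e1; exact one_ne_zero e1
    have := (mul_eq_zero.mp h3).resolve_right (mul_ne_zero hal hvj)
    linear_combination this

variable {H : Subgroup (GL (Fin 3) F)}
  (hH : ∀ π c, (mon π c : Matrix (Fin 3) (Fin 3) F).det = 1 → mon π c ∈ H)
include hH

/-- The diagonal involution at the first coordinate. -/
lemma homo_diag_mem : homo (![1, 0, 0] : Fin 3 → F) (fn ![1, 0, 0]) (by simp) ∈ H := by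
  have he : homo (![1, 0, 0] : Fin 3 → F) (fn ![1, 0, 0]) (by simp) =
      mon (1 : Equiv.Perm (Fin 3)) ![1, -1, -1] := by
    apply gl_ext
    intro x
    funext i
    rw [ap_homo, ap_mon]
    fin_cases i <;> simp [show Equiv.symm (1 : Equiv.Perm (Fin 3)) = 1 from rfl]
    ring
  rw [he]
  exact hH _ _ (by rw [det_mon, Fin.prod_univ_three]; simp)

/-- The involutions at the sides. -/
lemma homo_swap_mem (h2 : (2 : F) ≠ 0) {r : F} (hr : r ≠ 0) :
    ∃ h, homo (![0, 1, r] : Fin 3 → F) (fn ![0, 2⁻¹, (2 * r)⁻¹]) h ∈ H := by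
  have h : fn ![0, (2 : F)⁻¹, (2 * r)⁻¹] ![0, 1, r] = 1 := by
    simp
    field_simp
    ring
  refine ⟨h, ?_⟩
  have he : homo (![0, 1, r] : Fin 3 → F) (fn ![0, 2⁻¹, (2 * r)⁻¹]) h =
      mon (Equiv.swap 1 2) ![-1, (Units.mk0 r hr)⁻¹, Units.mk0 r hr] := by
    apply gl_ext
    intro x
    funext i
    rw [ap_homo, ap_mon]
    fin_cases i <;> simp [Equiv.swap_apply_def] <;> field_simp <;> ring
  rw [he]
  exact hH _ _ (by
    rw [det_mon, Equiv.Perm.sign_swap (by decide), Fin.prod_univ_three]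
    simp [hr])

/-- A coordinate permutation moves involutions to involutions. -/
lemma homo_perm_mem {c a : Fin 3 → F} {h : fn a c = 1} (hm : homo c (fn a) h ∈ H)
    (π : Equiv.Perm (Fin 3)) :
    homo (c ∘ π) (fn (a ∘ π)) (by rw [fn_perm, h]) ∈ H := by
  obtain ⟨g, hg, s, hs, hap⟩ := exists_perm hH π
  have h1 := mul_mem (mul_mem hg hm) (inv_mem hg)
  rw [conj_homo] at h1
  convert h1 using 1
  refine homo_eq_homo _ _ fun x => ?_
  obtain ⟨y, rfl⟩ : ∃ y, ap g y = x := ⟨ap g⁻¹ x, ap_ap_inv g x⟩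
  simp only [LinearMap.comp_apply, LinearEquiv.coe_coe, apEquiv_apply, ap_inv_ap]
  simp only [hap, map_smul, fn_perm, smul_smul, smul_eq_mul]
  rw [mul_comm]

variable [Fintype F] (hq : 5 ≤ Fintype.card F)
include hq

/-- Without transvections every involution has its centre on a side. -/
lemma exists_zero_centre (hno : NoTv H) (h2 : (2 : F) ≠ 0) {c : Fin 3 → F}
    {φ : (Fin 3 → F) →ₗ[F] F} {h : φ c = 1} (hm : homo c φ h ∈ H) : ∃ i, c i = 0 := by
  by_contra hc
  push Not at hc
  set a : Fin 3 → F := fun i => φ (Pi.single i 1) with ha'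
  have hφ : φ = fn a := eq_fn φ
  have ha1 : fn a c = 1 := by rw [← hφ, h]
  have hm' : homo c (fn a) ha1 ∈ H := by
    convert hm using 1
    exact homo_eq_homo _ _ fun x => by rw [hφ]
  -- the products at two coordinates agree
  have key : ∀ (d b : Fin 3 → F) (hb : fn b d = 1), homo d (fn b) hb ∈ H → (∀ i, d i ≠ 0) →
      d 1 * b 1 = d 2 * b 2 := by
    intro d b hb hdm hd
    have hb0 : ∀ i, b i ≠ 0 := by
      intro i e
      have h1 := homo_perm_mem hH hdm (Equiv.swap 0 i)
      have h3 := hno.incidence h2 h1 (homo_diag_mem hH) (by simp [e])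
      simp at h3
      exact hd i h3
    obtain ⟨hh, hr⟩ := homo_swap_mem hH h2 (r := -b 1 / b 2)
      (div_ne_zero (neg_ne_zero.mpr (hb0 1)) (hb0 2))
    have h3 := hno.incidence h2 hdm hr (by
      have := hb0 2
      simp
      field_simp
      ring)
    have hb1 := hb0 1
    have hb2 := hb0 2
    simp at h3
    field_simp at h3
    linear_combination h3
  have k12 := key c a ha1 hm' hc
  have k01 : c 0 * a 0 = c 1 * a 1 := by
    have := key _ _ _ (homo_perm_mem hH hm' (Equiv.swap 0 2)) fun i => hc _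
    simp [Equiv.swap_apply_def] at this
    exact this.symm
  have hsum : a 0 * c 0 + a 1 * c 1 + a 2 * c 2 = 1 := by simpa using ha1
  have hk : 3 * (a 0 * c 0) = 1 := by linear_combination hsum + k01 * 2 + k12
  have hk0 : a 0 * c 0 ≠ 0 := fun e => by rw [e, mul_zero] at hk; exact zero_ne_one hk
  have hc' := mul_mem (mul_mem hm' (homo_diag_mem hH)) (inv_mem hm')
  rw [conj_homo] at hc'
  set d : Fin 3 → F := ap (homo c (fn a) ha1) ![1, 0, 0]
  set b : Fin 3 → F := fun i => (fn (![1, 0, 0] : Fin 3 → F)).comp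
    (apEquiv (homo c (fn a) ha1)⁻¹).toLinearMap (Pi.single i 1) with hb'
  have hbd : fn b d = 1 := by
    rw [hb', ← eq_fn]
    simp only [LinearMap.comp_apply, LinearEquiv.coe_coe, apEquiv_apply, d, ap_inv_ap]
    simp
  have hdm : homo d (fn b) hbd ∈ H := by
    convert hc' using 1
    exact homo_eq_homo _ _ fun x => by rw [hb', ← eq_fn]
  have hd : ∀ i, d i = ![2 * (a 0 * c 0) - 1, 2 * a 0 * c 1, 2 * a 0 * c 2] i := by
    intro i
    simp only [d, ap_homo, Pi.sub_apply, Pi.smul_apply]
    fin_cases i <;> simp <;> ring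
  have hb : ∀ i, b i = ![2 * (a 0 * c 0) - 1, 2 * c 0 * a 1, 2 * c 0 * a 2] i := by
    intro i
    fin_cases i <;> simp [b, homo_inv] <;> ring
  have ha00 : a 0 ≠ 0 := left_ne_zero_of_mul hk0
  have hd0 : ∀ i, d i ≠ 0 := by
    intro i
    rw [hd]
    fin_cases i <;> simp
    · intro e; exact hk0 (by linear_combination hk - e)
    · exact ⟨⟨h2, ha00⟩, hc 1⟩
    · exact ⟨⟨h2, ha00⟩, hc 2⟩
  have k := key _ _ _ (homo_perm_mem hH hdm (Equiv.swap 0 2)) fun i => hd0 _
  simp [Equiv.swap_apply_def, hd, hb] at k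
  exact hk0 (by linear_combination k + (4 * (a 0 * c 0)) * k01 - hk)

omit hq in
/-- The involution or transvection at a point of a side is moved to a point with a zero. -/
lemma exists_zero_of_no_tv (hq : 5 ≤ Fintype.card F)
    (hno : ∀ (v : Fin 3 → F) φ (h : φ v = 0), tv v φ h ∈ H → IsMon (tv v φ h))
    {g : GL (Fin 3) F} (hg : g ∈ H) {r : F} (hr : r ≠ 0) :
    ∃ i, ap g ![0, 1, r] i = 0 := by
  have hw : (![0, 1, r] : Fin 3 → F) ≠ 0 := fun e => by simpa using congrFun e 1
  by_cases h2 : (2 : F) = 0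
  · have hv : fn ![0, 1, r⁻¹] ![0, 1, r] = 0 := by
      simp [hr]
      linear_combination h2
    have hm : tv (![0, 1, r] : Fin 3 → F) (fn ![0, 1, r⁻¹]) hv ∈ H := by
      have he : tv (![0, 1, r] : Fin 3 → F) (fn ![0, 1, r⁻¹]) hv =
          mon (Equiv.swap 1 2) ![1, (Units.mk0 r hr)⁻¹, Units.mk0 r hr] := by
        apply gl_ext
        intro x
        funext i
        rw [ap_tv, ap_mon]
        fin_cases i <;> simp [Equiv.swap_apply_def] <;> field_simp
        · linear_combination (r * x 1) * h2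
        · linear_combination (x 2) * h2
      rw [he]
      exact hH _ _ (by
        rw [det_mon, Equiv.Perm.sign_swap (by decide), Fin.prod_univ_three]
        simp [hr]
        linear_combination -h2)
    have h1 := mul_mem (mul_mem hg hm) (inv_mem hg)
    rw [conj_tv] at h1
    refine (isMon_tv (hno _ _ _ h1) (ap_ne_zero g hw) fun e => ?_).1
    have := LinearMap.congr_fun e (ap g (Pi.single 1 1))
    simp [ap_inv_ap] at this
  · have hno' : NoTv H := by
      intro v φ h hm
      by_contra hc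
      push Not at hc
      exact h2 (isMon_tv (hno v φ h hm) hc.1 hc.2).2
    obtain ⟨h, hm⟩ := homo_swap_mem hH h2 hr
    have h1 := mul_mem (mul_mem hg hm) (inv_mem hg)
    rw [conj_homo] at h1
    exact exists_zero_centre hH hq hno' h2 h1

/-- A subgroup containing the monomial group and more is the special linear group. -/
theorem specialLinear_le_of_monomial_three {g : GL (Fin 3) F} (hg : g ∈ H) (hgn : ¬ IsMon g) :
    Cfsg.Geo.specialLinear (Fin 3) F ≤ H := by
  classical
  by_cases htv : ∀ (v : Fin 3 → F) φ (h : φ v = 0), tv v φ h ∈ H → IsMon (tv v φ h)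
  swap
  · push Not at htv
    obtain ⟨v, φ, h, hm, hn⟩ := htv
    exact sl_of_tv hH hq hm hn
  refine absurd ?_ hgn
  -- two columns have a common zero
  have hpair : ∀ j l : Fin 3, j ≠ l →
      ∃ i, ap g (Pi.single j 1) i = 0 ∧ ap g (Pi.single l 1) i = 0 := by
    intro j l hjl
    obtain ⟨π, hπj, hπl⟩ : ∃ π : Equiv.Perm (Fin 3), π j = 1 ∧ π l = 2 := by
      have : ∀ j l : Fin 3, j ≠ l → ∃ π : Equiv.Perm (Fin 3), π j = 1 ∧ π l = 2 := by decide
      exact this j l hjl
    obtain ⟨p, hp, s, hs, hap⟩ := exists_perm hH π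
    have hu : ∀ r : F, r ≠ 0 →
        ∃ i, ap g (Pi.single j 1) i + r * ap g (Pi.single l 1) i = 0 := by
      intro r hr
      obtain ⟨i, hi⟩ := exists_zero_of_no_tv hH hq htv (mul_mem hg hp) hr
      refine ⟨i, ?_⟩
      have he : (![0, 1, r] : Fin 3 → F) ∘ π = Pi.single j 1 + r • Pi.single l 1 := by
        funext m
        have hm0 : ∀ m, m ≠ j → m ≠ l → π m = 0 := by
          intro m h1 h3
          have e1 : π m ≠ 1 := fun e => h1 (π.injective (e.trans hπj.symm))
          have e2 : π m ≠ 2 := fun e => h3 (π.injective (e.trans hπl.symm))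
          omega
        by_cases h1 : m = j
        · subst h1; simp [hπj, hjl]
        by_cases h3 : m = l
        · subst h3; simp [hπl, h1]
        simp [hm0 m h1 h3, h1, h3]
      rw [ap_mul, hap, he, ap_smul, ap_add, ap_smul] at hi
      have hs0 : s ≠ 0 := fun e => by simp [e] at hs
      simpa [hs0] using hi
    by_contra hc
    push Not at hc
    choose i hi using fun r : {r : F // r ≠ 0} => hu r r.2
    have hinj : Function.Injective i := by
      intro r r' e
      have h1 := hi r
      have h3 := hi r'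
      rw [← e] at h3
      have hw : ap g (Pi.single l 1) (i r) ≠ 0 := by
        intro e0
        exact hc (i r) (by rw [e0, mul_zero, add_zero] at h1; exact h1) e0
      exact Subtype.ext (mul_right_cancel₀ hw (by linear_combination h1 - h3))
    have := Fintype.card_le_of_injective i hinj
    rw [Fintype.card_subtype_compl, Fintype.card_subtype_eq, Fintype.card_fin] at this
    omega
  have hrow : ∀ i : Fin 3, ¬ ∀ j, ap g (Pi.single j 1) i = 0 := by
    intro i h
    have hx : ∀ x, ap g x i = 0 := by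
      intro x
      rw [show x = x 0 • Pi.single 0 1 + x 1 • Pi.single 1 1 + x 2 • Pi.single 2 1 by
        funext m; fin_cases m <;> simp]
      simp [ap_add, ap_smul, h]
    have := hx (ap g⁻¹ (Pi.single i 1))
    simp [ap_ap_inv] at this
  have hcol : ∀ j : Fin 3, ∃ f, ∀ k, k ≠ f → ap g (Pi.single j 1) k = 0 := by
    intro j
    have h3 : ∀ j : Fin 3, ∃ l m : Fin 3, j ≠ l ∧ j ≠ m ∧ l ≠ m ∧
        ∀ k, k = j ∨ k = l ∨ k = m := by decide
    obtain ⟨l, m, hjl, hjm, -, hcov⟩ := h3 j
    obtain ⟨i, hi, hil⟩ := hpair j l hjl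
    obtain ⟨i', hi', him⟩ := hpair j m hjm
    have hne : i ≠ i' := by
      rintro rfl
      refine hrow i fun k => ?_
      rcases hcov k with rfl | rfl | rfl <;> assumption
    have h4 : ∀ i i' : Fin 3, i ≠ i' → ∃ f, ∀ k, k ≠ f → k = i ∨ k = i' := by decide
    obtain ⟨f, hf⟩ := h4 i i' hne
    exact ⟨f, fun k hk => by rcases hf k hk with rfl | rfl <;> assumption⟩
  choose f hf using hcol
  exact isMon_of_cols f hf

omit hH

/-- The stabiliser of a decomposition into three lines is maximal. -/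
theorem monomial_isMaximalIn (D : Fin 3 → Submodule F (Fin 3 → F))
    (hD : Cfsg.Geo.IsMDecomposition 1 D) :
    Cfsg.Geo.IsMaximalIn (Cfsg.Geo.specialLinear (Fin 3) F)
      (Cfsg.Geo.decompositionStabilizer D ⊓ Cfsg.Geo.specialLinear (Fin 3) F) := by
  classical
  choose U hU hU0 using Decomp.exists_ne_zero_mem hD
  choose κ hκ hκU using Decomp.exists_coord hD rfl hU hU0
  let Θ : (Fin 3 → F) →ₗ[F] (Fin 3 → F) := Fintype.linearCombination F U
  have hΘ : ∀ c, Θ c = ∑ l, c l • U l := Fintype.linearCombination_apply (R := F) (v := U)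
  have hcomp : ∀ c l, Decomp.comp hD l (Θ c) = c l • U l := fun c l => by
    rw [hΘ]
    exact Decomp.comp_sum_of_mem hD (fun l => c l • U l) (fun r => (D r).smul_mem _ (hU r)) l
  have hbij : Function.Bijective Θ := by
    refine ⟨fun c c' h => funext fun l => ?_, fun x => ⟨fun l => κ l x, ?_⟩⟩
    · have := (hcomp c l).symm.trans ((congrArg (Decomp.comp hD l) h).trans (hcomp c' l))
      exact smul_left_injective F (hU0 l) this
    · refine Decomp.ext_comp hD fun l => ?_
      rw [hcomp, hκ]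
  set P := ofEquiv (LinearEquiv.ofBijective Θ hbij) with hP
  have hPe : ∀ j a, ap P (Pi.single j a) = a • U j := by
    intro j a
    rw [hP, ap_ofEquiv]
    change Θ _ = _
    rw [hΘ, Finset.sum_eq_single j]
    · simp
    · intro l _ hl; simp [hl]
    · simp
  have hmem : ∀ l x, x ∈ D l → ∃ a, x = ap P (Pi.single l a) := by
    intro l x hx
    refine ⟨κ l x, ?_⟩
    rw [hPe, ← hκ, Decomp.comp_of_mem hD hx, if_pos rfl]
  refine ⟨Decomp.stab_lt hD, fun M hHM hMS => ?_⟩
  by_cases hM : M ≤ Cfsg.Geo.decompositionStabilizer D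
  · exact Or.inl (le_antisymm (le_inf hM hMS) hHM)
  refine Or.inr (le_antisymm hMS fun s hs => ?_)
  obtain ⟨g, hgM, hg⟩ := SetLike.not_le_iff_exists.mp hM
  have hdet : ∀ x : GL (Fin 3) F, (P * x * P⁻¹ : GL (Fin 3) F).val.det =
      (x : Matrix (Fin 3) (Fin 3) F).det := fun x => by
    rw [Units.val_mul, Units.val_mul, Matrix.det_units_conj]
  let M' : Subgroup (GL (Fin 3) F) := M.comap (MulAut.conj P).toMonoidHom
  have hM' : ∀ x, x ∈ M' ↔ P * x * P⁻¹ ∈ M := fun x => Iff.rfl
  have hmon : ∀ π c, (mon π c : Matrix (Fin 3) (Fin 3) F).det = 1 → mon π c ∈ M' := by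
    intro π c h1
    refine (hM' _).mpr (hHM ⟨Decomp.mem_decompStab_of_mapsTo hD (fun l => π l)
      fun l x hx => ?_, (mem_specialLinear_iff _).mpr ((hdet _).trans h1)⟩)
    obtain ⟨a, rfl⟩ := hmem l x hx
    rw [ap_mul, ap_mul, ap_inv_ap, ap_mon_single, hPe]
    exact Submodule.smul_mem _ _ (hU _)
  have hng : ¬ IsMon (P⁻¹ * g * P) := by
    rintro ⟨π, c, hπ⟩
    refine hg (Decomp.mem_decompStab_of_mapsTo hD (fun l => π l) fun l x hx => ?_)
    obtain ⟨a, rfl⟩ := hmem l x hx
    have : g * P = P * mon π c := by rw [← hπ]; group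
    rw [← ap_mul, this, ap_mul, ap_mon_single, hPe]
    exact Submodule.smul_mem _ _ (hU _)
  have h := specialLinear_le_of_monomial_three hmon hq
    ((hM' _).mpr (by simpa [mul_assoc] using hgM)) hng
  have hs' : P⁻¹ * s * P ∈ Cfsg.Geo.specialLinear (Fin 3) F := by
    rw [mem_specialLinear_iff, ← hdet]
    simpa [mul_assoc] using (mem_specialLinear_iff _).mp hs
  simpa [hM', mul_assoc] using h hs'

end CfsgLib.Geometric.SLThree
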