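import Cfsg.Agent.Lib.Geometric.SLThree.LinePair

/-!
The inverting involution commutes with no other of its conjugates.
-/

set_option autoImplicit false
set_option linter.unusedSectionVars false
set_option linter.style.haveILetI false

namespace CfsgLib.Geometric.SLThree

open Matrix MulAction

variable {F : Type*} [Field F] [Finite F]

section Quot

variable (o : Omega F) (H : Subgroup (GL (Fin 3) F))

/-- The group modulo scalars. -/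
abbrev Gq : Type _ := H.map (QuotientGroup.mk' o.Zc)

/-- The projection onto the group modulo scalars. -/
noncomputable def qh : H →* Gq o H := (QuotientGroup.mk' o.Zc).subgroupMap H

variable {o H}

lemma qh_surj (G : Gq o H) : ∃ x : H, qh o H x = G := by
  obtain ⟨_, x, hx, rfl⟩ := G
  exact ⟨⟨x, hx⟩, Subtype.ext rfl⟩

lemma qh_eq {a b : H} : qh o H a = qh o H b ↔ (a : GL (Fin 3) F)⁻¹ * b ∈ o.Zc :=
  Subtype.ext_iff.trans QuotientGroup.eq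

lemma qh_eq_one {a : H} : qh o H a = 1 ↔ (a : GL (Fin 3) F) ∈ o.Zc :=
  Subtype.ext_iff.trans (QuotientGroup.eq_one_iff _)

lemma qh_mul_eq_one {a b : H} : qh o H a * qh o H b = 1 ↔ (a : GL (Fin 3) F) * b ∈ o.Zc := by
  rw [← map_mul, qh_eq_one, Subgroup.coe_mul]

lemma qh_comm {a b : H} :
    qh o H a * qh o H b = qh o H b * qh o H a ↔
      ((a : GL (Fin 3) F) * b)⁻¹ * ((b : GL (Fin 3) F) * a) ∈ o.Zc := by
  rw [← map_mul, ← map_mul, qh_eq, Subgroup.coe_mul, Subgroup.coe_mul]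

/-- The image of `R`. -/
noncomputable def Vq (o : Omega F) (H : Subgroup (GL (Fin 3) F)) : Subgroup (Gq o H) :=
  (o.R.subgroupOf H).map (qh o H)

lemma mem_Vq {x : H} : qh o H x ∈ Vq o H ↔ (x : GL (Fin 3) F) ∈ o.R := by
  refine ⟨?_, fun hx => Subgroup.mem_map_of_mem _ hx⟩
  rintro ⟨r, hr, he⟩
  obtain ⟨k, hk⟩ := o.mem_Zc_iff.mp (qh_eq.mp he)
  have : (x : GL (Fin 3) F) = r * o.Z ^ k := by rw [← hk]; exact (mul_inv_cancel_left _ _).symm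
  rw [this]
  exact mul_mem (Subgroup.mem_subgroupOf.mp hr) (pow_mem o.Z_mem k)

lemma exists_of_mem_Vq {u : Gq o H} (hu : u ∈ Vq o H) :
    ∃ a : H, (a : GL (Fin 3) F) ∈ o.R ∧ qh o H a = u := by
  obtain ⟨a, ha, rfl⟩ := hu
  exact ⟨a, ha, rfl⟩

lemma mem_normalizer_Vq {x : H} (hx : (x : GL (Fin 3) F) ∈ Cfsg.Geo.subgroupNormalizer o.R) :
    qh o H x ∈ Subgroup.normalizer (Vq o H : Set (Gq o H)) := by
  rw [Subgroup.mem_normalizer_iff]
  intro u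
  obtain ⟨a, rfl⟩ := qh_surj u
  rw [← map_inv, ← map_mul, ← map_mul, mem_Vq, mem_Vq]
  exact Subgroup.mem_normalizer_iff.mp hx a

lemma R_comm {a b : GL (Fin 3) F} (ha : a ∈ o.R) (hb : b ∈ o.R) : (a * b)⁻¹ * (b * a) ∈ o.Zc := by
  obtain ⟨a, b, c, rfl⟩ := ha
  obtain ⟨a', b', c', rfl⟩ := hb
  refine o.mem_Zc_iff.mpr ⟨a + a' + 2 * c' * b + 2 * (a + a' + 2 * c * b'), ?_⟩
  rw [inv_mul_eq_iff_eq_mul, o.nf_mul, o.nf_mul,
    show o.Z ^ (a + a' + 2 * c' * b + 2 * (a + a' + 2 * c * b'))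
      = o.nf (a + a' + 2 * c' * b + 2 * (a + a' + 2 * c * b')) 0 0 by simp [Omega.nf], o.nf_mul]
  refine o.nf_congr ?_ ?_ ?_
  · rw [show a + a' + 2 * c * b' + (a + a' + 2 * c' * b + 2 * (a + a' + 2 * c * b')) + 2 * (c + c') * 0
      = (a' + a + 2 * c' * b) + 3 * (a + a' + 2 * c * b') by ring, Nat.add_mul_mod_self_left]
  · omega
  · omega

lemma card_Vq (hR : o.R ≤ H) : Nat.card (Vq o H) = 9 := by
  let f : Fin 3 × Fin 3 → Vq o H :=
    fun x => ⟨qh o H ⟨o.nf 0 x.1 x.2, hR ⟨_, _, _, rfl⟩⟩, mem_Vq.mpr ⟨_, _, _, rfl⟩⟩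
  have hf : Function.Bijective f := by
    constructor
    · rintro ⟨b, c⟩ ⟨b', c'⟩ h
      have h' := qh_eq.mp (congrArg Subtype.val h)
      obtain ⟨k, hk⟩ := o.mem_Zc_iff.mp h'
      change (o.nf 0 b c)⁻¹ * o.nf 0 b' c' = o.Z ^ k at hk
      rw [inv_mul_eq_iff_eq_mul, show o.Z ^ k = o.nf k 0 0 by simp [Omega.nf], o.nf_mul] at hk
      obtain ⟨-, h2, h3⟩ := o.nf_inj hk
      simp only [add_zero, Nat.mod_eq_of_lt b.2, Nat.mod_eq_of_lt b'.2, Nat.mod_eq_of_lt c.2,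
        Nat.mod_eq_of_lt c'.2] at h2 h3
      exact Prod.ext (Fin.ext h2.symm) (Fin.ext h3.symm)
    · rintro ⟨u, hu⟩
      obtain ⟨⟨r, hr⟩, hr', rfl⟩ := exists_of_mem_Vq hu
      obtain ⟨a, b, c, rfl⟩ : ∃ a b c, r = o.nf a b c := hr'
      refine ⟨(⟨b % 3, Nat.mod_lt _ (by norm_num)⟩, ⟨c % 3, Nat.mod_lt _ (by norm_num)⟩), ?_⟩
      apply Subtype.ext
      apply qh_eq.mpr
      refine o.mem_Zc_iff.mpr ⟨a, ?_⟩
      show (o.nf 0 (b % 3) (c % 3))⁻¹ * o.nf a b c = _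
      rw [inv_mul_eq_iff_eq_mul, show o.Z ^ a = o.nf a 0 0 by simp [Omega.nf], o.nf_mul]
      exact o.nf_congr (by simp) (by simp) (by simp)
  rw [← Nat.card_eq_of_bijective f hf]
  simp

lemma t_inv_Vq (ht : o.t ∈ H) {u : Gq o H} (hu : u ∈ Vq o H) :
    qh o H ⟨o.t, ht⟩ * u * (qh o H ⟨o.t, ht⟩)⁻¹ = u⁻¹ := by
  obtain ⟨a, ha, rfl⟩ := exists_of_mem_Vq hu
  rw [← map_inv, ← map_mul, ← map_mul, ← map_inv, qh_eq]
  show (o.t * (a : GL (Fin 3) F) * o.t⁻¹)⁻¹ * (a : GL (Fin 3) F)⁻¹ ∈ o.Zc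
  rw [← _root_.mul_inv_rev]
  refine inv_mem ?_
  obtain ⟨x, b, c, hx⟩ := ha
  rw [hx]
  have hDt : o.t * o.D * o.t⁻¹ = o.nf 0 2 0 := by
    rw [o.t_conj_D, mul_inv_cancel_right]; simp [Omega.nf, pow_two]
  have hPt : o.t * o.P * o.t⁻¹ = o.nf 0 0 2 := by
    rw [o.t_conj_P, mul_inv_cancel_right]; simp [Omega.nf, pow_two]
  have hconj : o.t * o.nf x b c * o.t⁻¹ = o.nf x (2 * b) (2 * c) := by
    rw [Omega.nf, show o.t * (o.Z ^ x * o.D ^ b * o.P ^ c) * o.t⁻¹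
      = (o.t * o.Z ^ x) * o.D ^ b * (o.P ^ c * o.t⁻¹) by group, o.Z_pow_comm,
      show o.Z ^ x * o.t * o.D ^ b * (o.P ^ c * o.t⁻¹)
      = o.Z ^ x * (o.t * o.D ^ b * o.t⁻¹) * (o.t * o.P ^ c * o.t⁻¹) by group,
      ← conj_pow, ← conj_pow, o.t_conj_D, o.t_conj_P, mul_inv_cancel_right, mul_inv_cancel_right]
    simp [Omega.nf, ← pow_two, ← pow_mul]
  rw [hconj, o.nf_mul]
  exact o.nf_mem_Zc_iff.mpr ⟨by omega, by omega⟩

end Quot

namespace C6Hyp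

variable {o : Omega F} {H : Subgroup (GL (Fin 3) F)} {hH : C6Hyp o H}

namespace LinePair

variable (Q : hH.LinePair)

/-- The centraliser of the involution inside `H`. -/
noncomputable def incl (hH : C6Hyp o H) : hH.L0.X →* H := Subgroup.inclusion inf_le_left

/-- The image of the stabiliser of both lines. -/
noncomputable def Yq : Subgroup (Gq o H) := (Q.Ys.map (incl hH)).map (qh o H)

lemma incl_val (x : hH.L0.X) : ((incl hH x : H) : GL (Fin 3) F) = (x : GL (Fin 3) F) := rfl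

lemma mem_Yq_of {x : hH.L0.X} (hx : x ∈ Q.Ys) : qh o H (incl hH x) ∈ Q.Yq :=
  Subgroup.mem_map_of_mem _ (Subgroup.mem_map_of_mem _ hx)

lemma exists_of_mem_Yq {u : Gq o H} (hu : u ∈ Q.Yq) :
    ∃ a : hH.L0.X, a ∈ Q.Ys ∧ qh o H (incl hH a) = u := by
  obtain ⟨-, ⟨a, ha, rfl⟩, rfl⟩ := hu
  exact ⟨a, ha, rfl⟩

lemma of_mem_Yq {x : hH.L0.X} (hx : qh o H (incl hH x) ∈ Q.Yq) : x ∈ Q.Ys := by
  obtain ⟨y, hy, he⟩ := Q.exists_of_mem_Yq hx
  obtain ⟨k, hk⟩ := o.mem_Zc_iff.mp (qh_eq.mp he)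
  let z : hH.L0.X := ⟨o.Z ^ k, hH.mem_X0 (pow_mem hH.Z_mem k) (o.Z_pow_comm k o.t).symm⟩
  have hz : IsSc hH.L0.ρ z := (hH.L0.isSc_iff z).mpr ⟨o.w ^ k, fun u _ => by
    show ap (o.Z ^ k) u = _
    rw [o.Z_dg.pow k]; funext m; fin_cases m <;> simp⟩
  have hxy : x = y * z := Subtype.ext (by
    show (x : GL (Fin 3) F) = y * o.Z ^ k
    rw [← hk]; exact (mul_inv_cancel_left _ _).symm)
  rw [hxy]
  exact mul_mem hy (Q.sc_mem hz)

/-- The image of the inverting involution. -/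
noncomputable abbrev tq (hH : C6Hyp o H) : Gq o H := qh o H ⟨o.t, hH.t_mem⟩

lemma comm_tq (x : hH.L0.X) : qh o H (incl hH x) * tq hH = tq hH * qh o H (incl hH x) :=
  qh_comm.mpr (by
    rw [incl_val]
    show ((x : GL (Fin 3) F) * o.t)⁻¹ * (o.t * (x : GL (Fin 3) F)) ∈ o.Zc
    rw [show o.t * (x : GL (Fin 3) F) = x * o.t from (hH.L0.mem_X.mp x.2).2.symm, inv_mul_cancel]
    exact one_mem _)

lemma liftC {x : Gq o H} (hx : x * tq hH = tq hH * x) :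
    ∃ x' : hH.L0.X, qh o H (incl hH x') = x := by
  obtain ⟨⟨a, ha⟩, rfl⟩ := qh_surj x
  have h1 : (a * o.t)⁻¹ * (o.t * a) ∈ o.Zc :=
    (qh_comm (a := (⟨a, ha⟩ : H)) (b := ⟨o.t, hH.t_mem⟩)).mp hx
  have h2 : a * o.t = o.t * a := comm_of_mod o.t_sq h1
  refine ⟨⟨a, hH.mem_X0 ha h2⟩, ?_⟩
  exact congrArg (qh o H) (Subtype.ext (incl_val _))

lemma eq_tq {x : H} (h : o.t⁻¹ * (x : GL (Fin 3) F) ∈ o.Zc) : qh o H x = tq hH :=
  (qh_eq.mpr h : qh o H ⟨o.t, hH.t_mem⟩ = qh o H x).symm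

lemma sq_eq_tq {x : hH.L0.X} (h : (x : GL (Fin 3) F) * x = o.t) :
    qh o H (incl hH x) * qh o H (incl hH x) = tq hH := by
  rw [← map_mul]
  refine eq_tq ?_
  rw [Subgroup.coe_mul, incl_val, h, inv_mul_cancel]
  exact one_mem _

lemma t_mem_Yq : tq hH ∈ Q.Yq :=
  Q.mem_Yq_of (x := ⟨o.t, hH.L0.s_X⟩) (Q.sc_mem ((hH.L0.isSc_iff _).mpr ⟨-1, fun u hu => by
    show ap o.t u = _
    rw [neg_one_smul]; exact o.t_isHom.ap_ker hu⟩))

/-- The configuration modulo scalars. -/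
noncomputable def tenData (hN : HasNbr o H) {s i j : hH.L0.X} (hsY : s ∉ Q.Ys)
    (hs2 : (s : GL (Fin 3) F) * s = 1) (hsc : IsConj (tq hH) (qh o H (incl hH s)))
    (hi : i ∈ Q.Ys) (hiN : (i : GL (Fin 3) F) ∈ Cfsg.Geo.subgroupNormalizer o.R)
    (hi2 : (i : GL (Fin 3) F) * i = o.t) (hii : s * i * s⁻¹ = i⁻¹) (hj : j ∉ Q.Ys)
    (hjN : (j : GL (Fin 3) F) ∈ Cfsg.Geo.subgroupNormalizer o.R)
    (hj2 : (j : GL (Fin 3) F) * j = o.t) : TenData (Gq o H) where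
  t := tq hH
  Y := Q.Yq
  s := qh o H (incl hH s)
  i := qh o H (incl hH i)
  j := qh o H (incl hH j)
  V := Vq o H
  t_sq := qh_mul_eq_one.mpr (by rw [o.t_sq]; exact one_mem _)
  t_ne := fun h => by
    obtain ⟨k, hk⟩ := o.mem_Zc_iff.mp (qh_eq_one.mp h)
    exact t_ne_Z_pow k hk
  Y_le := fun u hu => by
    obtain ⟨y, -, rfl⟩ := Q.exists_of_mem_Yq hu
    exact comm_tq y
  t_mem := Q.t_mem_Yq
  Y_comm := fun u hu u' hu' => by
    obtain ⟨a, ha, rfl⟩ := Q.exists_of_mem_Yq hu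
    obtain ⟨b, hb, rfl⟩ := Q.exists_of_mem_Yq hu'
    rw [← map_mul, ← map_mul, ← map_mul, ← map_mul, Q.comm ha hb]
  index_two := fun x z hx hxY hz hzY => by
    obtain ⟨x', rfl⟩ := liftC hx
    obtain ⟨z', rfl⟩ := liftC hz
    rw [← map_mul, ← map_mul]
    exact Q.mem_Yq_of (Q.mul_out (fun h => hxY (Q.mem_Yq_of h)) (fun h => hzY (Q.mem_Yq_of h)))
  sq_out := fun x hx hxY => by
    obtain ⟨x', rfl⟩ := liftC hx
    rcases Q.sq_out (fun h => hxY (Q.mem_Yq_of h)) with h | h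
    · exact Or.inl (qh_mul_eq_one.mpr h)
    · refine Or.inr ?_
      rw [← map_mul, ← map_mul]
      exact eq_tq h
  only_inv := fun u hu h2 => by
    obtain ⟨a, ha, rfl⟩ := Q.exists_of_mem_Yq hu
    rcases Q.only_inv ha ((qh_mul_eq_one (a := incl hH a) (b := incl hH a)).mp h2) with h | h
    · exact Or.inl (qh_eq_one.mpr h)
    · exact Or.inr (eq_tq h)
  centralizer_Y := fun u hu h1 ht g hg => by
    obtain ⟨a, ha, rfl⟩ := Q.exists_of_mem_Yq hu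
    obtain ⟨g', rfl⟩ := qh_surj g
    obtain ⟨k, hk⟩ := o.mem_Zc_iff.mp (qh_comm.mp hg)
    rw [inv_mul_eq_iff_eq_mul, o.Z_pow_comm, incl_val] at hk
    have hk' : (g' : GL (Fin 3) F) * a = o.Z ^ (2 * k) * ((a : GL (Fin 3) F) * g') := by
      rw [hk, ← mul_assoc (o.Z ^ (2 * k)), ← pow_add, show 2 * k + k = 3 * k by ring, pow_mul,
        o.Z_cube, one_pow, one_mul]
    obtain ⟨hX, hY'⟩ :=
      Q.cent hN ha (fun h => h1 (qh_eq_one.mpr h)) (fun h => ht (eq_tq h)) g'.2 hk'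
    exact Q.mem_Yq_of (x := ⟨g', hX⟩) hY'
  s_comm := comm_tq s
  s_notMem := fun h => hsY (Q.of_mem_Yq h)
  s_sq := qh_mul_eq_one.mpr (by rw [incl_val, hs2]; exact one_mem _)
  conj_s := hsc
  i_mem := Q.mem_Yq_of hi
  i_sq := sq_eq_tq hi2
  i_inv := by rw [← map_inv, ← map_inv, ← map_mul, ← map_mul, ← map_inv, ← map_inv, ← map_mul, ← map_mul, hii]
  j_comm := comm_tq j
  j_notMem := fun h => hj (Q.of_mem_Yq h)
  j_sq := sq_eq_tq hj2
  no_three := fun h => by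
    haveI : Fact (Nat.Prime 3) := ⟨Nat.prime_three⟩
    obtain ⟨⟨c, hc⟩, hord⟩ := exists_prime_orderOf_dvd_card' 3 h
    rw [← Subgroup.orderOf_coe] at hord
    obtain ⟨x', rfl⟩ := liftC (Subgroup.mem_centralizer_singleton_iff.mp hc)
    have hh3 := orderOf_dvd_iff_pow_eq_one.mp (dvd_of_eq hord)
    rw [← map_pow, qh_eq_one, SubgroupClass.coe_pow, incl_val] at hh3
    have := hH.no_three_X hN x'.2.1 (hH.L0.mem_X.mp x'.2).2 hh3
    have h1 : qh o H (incl hH x') = 1 := qh_eq_one.mpr this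
    exact absurd (hord.symm.trans (orderOf_eq_one_iff.mpr h1)) (by norm_num)
  V_card := card_Vq hH.R_le
  V_cc := fun u hu h1 g => by
    obtain ⟨a, ha, rfl⟩ := exists_of_mem_Vq hu
    obtain ⟨g', rfl⟩ := qh_surj g
    rw [qh_comm, mem_Vq]
    constructor
    · intro hg
      obtain ⟨k, hk⟩ := o.mem_Zc_iff.mp hg
      rw [inv_mul_eq_iff_eq_mul, o.Z_pow_comm] at hk
      refine hH.cc hN ha (fun h => h1 (qh_eq_one.mpr h)) g'.2 (i := 2 * k) ?_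
      rw [mul_inv_eq_iff_eq_mul, mul_assoc, hk, ← mul_assoc (o.Z ^ (2 * k)), ← pow_add,
        show 2 * k + k = 3 * k by ring, pow_mul, o.Z_cube, one_pow, one_mul]
    · intro hg
      exact R_comm hg ha
  t_inv := fun u hu => t_inv_Vq hH.t_mem hu
  i_norm := mem_normalizer_Vq hiN
  j_norm := mem_normalizer_Vq hjN

end LinePair

/-- The configuration is impossible. -/
theorem no_tenData (hH : C6Hyp o H) (D : TenData (Gq o H)) : False := by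
  obtain ⟨u, g, hu5, hu1, hgu⟩ := D.exists_five
  obtain ⟨⟨a, ha⟩, rfl⟩ := qh_surj u
  obtain ⟨⟨g', hg'⟩, rfl⟩ := qh_surj g
  rw [← map_pow, qh_eq_one] at hu5
  obtain ⟨k, hk⟩ := o.mem_Zc_iff.mp hu5
  rw [← map_inv, ← map_mul, ← map_mul, ← map_mul, qh_eq] at hgu
  obtain ⟨l, hl⟩ := o.mem_Zc_iff.mp hgu
  change a ^ 5 = _ at hk
  change (g' * a * g'⁻¹)⁻¹ * (a * a) = o.Z ^ l at hl
  rw [inv_mul_eq_iff_eq_mul] at hl
  have h6 : (a ^ 6) ^ 5 = 1 := by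
    rw [← pow_mul, mul_comm, pow_mul, hk, ← pow_mul, mul_comm, show 6 * k = 3 * (2 * k) by ring, pow_mul,
      o.Z_cube, one_pow]
  have hg6 : g' * a ^ 6 * g'⁻¹ = a ^ 6 * a ^ 6 := by
    rw [← conj_pow, ← (Commute.refl a).mul_pow, hl,
      (Commute.pow_right (o.Z_comm (g' * a * g'⁻¹)) l).mul_pow, ← pow_mul,
      show l * 6 = 3 * (2 * l) by ring, pow_mul, o.Z_cube, one_pow, mul_one]
  have ha6 := eq_one_of_conj_sq hH.five h6 hg6
  apply hu1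
  rw [qh_eq_one]
  refine o.mem_Zc_iff.mpr ⟨2 * k, ?_⟩
  show a = _
  calc a = (a ^ 6) * (a ^ 5)⁻¹ := by group
    _ = (o.Z ^ k)⁻¹ := by rw [ha6, hk, one_mul]
    _ = o.Z ^ (2 * k) := inv_eq_of_mul_eq_one_right (by
        rw [← pow_add, show k + 2 * k = 3 * k by ring, pow_mul, o.Z_cube, one_pow])

/-- A conjugate of the inverting involution commuting with it is equal to it. -/
theorem isolated (hH : C6Hyp o H) {y₀ : GL (Fin 3) F} (hy₀ : y₀ ∈ H)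
    (hst : y₀ * o.t * y₀⁻¹ * o.t = o.t * (y₀ * o.t * y₀⁻¹)) : y₀ * o.t * y₀⁻¹ = o.t := by
  classical
  by_contra hne
  set s := y₀ * o.t * y₀⁻¹ with hs
  have hsH : s ∈ H := mul_mem (mul_mem hy₀ hH.t_mem) (inv_mem hy₀)
  have hs2 : s * s = 1 := by
    rw [hs, show y₀ * o.t * y₀⁻¹ * (y₀ * o.t * y₀⁻¹) = y₀ * (o.t * o.t) * y₀⁻¹ by group, o.t_sq,
      mul_one, mul_inv_cancel]
  have hs1 : s ≠ 1 := fun e => o.t_isHom.ne_one o.two (conj_eq_one_iff.mp e)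
  have hN : HasNbr o H := ⟨s, hsH, hs2, hst, hs1, hne⟩
  obtain ⟨v, w, hli, hperm⟩ := hH.L0.exists_lines (hH.pimage_no_three hN)
  let Q : hH.LinePair := ⟨v, w, hli, hperm⟩
  obtain ⟨i, hi, hiN, hi2, j, hj, hjN, hj2⟩ := Q.exists_roots
  let s' : hH.L0.X := ⟨s, hH.mem_X0 hsH hst⟩
  have hsY : s' ∉ Q.Ys := Q.notMem_of_inv hs2 hs1 hne
  refine hH.no_tenData (Q.tenData hN hsY hs2 ?_ hi hiN hi2 (Q.inverts hsY hs2 hi hi2) hj hjN hj2)
  refine isConj_iff.mpr ⟨qh o H ⟨y₀, hy₀⟩, ?_⟩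
  rw [← map_inv, ← map_mul, ← map_mul]
  rfl

end C6Hyp

end CfsgLib.Geometric.SLThree
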