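import Cfsg.Agent.Lib.Geometric.SLThree.FrameR

/-!
Matrices commuting with a pair that commutes up to a cube root of unity, and abelian subgroups
normalised by the frame and by `W₀`.
-/

set_option autoImplicit false
set_option linter.unusedSectionVars false
set_option linter.style.haveILetI false

namespace CfsgLib.Geometric.SLThree

open Matrix

variable {F : Type*} [Field F]

/-- The matrix acting on the vectors over the algebraic closure. -/
noncomputable def apK (g : GL (Fin 3) F) :
    (Fin 3 → AlgebraicClosure F) →ₗ[AlgebraicClosure F] (Fin 3 → AlgebraicClosure F) :=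
  Matrix.toLin' ((g : Matrix (Fin 3) (Fin 3) F).map (algebraMap F (AlgebraicClosure F)))

lemma apK_mul (g h : GL (Fin 3) F) : apK (g * h) = apK g ∘ₗ apK h := by
  rw [apK, apK, apK, Units.val_mul, Matrix.map_mul, Matrix.toLin'_mul]

lemma apK_mul_apply (g h : GL (Fin 3) F) (x : Fin 3 → AlgebraicClosure F) :
    apK (g * h) x = apK g (apK h x) := by rw [apK_mul]; rfl

lemma apK_one : apK (1 : GL (Fin 3) F) = LinearMap.id := by
  rw [apK, Units.val_one, Matrix.map_one _ (map_zero _) (map_one _), Matrix.toLin'_one]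

lemma apK_inv_apply (g : GL (Fin 3) F) (x : Fin 3 → AlgebraicClosure F) : apK g⁻¹ (apK g x) = x := by
  rw [← apK_mul_apply, inv_mul_cancel, apK_one]; rfl

lemma apK_injective (g : GL (Fin 3) F) : Function.Injective (apK g) :=
  Function.LeftInverse.injective (apK_inv_apply g)

lemma eq_of_apK {g h : GL (Fin 3) F} (he : apK g = apK h) : g = h :=
  Units.ext (Matrix.ext fun i j => (algebraMap F (AlgebraicClosure F)).injective
    (congrFun (congrFun (Matrix.toLin'.injective he) i) j))

/-- A matrix scalar over the closure is scalar. -/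
lemma exists_smul_of_apK {g : GL (Fin 3) F} {l : AlgebraicClosure F}
    (h : ∀ x, apK g x = l • x) : ∀ x, ap g x = (g : Matrix (Fin 3) (Fin 3) F) 0 0 • x := by
  have hij : ∀ i j, algebraMap F (AlgebraicClosure F) ((g : Matrix (Fin 3) (Fin 3) F) i j) =
      if i = j then l else 0 := fun i j => by
    have := congrFun (h (Pi.single j 1)) i
    simp [apK, Pi.single_apply] at this
    exact this
  have hg : (g : Matrix (Fin 3) (Fin 3) F) = (g : Matrix (Fin 3) (Fin 3) F) 0 0 • 1 := by
    ext i j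
    apply (algebraMap F (AlgebraicClosure F)).injective
    rw [hij, Matrix.smul_apply, Matrix.one_apply]
    by_cases e : i = j <;> simp [e, hij]
  intro x
  rw [ap_def]
  nth_rewrite 1 [hg]
  rw [Matrix.smul_mulVec, Matrix.one_mulVec]

lemma apK_Z (o : Omega F) (n : ℕ) (x : Fin 3 → AlgebraicClosure F) :
    apK (o.Z ^ n) x = algebraMap F (AlgebraicClosure F) o.w ^ n • x := by
  have h1 : ∀ y, apK o.Z y = algebraMap F (AlgebraicClosure F) o.w • y := fun y => by
    funext i
    rw [apK, Omega.Z_val, Matrix.toLin'_apply]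
    fin_cases i <;> simp [Omega.Zmat, mulVec, dotProduct, Fin.sum_univ_three]
  induction n with
  | zero => simp [apK_one]
  | succ n ih => rw [pow_succ, apK_mul_apply, h1, map_smul, ih, smul_smul, pow_succ']

/-- Only scalars commute with two elements commuting up to a non-trivial cube root of unity. -/
theorem scalar_of_comm_pair {o : Omega F} {a b c : GL (Fin 3) F} {k : ℕ} (hk : k % 3 ≠ 0)
    (hab : a * b = o.Z ^ k * (b * a)) (hca : c * a = a * c) (hcb : c * b = b * c) :
    ∀ x, ap c x = (c : Matrix (Fin 3) (Fin 3) F) 0 0 • x := by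
  obtain ⟨l, hl⟩ := Module.End.exists_eigenvalue (apK c)
  refine exists_smul_of_apK (l := l) ?_
  set E := Module.End.eigenspace (apK c) l with hE
  have hEinv : ∀ {g : GL (Fin 3) F}, c * g = g * c → ∀ x ∈ E, apK g x ∈ E := by
    intro g hg x hx
    rw [hE, Module.End.mem_eigenspace_iff] at hx ⊢
    rw [← apK_mul_apply, hg, apK_mul_apply, hx, map_smul]
  haveI : Nontrivial E := Submodule.nontrivial_iff_ne_bot.mpr hl
  obtain ⟨μ, hμ⟩ := Module.End.exists_eigenvalue ((apK a).restrict (hEinv hca))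
  obtain ⟨⟨v, hvE⟩, hv⟩ := hμ.exists_hasEigenvector
  have hav : apK a v = μ • v := congrArg Subtype.val hv.apply_eq_smul
  have hv0 : v ≠ 0 := fun h => hv.2 (Subtype.ext h)
  have hμ0 : μ ≠ 0 := by
    rintro rfl
    rw [zero_smul, ← map_zero (apK a)] at hav
    exact hv0 (apK_injective a hav)
  set ζ := algebraMap F (AlgebraicClosure F) o.w ^ k with hζ
  have hb : ∀ {x : Fin 3 → AlgebraicClosure F} {ν : AlgebraicClosure F}, apK a x = ν • x →
      apK a (apK b x) = (ζ * ν) • apK b x := by
    intro x ν hx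
    rw [← apK_mul_apply, hab, apK_mul_apply, apK_mul_apply, hx, map_smul, apK_Z, smul_smul, ← hζ]
  let μs : Fin 3 → AlgebraicClosure F := ![μ, ζ * μ, ζ * (ζ * μ)]
  let vs : Fin 3 → (Fin 3 → AlgebraicClosure F) := ![v, apK b v, apK b (apK b v)]
  have hbv : apK b v ≠ 0 := fun h => hv0 (apK_injective b (h.trans (map_zero _).symm))
  have hbbv : apK b (apK b v) ≠ 0 := fun h => hbv (apK_injective b (h.trans (map_zero _).symm))
  have hζ1 : ζ ≠ 1 := by
    intro h
    rw [hζ, ← map_pow, ← map_one (algebraMap F (AlgebraicClosure F))] at h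
    exact hk (o.w_pow_eq_one ((algebraMap F (AlgebraicClosure F)).injective h))
  have hζ2 : ζ * ζ ≠ 1 := by
    intro h
    rw [hζ, ← pow_add, ← map_pow, ← map_one (algebraMap F (AlgebraicClosure F))] at h
    have := o.w_pow_eq_one ((algebraMap F (AlgebraicClosure F)).injective h)
    omega
  have hζ0 : ζ ≠ 0 := pow_ne_zero k ((map_ne_zero _).mpr o.ne_zero)
  have hinj : Function.Injective μs := by
    intro i j h
    fin_cases i <;> fin_cases j <;>
      simp [μs, hμ0, hζ0, hζ1, hζ2, ← mul_assoc] at h ⊢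
  have heig : ∀ i, Module.End.HasEigenvector (apK a) (μs i) (vs i) := by
    intro i
    fin_cases i
    · exact ⟨Module.End.mem_eigenspace_iff.mpr hav, hv0⟩
    · exact ⟨Module.End.mem_eigenspace_iff.mpr (hb hav), hbv⟩
    · exact ⟨Module.End.mem_eigenspace_iff.mpr (hb (hb hav)), hbbv⟩
  have hli := Module.End.eigenvectors_linearIndependent' (apK a) μs hinj vs heig
  have htop := hli.span_eq_top_of_card_eq_finrank (by rw [Fintype.card_fin, Module.finrank_fin_fun])
  have hEtop : E = ⊤ := by
    rw [eq_top_iff, ← htop, Submodule.span_le]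
    rintro _ ⟨i, rfl⟩
    fin_cases i
    · exact hvE
    · exact hEinv hcb _ hvE
    · exact hEinv hcb _ (hEinv hcb _ hvE)
  intro x
  have hx : x ∈ E := hEtop ▸ Submodule.mem_top
  exact Module.End.mem_eigenspace_iff.mp hx

lemma exists_common_eig {S : Set (GL (Fin 3) F)} (hS : ∀ a ∈ S, ∀ b ∈ S, a * b = b * a) :
    ∃ v : Fin 3 → AlgebraicClosure F, v ≠ 0 ∧ ∀ a ∈ S, ∃ c : AlgebraicClosure F, apK a v = c • v := by
  classical
  let P : ℕ → Prop := fun n => ∃ W : Submodule (AlgebraicClosure F) (Fin 3 → AlgebraicClosure F),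
    W ≠ ⊥ ∧ Module.finrank (AlgebraicClosure F) W = n ∧ ∀ a ∈ S, ∀ x ∈ W, apK a x ∈ W
  have hex : ∃ n, P n := by
    haveI : Nontrivial (Fin 3 → AlgebraicClosure F) := inferInstance
    exact ⟨_, ⊤, top_ne_bot, rfl, fun _ _ _ _ => Submodule.mem_top⟩
  obtain ⟨W, hW, hWn, hWinv⟩ := Nat.find_spec hex
  obtain ⟨v, hv, hv0⟩ := Submodule.exists_mem_ne_zero_of_ne_bot hW
  refine ⟨v, hv0, fun a ha => ?_⟩
  haveI : Nontrivial W := Submodule.nontrivial_iff_ne_bot.mpr hW
  obtain ⟨c, hc⟩ := Module.End.exists_eigenvalue ((apK a).restrict (hWinv a ha))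
  obtain ⟨⟨u, huW⟩, hu⟩ := hc.exists_hasEigenvector
  let W' := W ⊓ Module.End.eigenspace (apK a) c
  have hW' : W' ≠ ⊥ := by
    intro h
    have : u ∈ W' := ⟨huW, Module.End.mem_eigenspace_iff.mpr (congrArg Subtype.val hu.apply_eq_smul)⟩
    rw [h, Submodule.mem_bot] at this
    exact hu.2 (Subtype.ext this)
  have hinv' : ∀ b ∈ S, ∀ x ∈ W', apK b x ∈ W' := by
    intro b hb x hx
    refine ⟨hWinv b hb x hx.1, ?_⟩
    have h2 : apK a x = c • x := Module.End.mem_eigenspace_iff.mp hx.2
    rw [SetLike.mem_coe, Module.End.mem_eigenspace_iff, ← apK_mul_apply, hS a ha b hb, apK_mul_apply,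
      h2, map_smul]
  have hle : W' ≤ W := inf_le_left
  have hge : Nat.find hex ≤ Module.finrank (AlgebraicClosure F) W' :=
    Nat.find_min' hex ⟨W', hW', rfl, hinv'⟩
  have he : W' = W := Submodule.eq_of_le_of_finrank_le hle (hWn.le.trans hge)
  exact ⟨c, Module.End.mem_eigenspace_iff.mp (he.ge hv).2⟩

/-- An abelian group normalised by the frame and `W₀` consists of scalars. -/
theorem abelian_scalar {o : Omega F} {A : Subgroup (GL (Fin 3) F)}
    (hA : ∀ a ∈ A, ∀ b ∈ A, a * b = b * a)
    (hnorm : ∀ g ∈ o.R ⊔ Subgroup.zpowers o.W0, ∀ a ∈ A, g * a * g⁻¹ ∈ A)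
    (hnc : ∀ r ∈ o.R, (∀ x, ap r x = (r : Matrix (Fin 3) (Fin 3) F) 0 0 • x) ∨
      r * (o.W0 * r * o.W0⁻¹) ≠ (o.W0 * r * o.W0⁻¹) * r) :
    ∀ a ∈ A, ∀ x, ap a x = (a : Matrix (Fin 3) (Fin 3) F) 0 0 • x := by
  classical
  obtain ⟨v, hv0, hv⟩ := exists_common_eig (S := (A : Set (GL (Fin 3) F))) hA
  choose χ hχ using hv
  let χ' : GL (Fin 3) F → GL (Fin 3) F → AlgebraicClosure F := fun g a =>
    if h : g⁻¹ * a * g ∈ A then χ (g⁻¹ * a * g) h else 0
  set M := o.R ⊔ Subgroup.zpowers o.W0 with hM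
  -- translates of `v` are weight vectors
  have htr : ∀ g ∈ M, ∀ a ∈ A, apK a (apK g v) = χ' g a • apK g v := by
    intro g hg a ha
    have hm : g⁻¹ * a * g ∈ A := by simpa using hnorm g⁻¹ (M.inv_mem hg) a ha
    have h1 : a * g = g * (g⁻¹ * a * g) := by group
    rw [← apK_mul_apply, h1, apK_mul_apply, hχ _ hm, map_smul]
    simp only [χ', dif_pos hm]
  have hDM : o.D ∈ M := le_sup_left (a := o.R) o.D_mem
  have hPM : o.P ∈ M := le_sup_left (a := o.R) o.P_mem
  have hne : ∀ g, apK g v ≠ 0 := fun g h => hv0 (apK_injective g (h.trans (map_zero _).symm))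
  by_cases hfix : (∀ a ∈ A, χ' o.D a = χ' 1 a) ∧ (∀ a ∈ A, χ' o.P a = χ' 1 a)
  · -- a single weight space
    intro a ha
    refine exists_smul_of_apK (l := χ' 1 a) ?_
    let E : Submodule (AlgebraicClosure F) (Fin 3 → AlgebraicClosure F) :=
      ⨅ b : A, Module.End.eigenspace (apK (b : GL (Fin 3) F)) (χ' 1 (b : GL (Fin 3) F))
    have hmemE : ∀ x, x ∈ E ↔ ∀ b ∈ A, apK b x = χ' 1 b • x := fun x => by
      simp [E, Submodule.mem_iInf]
    have hvE : v ∈ E := by
      rw [hmemE]
      intro b hb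
      have := htr 1 (M.one_mem) b hb
      rwa [apK_one] at this
    have stab : ∀ {g : GL (Fin 3) F}, g ∈ M → (∀ b ∈ A, χ' g b = χ' 1 b) →
        ∀ x ∈ E, apK g x ∈ E := by
      intro g hg hc x hx
      rw [hmemE] at hx ⊢
      intro b hb
      have hm : g⁻¹ * b * g ∈ A := by simpa using hnorm g⁻¹ (M.inv_mem hg) b hb
      rw [← apK_mul_apply, show b * g = g * (g⁻¹ * b * g) by group, apK_mul_apply, hx _ hm, map_smul,
        ← hc b hb]
      congr 1
      simp [χ', hm]
    haveI : Nontrivial E := Submodule.nontrivial_iff_ne_bot.mpr fun h => hv0 (by rw [h] at hvE; exact hvE)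
    obtain ⟨μ, hμ⟩ := Module.End.exists_eigenvalue ((apK o.D).restrict (stab hDM hfix.1))
    obtain ⟨⟨u, huE⟩, hu⟩ := hμ.exists_hasEigenvector
    have hu0 : u ≠ 0 := fun h => hu.2 (Subtype.ext h)
    have hDu : apK o.D u = μ • u := congrArg Subtype.val hu.apply_eq_smul
    set w := algebraMap F (AlgebraicClosure F) o.w with hw
    have hD : ∀ x, apK o.D x = ![x 0, w * x 1, w ^ 2 * x 2] := fun x => by
      funext i
      rw [apK, Omega.D_val, Matrix.toLin'_apply]
      fin_cases i <;> simp [Omega.Dmat, mulVec, dotProduct, Fin.sum_univ_three, hw]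
    have hP : ∀ x, apK o.P x = ![x 2, x 0, x 1] := fun x => by
      funext i
      rw [apK, Omega.P_val, Matrix.toLin'_apply]
      fin_cases i <;> simp [Omega.Pmat, mulVec, dotProduct, Fin.sum_univ_three]
    rw [hD] at hDu
    have d0 := congrFun hDu 0
    have d1 := congrFun hDu 1
    have d2 := congrFun hDu 2
    simp at d0 d1 d2
    have w1 : w ≠ 1 := by
      rw [hw, ← map_one (algebraMap F (AlgebraicClosure F))]
      exact fun h => o.ne_one ((algebraMap F (AlgebraicClosure F)).injective h)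
    have w2 : w ^ 2 ≠ 1 := by
      rw [hw, ← map_pow, ← map_one (algebraMap F (AlgebraicClosure F))]
      exact fun h => o.sq_ne_one ((algebraMap F (AlgebraicClosure F)).injective h)
    have w3 : w ^ 2 ≠ w := by
      rw [hw, ← map_pow]
      exact fun h => o.sq_ne ((algebraMap F (AlgebraicClosure F)).injective h)
    obtain ⟨i, t, ht, hui⟩ : ∃ (i : Fin 3) (t : (AlgebraicClosure F)), t ≠ 0 ∧ u = t • Pi.single i 1 := by
      by_cases h0 : u 0 = 0
      · by_cases h1 : u 1 = 0
        · refine ⟨2, u 2, fun h => hu0 ?_, ?_⟩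
          · funext j; fin_cases j <;> simp [h0, h1, h]
          · funext j; fin_cases j <;> simp [h0, h1]
        · have hμ' : μ = w := (d1.resolve_right h1).symm
          subst hμ'
          have h2 : u 2 = 0 := d2.resolve_left w3
          exact ⟨1, u 1, h1, by funext j; fin_cases j <;> simp [h0, h2]⟩
      · have hμ' : μ = 1 := mul_right_cancel₀ h0 (d0.symm.trans (one_mul _).symm)
        subst hμ'
        have h1 : u 1 = 0 := d1.resolve_left w1
        have h2 : u 2 = 0 := d2.resolve_left w2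
        exact ⟨0, u 0, h0, by funext j; fin_cases j <;> simp [h1, h2]⟩
    have he : (Pi.single i 1 : Fin 3 → (AlgebraicClosure F)) ∈ E := by
      have := E.smul_mem t⁻¹ huE
      rwa [hui, smul_smul, inv_mul_cancel₀ ht, one_smul] at this
    have hall : ∀ j : Fin 3, (Pi.single j 1 : Fin 3 → (AlgebraicClosure F)) ∈ E := by
      intro j
      have h1 : (Pi.single (i + 1) 1 : Fin 3 → (AlgebraicClosure F)) ∈ E := by
        have h := stab hPM hfix.2 _ he
        rw [hP] at h
        convert h using 1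
        funext k; fin_cases i <;> fin_cases k <;> simp
      have h2 : (Pi.single (i + 2) 1 : Fin 3 → (AlgebraicClosure F)) ∈ E := by
        have h := stab hPM hfix.2 _ h1
        rw [hP] at h
        convert h using 1
        funext k; fin_cases i <;> fin_cases k <;> simp
      fin_cases i <;> fin_cases j <;> first | exact he | exact h1 | exact h2
    intro x
    have hx : x ∈ E := by
      rw [show x = x 0 • Pi.single 0 1 + x 1 • Pi.single 1 1 + x 2 • Pi.single 2 1 by
        funext j; fin_cases j <;> simp]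
      exact E.add_mem (E.add_mem (E.smul_mem _ (hall 0)) (E.smul_mem _ (hall 1))) (E.smul_mem _ (hall 2))
    exact (hmemE x).mp hx a ha
  · -- three weight spaces permuted by `M`
    exfalso
    obtain ⟨r, hr, hr3, a₁, ha₁, hne₁⟩ : ∃ r ∈ M, r ^ 3 = 1 ∧ ∃ a ∈ A, χ' r a ≠ χ' 1 a := by
      rw [not_and_or] at hfix
      push Not at hfix
      rcases hfix with ⟨a, ha, h⟩ | ⟨a, ha, h⟩
      · exact ⟨o.D, hDM, o.D_cube, a, ha, h⟩
      · exact ⟨o.P, hPM, o.P_cube, a, ha, h⟩
    let f : Fin 3 → (Fin 3 → AlgebraicClosure F) := fun i => apK (r ^ (i : ℕ)) v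
    let ψ : Fin 3 → GL (Fin 3) F → AlgebraicClosure F := fun i => χ' (r ^ (i : ℕ))
    have hf : ∀ i, ∀ a ∈ A, apK a (f i) = ψ i a • f i := fun i a ha =>
      htr _ (M.pow_mem hr _) a ha
    have hconj : ∀ g ∈ M, ∀ a ∈ A, χ' (r * g) a = χ' g (r⁻¹ * a * r) := by
      intro g hg a ha
      simp only [χ', show (r * g)⁻¹ * a * (r * g) = g⁻¹ * (r⁻¹ * a * r) * g by group]
    -- distinctness
    have hshift : ∀ i j : ℕ, (∀ a ∈ A, χ' (r ^ i) a = χ' (r ^ j) a) →
        ∀ a ∈ A, χ' (r ^ (i + 1)) a = χ' (r ^ (j + 1)) a := by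
      intro i j h a ha
      rw [pow_succ', pow_succ', hconj _ (M.pow_mem hr i) a ha, hconj _ (M.pow_mem hr j) a ha]
      exact h _ (by simpa using hnorm r⁻¹ (M.inv_mem hr) a ha)
    have h3 : r ^ (2 + 1) = 1 := hr3
    have hd01 : ¬ ∀ a ∈ A, χ' (r ^ 1) a = χ' (r ^ 0) a := fun h => hne₁ (by
      simpa using h a₁ ha₁)
    have hd02 : ¬ ∀ a ∈ A, χ' (r ^ 2) a = χ' (r ^ 0) a := fun h => hd01 (fun a ha => by
      have := hshift 2 0 h a ha
      rw [h3] at this
      simpa using this.symm)
    have hd12 : ¬ ∀ a ∈ A, χ' (r ^ 2) a = χ' (r ^ 1) a := fun h => hd02 (fun a ha => by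
      have := hshift 2 1 h a ha
      rw [h3] at this
      simpa using this.symm)
    have hdist : ∀ i j : Fin 3, i ≠ j → ∃ a ∈ A, ψ i a ≠ ψ j a := by
      intro i j hij
      by_contra hcon
      push Not at hcon
      have base : ∀ m n : ℕ, m < 3 → n < m → ¬ ∀ a ∈ A, χ' (r ^ m) a = χ' (r ^ n) a := by
        intro m n hm hn
        rcases (show (m = 1 ∧ n = 0) ∨ (m = 2 ∧ n = 0) ∨ (m = 2 ∧ n = 1) by omega) with
          ⟨rfl, rfl⟩ | ⟨rfl, rfl⟩ | ⟨rfl, rfl⟩
        · exact hd01
        · exact hd02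
        · exact hd12
      rcases Nat.lt_trichotomy (i : ℕ) (j : ℕ) with h | h | h
      · exact base j i j.2 h (fun a ha => (hcon a ha).symm)
      · exact hij (Fin.ext h)
      · exact base i j i.2 h hcon
    have hfne : ∀ i, f i ≠ 0 := fun i => hne _
    have hli : LinearIndependent (AlgebraicClosure F) f := by
      rw [Fintype.linearIndependent_iff]
      intro c hc i
      rw [Fin.sum_univ_three] at hc
      have key : ∀ a ∈ A, ∀ b ∈ A, ∀ p q : AlgebraicClosure F,
          ((ψ 0 a - p) * (ψ 0 b - q) * c 0) • f 0 + ((ψ 1 a - p) * (ψ 1 b - q) * c 1) • f 1 +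
            ((ψ 2 a - p) * (ψ 2 b - q) * c 2) • f 2 = 0 := by
        intro a ha b hb p q
        have e := congrArg (fun x => apK a (apK b x - q • x) - p • (apK b x - q • x)) hc
        simp only [map_add, map_smul, map_sub, hf _ a ha, hf _ b hb, map_zero, smul_zero, sub_zero] at e
        linear_combination (norm := module) e
      obtain ⟨a, ha, hda⟩ := hdist i (i + 1) (by fin_cases i <;> decide)
      obtain ⟨b, hb, hdb⟩ := hdist i (i + 2) (by fin_cases i <;> decide)
      have e := key a ha b hb (ψ (i + 1) a) (ψ (i + 2) b)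
      rw [← Fin.sum_univ_three (fun j => ((ψ j a - ψ (i + 1) a) * (ψ j b - ψ (i + 2) b) * c j) • f j),
        Finset.sum_eq_single i (fun j _ hj => by
          rcases (show ∀ i j : Fin 3, j ≠ i → j = i + 1 ∨ j = i + 2 by decide) i j hj with rfl | rfl <;>
            rw [sub_self] <;> simp) (by simp), smul_eq_zero] at e
      rcases e with e | e
      · rcases mul_eq_zero.mp e with e | e
        · rcases mul_eq_zero.mp e with e | e
          · exact absurd (sub_eq_zero.mp e) hda
          · exact absurd (sub_eq_zero.mp e) hdb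
        · exact e
      · exact absurd e (hfne i)
    have htop := hli.span_eq_top_of_card_eq_finrank (by rw [Fintype.card_fin, Module.finrank_fin_fun])
    -- weight vectors lie on the lines
    have hline : ∀ g ∈ M, ∀ i, ∃ j, ∃ t : AlgebraicClosure F, t ≠ 0 ∧ apK g (f i) = t • f j := by
      intro g hg i
      set x := apK g (f i) with hx
      obtain ⟨c, hc⟩ : ∃ c : Fin 3 → AlgebraicClosure F, ∑ j, c j • f j = x :=
        (Submodule.mem_span_range_iff_exists_fun _).mp (htop ▸ Submodule.mem_top)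
      have hxw : ∀ a ∈ A, apK a x = χ' (g * r ^ (i : ℕ)) a • x := by
        intro a ha
        rw [hx, show apK g (f i) = apK (g * r ^ (i : ℕ)) v from (apK_mul_apply _ _ _).symm]
        exact htr _ (M.mul_mem hg (M.pow_mem hr _)) a ha
      have hcoef : ∀ a ∈ A, ∀ j, c j * (ψ j a - χ' (g * r ^ (i : ℕ)) a) = 0 := by
        intro a ha
        have e := hxw a ha
        rw [← hc, map_sum, Finset.smul_sum] at e
        simp only [map_smul, hf _ a ha] at e
        have e2 : ∑ j, (c j * (ψ j a - χ' (g * r ^ (i : ℕ)) a)) • f j = 0 := by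
          rw [← sub_eq_zero, ← Finset.sum_sub_distrib] at e
          rw [← e]
          refine Finset.sum_congr rfl fun j _ => ?_
          module
        exact Fintype.linearIndependent_iff.mp hli _ e2
      have hx0 : x ≠ 0 := fun h => hfne i (apK_injective g (h.trans (map_zero _).symm))
      obtain ⟨j, hj⟩ : ∃ j, c j ≠ 0 := by
        by_contra hcon
        push Not at hcon
        exact hx0 (by simp [← hc, hcon])
      refine ⟨j, c j, hj, ?_⟩
      rw [← hc]
      refine Finset.sum_eq_single j (fun k _ hk => ?_) (by simp)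
      obtain ⟨a, ha, hd⟩ := hdist k j hk
      by_cases hck : c k = 0
      · simp [hck]
      · have h1 := (mul_eq_zero.mp (hcoef a ha k)).resolve_left hck
        have h2 := (mul_eq_zero.mp (hcoef a ha j)).resolve_left hj
        exact absurd ((sub_eq_zero.mp h1).trans (sub_eq_zero.mp h2).symm) hd
    choose σ t ht0 htσ using hline
    have huniq : ∀ {j j' : Fin 3} {s s' : AlgebraicClosure F}, s ≠ 0 → s • f j = s' • f j' → j = j' := by
      intro j j' s s' hs h
      by_contra hjj
      have := Fintype.linearIndependent_iff.mp hli (Pi.single j s - Pi.single j' s') (by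
        simp only [Pi.sub_apply, sub_smul, Finset.sum_sub_distrib, Pi.single_apply, ite_smul,
          zero_smul, Finset.sum_ite_eq', Finset.mem_univ, if_true, h, sub_self]) j
      simp [hjj, hs] at this
    let r9 : Fin 3 × Fin 3 → GL (Fin 3) F := fun x => o.nf 0 x.1 x.2
    have hr9 : ∀ x, r9 x ∈ M := fun x => le_sup_left (a := o.R) ⟨_, _, _, rfl⟩
    let σ' : Fin 3 × Fin 3 → {s : Fin 3 → Fin 3 // Function.Injective s} := fun x =>
      ⟨σ (r9 x) (hr9 x), fun i i' h => by
        have e1 := htσ (r9 x) (hr9 x) i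
        have e2 := htσ (r9 x) (hr9 x) i'
        rw [← h] at e2
        have e3 : t (r9 x) (hr9 x) i' • f i = t (r9 x) (hr9 x) i • f i' := by
          apply apK_injective (r9 x)
          rw [map_smul, map_smul, e1, e2, smul_comm]
        exact huniq (ht0 _ _ _) e3⟩
    obtain ⟨x, y, hxy, hσ⟩ := Fintype.exists_ne_map_eq_of_card_lt σ' (by decide)
    set r0 := (r9 x)⁻¹ * r9 y with hr0
    have hr0R : r0 ∈ o.R := o.R.mul_mem (o.R.inv_mem ⟨_, _, _, rfl⟩) ⟨_, _, _, rfl⟩
    have hr0fix : ∀ i, ∃ s : AlgebraicClosure F, apK r0 (f i) = s • f i := by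
      intro i
      have e1 := htσ (r9 x) (hr9 x) i
      have e2 := htσ (r9 y) (hr9 y) i
      have : σ (r9 y) (hr9 y) i = σ (r9 x) (hr9 x) i :=
        (congrFun (congrArg Subtype.val hσ) i).symm
      rw [this] at e2
      refine ⟨t (r9 y) (hr9 y) i * (t (r9 x) (hr9 x) i)⁻¹, ?_⟩
      apply apK_injective (r9 x)
      rw [hr0, ← apK_mul_apply, mul_inv_cancel_left, e2, map_smul, e1, smul_smul, mul_assoc,
        inv_mul_cancel₀ (ht0 _ _ _), mul_one]
    have hW : o.W0 ∈ M := le_sup_right (b := Subgroup.zpowers o.W0) (Subgroup.mem_zpowers _)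
    have hfix1 : ∀ i, ∃ s : AlgebraicClosure F, apK (o.W0 * r0 * o.W0⁻¹) (f i) = s • f i := by
      intro i
      have e1 := htσ o.W0⁻¹ (M.inv_mem hW) i
      obtain ⟨s, hs⟩ := hr0fix (σ o.W0⁻¹ (M.inv_mem hW) i)
      refine ⟨s, ?_⟩
      apply apK_injective o.W0⁻¹
      rw [← apK_mul_apply, show o.W0⁻¹ * (o.W0 * r0 * o.W0⁻¹) = r0 * o.W0⁻¹ by group, apK_mul_apply,
        e1, map_smul, hs, map_smul, e1, smul_comm]
    rcases hnc r0 hr0R with hsc | hc
    · -- a scalar: the two elements agree
      apply hxy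
      set c := (r0 : Matrix (Fin 3) (Fin 3) F) 0 0
      have h1 : r9 y = r9 x * r0 := by rw [hr0, mul_inv_cancel_left]
      obtain ⟨a, b, e, he⟩ := hr0R
      have h0 := hsc (Pi.single 0 1)
      rw [he, o.nf_mod, o.ap_nf] at h0
      have he0 : e % 3 = 0 := by
        rcases (show e % 3 = 0 ∨ e % 3 = 1 ∨ e % 3 = 2 by omega) with q | q | q
        · exact q
        · have := congrFun h0 1
          rw [q] at this; simp [o.ne_zero, o.ap_P] at this
        · have := congrFun h0 2
          rw [q] at this; simp [o.ne_zero, o.ap_P, pow_two, ap_mul] at this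
      have hb0 : b % 3 = 0 := by
        have f0 := congrFun (hsc (Pi.single 0 1)) 0
        have f1 := congrFun (hsc (Pi.single 1 1)) 1
        rw [he, o.nf_congr (a' := a) (b' := b) (c' := 0) rfl rfl (by omega), o.dg_nf a b] at f0 f1
        simp at f0 f1
        have h := f1.trans f0.symm
        rw [pow_add] at h
        exact o.w_pow_eq_one (mul_left_cancel₀ (pow_ne_zero a o.ne_zero) (h.trans (mul_one _).symm))
      rw [he] at h1
      simp only [r9, o.nf_mul] at h1
      obtain ⟨-, g2, g3⟩ := o.nf_inj h1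
      have := x.1.2; have := x.2.2; have := y.1.2; have := y.2.2
      exact Prod.ext (Fin.ext (by omega)) (Fin.ext (by omega))
    · apply hc
      clear_value r0
      apply eq_of_apK
      refine LinearMap.ext_on_range htop fun i => ?_
      obtain ⟨s, hs⟩ := hr0fix i
      obtain ⟨s', hs'⟩ := hfix1 i
      generalize o.W0 * r0 * o.W0⁻¹ = r1 at hs' ⊢
      rw [apK_mul_apply, apK_mul_apply, hs, hs', map_smul, map_smul, hs, hs', smul_comm]

end CfsgLib.Geometric.SLThree
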