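import Cfsg.Agent.Lib.Geometric.SLThree.NoNeighbour
import Cfsg.Agent.Lib.Geometric.SLThree.NormalAbelian
import Cfsg.Agent.Lib.Involutions.BrauerSuzuki
import Cfsg.Agent.S0205

/-!
An overgroup of the frame without transvections normalises the extraspecial group.
-/

set_option autoImplicit false
set_option linter.unusedSectionVars false
set_option linter.style.haveILetI false

namespace CfsgLib.Geometric.SLThree

open Matrix MulAction

variable {F : Type*} [Field F] [Finite F]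

namespace C6Hyp

variable {o : Omega F} {H : Subgroup (GL (Fin 3) F)} (hH : C6Hyp o H)
include hH

lemma scalar_mem_Zc {g : GL (Fin 3) F} (hg : g ∈ H)
    (h : ∀ x, ap g x = (g : Matrix (Fin 3) (Fin 3) F) 0 0 • x) : g ∈ o.Zc := by
  set c := (g : Matrix (Fin 3) (Fin 3) F) 0 0
  have hd : IsDg g c c c := fun x => by rw [h]; funext i; fin_cases i <;> simp
  have hdet := hd.det.symm.trans (hH.det_eq_one hg)
  obtain ⟨a, b, e, he⟩ := o.dg_mem_R hd (by linear_combination hdet) (by linear_combination hdet) hdet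
  have he0 : e % 3 = 0 := by
    have h0 := h (Pi.single 0 1)
    rw [he, o.nf_mod, o.ap_nf] at h0
    rcases (show e % 3 = 0 ∨ e % 3 = 1 ∨ e % 3 = 2 by omega) with q | q | q
    · exact q
    · have := congrFun h0 1
      rw [q] at this; simp [o.ne_zero, o.ap_P] at this
    · have := congrFun h0 2
      rw [q] at this; simp [o.ne_zero, o.ap_P, pow_two, ap_mul] at this
  have hb0 : b % 3 = 0 := by
    have f0 := congrFun (h (Pi.single 0 1)) 0
    have f1 := congrFun (h (Pi.single 1 1)) 1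
    rw [he, o.nf_congr (a' := a) (b' := b) (c' := 0) rfl rfl (by omega), o.dg_nf a b] at f0 f1
    simp at f0 f1
    have h' := f1.trans f0.symm
    rw [pow_add] at h'
    exact o.w_pow_eq_one (mul_left_cancel₀ (pow_ne_zero a o.ne_zero) (h'.trans (mul_one _).symm))
  rw [he]
  exact o.nf_mem_Zc_iff.mpr ⟨hb0, he0⟩

/-- An element fixing every element of `R` modulo scalars lies in `R`. -/
lemma cc_R {g : GL (Fin 3) F} (hg : g ∈ H) {i j : ℕ} (hD : g * o.D * g⁻¹ = o.Z ^ i * o.D)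
    (hP : g * o.P * g⁻¹ = o.Z ^ j * o.P) : g ∈ o.R := by
  obtain ⟨a, b, c, hd⟩ := o.exists_monomial hD
  set d := g * o.P ^ i with hdef
  have hdP : d * o.P = o.Z ^ j * o.P * d := by
    rw [hdef, mul_assoc, (Commute.pow_self o.P i).eq, ← mul_assoc, ← hP]
    group
  obtain ⟨ha, hb, hc⟩ := hd.ne_zero
  have habc : a * b * c = 1 :=
    hd.det.symm.trans (hH.det_eq_one (mul_mem hg (pow_mem hH.P_mem i)))
  have key := fun x => congrArg (fun u => ap u x) hdP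
  simp only [ap_mul, o.Z_dg.pow j _, hd _, o.ap_P] at key
  have h1 := congrFun (key (Pi.single 0 1)) 1
  have h2 := congrFun (key (Pi.single 1 1)) 2
  simp at h1 h2
  have ha3 : a ^ 3 = 1 := by
    have hw : o.w ^ j * (o.w ^ j * o.w ^ j) = 1 := by
      rw [← pow_add, ← pow_add, show j + (j + j) = 3 * j by ring, pow_mul, o.cube, one_pow]
    rw [h2, h1] at habc
    linear_combination habc - (a * a * a) * hw
  have hb3 : b ^ 3 = 1 := by
    rw [h1, mul_pow, ha3, mul_one, ← pow_mul, mul_comm, pow_mul, o.cube, one_pow]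
  have hdR := o.dg_mem_R hd ha3 hb3 habc
  rw [show g = d * (o.P ^ i)⁻¹ by rw [hdef, mul_inv_cancel_right]]
  exact mul_mem hdR (inv_mem (pow_mem o.P_mem i))

omit hH in
lemma noncomm_W0 {r : GL (Fin 3) F} (hr : r ∈ o.R) (hrZ : r ∉ o.Zc) :
    r * (o.W0 * r * o.W0⁻¹) ≠ (o.W0 * r * o.W0⁻¹) * r := by
  obtain ⟨a, b, c, rfl⟩ := hr
  have hD : o.W0 * o.D * o.W0⁻¹ = o.nf 0 0 2 := by
    rw [o.W0_D, mul_inv_cancel_right]; simp [Omega.nf, pow_two]
  have hP : o.W0 * o.P * o.W0⁻¹ = o.nf 0 1 0 := by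
    rw [o.W0_P, mul_inv_cancel_right]; simp [Omega.nf]
  have hW : o.W0 * o.nf a b c * o.W0⁻¹ = o.nf (a + 4 * b * c) c (2 * b) := by
    rw [Omega.nf, show o.W0 * (o.Z ^ a * o.D ^ b * o.P ^ c) * o.W0⁻¹ =
      (o.W0 * o.Z ^ a) * o.D ^ b * (o.P ^ c * o.W0⁻¹) by group, o.Z_pow_comm,
      show o.Z ^ a * o.W0 * o.D ^ b * (o.P ^ c * o.W0⁻¹) =
      o.Z ^ a * (o.W0 * o.D ^ b * o.W0⁻¹) * (o.W0 * o.P ^ c * o.W0⁻¹) by group,
      ← conj_pow, ← conj_pow, o.W0_D, o.W0_P, mul_inv_cancel_right, mul_inv_cancel_right]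
    rw [show (o.P * o.P) ^ b = o.P ^ (2 * b) by rw [← pow_two, ← pow_mul], mul_assoc,
      o.P_pow_D_pow, ← mul_assoc, ← mul_assoc, ← pow_add, show 2 * (2 * b) * c = 4 * b * c by ring]
    rfl
  rw [hW, o.nf_mul, o.nf_mul]
  intro h
  obtain ⟨e, -, -⟩ := o.nf_inj h
  apply hrZ
  rw [o.nf_mem_Zc_iff]
  have e' : (2 * c * c) % 3 = (2 * (2 * b) * b) % 3 := by omega
  have hb := Nat.mod_lt b (show 0 < 3 by norm_num)
  have hc := Nat.mod_lt c (show 0 < 3 by norm_num)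
  simp only [Nat.mul_mod, Nat.mod_mod] at e'
  generalize b % 3 = b' at e' hb ⊢
  generalize c % 3 = c' at e' hc ⊢
  interval_cases b' <;> interval_cases c' <;> simp_all

omit hH in
lemma conj_pow_shift {x y : GL (Fin 3) F} {i : ℕ} (h : x * y * x⁻¹ = o.Z ^ i * y) :
    ∀ m : ℕ, x ^ m * y * (x ^ m)⁻¹ = o.Z ^ (m * i) * y := by
  intro m
  induction m with
  | zero => simp
  | succ m ih =>
    rw [pow_succ', _root_.mul_inv_rev,
      show x * x ^ m * y * ((x ^ m)⁻¹ * x⁻¹) = x * (x ^ m * y * (x ^ m)⁻¹) * x⁻¹ by group, ih,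
      ← mul_assoc x, o.Z_pow_comm, mul_assoc, mul_assoc, ← mul_assoc x y, h, ← mul_assoc, ← pow_add,
      Nat.succ_mul]

/-- An element commuting modulo scalars with a non-commuting pair lies in their group. -/
lemma pair_dec {a b c : GL (Fin 3) F} (haH : a ∈ H) (hbH : b ∈ H) (hcH : c ∈ H) {k : ℕ}
    (hk3 : k % 3 ≠ 0) (habZ : a * b = o.Z ^ k * (b * a)) {i j : ℕ}
    (hi : c * a * c⁻¹ = o.Z ^ i * a) (hj : c * b * c⁻¹ = o.Z ^ j * b) :
    ∃ l m n' : Fin 3, c = (a ^ (m : ℕ) * b ^ (n' : ℕ))⁻¹ * o.Z ^ (l : ℕ) := by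
  have sh := @conj_pow_shift F _ _ o
  have haab : a * b * a⁻¹ = o.Z ^ k * b := by rw [habZ]; group
  have hbba : b * a * b⁻¹ = o.Z ^ (2 * k) * a := by
    rw [mul_inv_eq_iff_eq_mul, mul_assoc, habZ, ← mul_assoc, ← pow_add,
      show 2 * k + k = 3 * k by ring, pow_mul, o.Z_cube, one_pow, one_mul]
  have hkk : k * k % 3 = 1 := by
    rcases (show k % 3 = 1 ∨ k % 3 = 2 by omega) with e | e <;> rw [Nat.mul_mod, e]
  have hpowcube : ∀ e : ℕ, e % 3 = 0 → o.Z ^ e = 1 := fun e he => by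
    rw [pow_eq_pow_mod e o.Z_cube, he, pow_zero]
  set m : Fin 3 := ⟨2 * j * k % 3, Nat.mod_lt _ (by norm_num)⟩ with hm
  set n' : Fin 3 := ⟨i * k % 3, Nat.mod_lt _ (by norm_num)⟩ with hn'
  set c' := a ^ (m : ℕ) * b ^ (n' : ℕ) * c with hc'
  have hc'H : c' ∈ H := mul_mem (mul_mem (pow_mem haH _) (pow_mem hbH _)) hcH
  have move : ∀ {y : GL (Fin 3) F} {p q r : ℕ},
      a ^ (m : ℕ) * y * (a ^ (m : ℕ))⁻¹ = o.Z ^ p * y →
      b ^ (n' : ℕ) * y * (b ^ (n' : ℕ))⁻¹ = o.Z ^ q * y → c * y * c⁻¹ = o.Z ^ r * y →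
      c' * y * c'⁻¹ = o.Z ^ (r + q + p) * y := by
    intro y p q r h1 h2 h3
    rw [hc', show a ^ (m : ℕ) * b ^ (n' : ℕ) * c * y * (a ^ (m : ℕ) * b ^ (n' : ℕ) * c)⁻¹ =
        a ^ (m : ℕ) * (b ^ (n' : ℕ) * (c * y * c⁻¹) * (b ^ (n' : ℕ))⁻¹) * (a ^ (m : ℕ))⁻¹ by group, h3,
      ← mul_assoc (b ^ (n' : ℕ)), o.Z_pow_comm, mul_assoc (o.Z ^ r), mul_assoc (o.Z ^ r), h2,
      ← mul_assoc (o.Z ^ r), ← pow_add, ← mul_assoc (a ^ (m : ℕ)), o.Z_pow_comm,
      mul_assoc (o.Z ^ (r + q)), mul_assoc (o.Z ^ (r + q)), h1, ← mul_assoc, ← pow_add]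
  have hca : c' * a = a * c' := by
    have h := move (y := a) (p := (m : ℕ) * 0) (q := (n' : ℕ) * (2 * k)) (r := i)
      (sh (by rw [pow_zero, one_mul, mul_inv_cancel_right]) _) (sh hbba _) hi
    rw [hpowcube _ ?_, one_mul] at h
    · exact mul_inv_eq_iff_eq_mul.mp h
    · simp only [hn']
      have e1 : (i * (k * k)) % 3 = i % 3 := by rw [Nat.mul_mod, hkk]; simp
      have e2 : (i * k % 3 * (2 * k)) % 3 = (2 * (i * (k * k))) % 3 := by
        rw [Nat.mul_mod, Nat.mod_mod, ← Nat.mul_mod]; ring_nf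
      omega
  have hcb : c' * b = b * c' := by
    have h := move (y := b) (p := (m : ℕ) * k) (q := (n' : ℕ) * 0) (r := j)
      (sh haab _) (sh (by rw [pow_zero, one_mul, mul_inv_cancel_right]) _) hj
    rw [hpowcube _ ?_, one_mul] at h
    · exact mul_inv_eq_iff_eq_mul.mp h
    · simp only [hm]
      have e1 : (j * (k * k)) % 3 = j % 3 := by rw [Nat.mul_mod, hkk]; simp
      have e2 : (2 * j * k % 3 * k) % 3 = (2 * (j * (k * k))) % 3 := by
        rw [Nat.mul_mod, Nat.mod_mod, ← Nat.mul_mod]; ring_nf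
      omega
  have hz := hH.scalar_mem_Zc hc'H (scalar_of_comm_pair hk3 habZ hca hcb)
  obtain ⟨l, hl⟩ := o.mem_Zc_iff.mp hz
  refine ⟨⟨l % 3, Nat.mod_lt _ (by norm_num)⟩, m, n', ?_⟩
  show c = _ * o.Z ^ (l % 3)
  rw [← pow_eq_pow_mod l o.Z_cube, ← hl, hc']
  group

/-- The derived series of an odd normal subgroup gives a normal subgroup, non-central and
commutative modulo scalars. -/
theorem exists_commutative {M : Subgroup H} (hM : M.Normal) (hodd : Odd (Nat.card M))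
    (hD : (⟨o.D, hH.D_mem⟩ : H) ∈ M) :
    ∃ A : Subgroup (GL (Fin 3) F), A ≤ H ∧ (∀ g ∈ H, ∀ x ∈ A, g * x * g⁻¹ ∈ A) ∧
      (∀ a ∈ A, ∀ b ∈ A, a * b * a⁻¹ * b⁻¹ ∈ o.Zc) ∧ ¬ A ≤ o.Zc := by
  classical
  haveI := hM
  haveI := Cfsg.Agent.S0205.result (G := M) hodd
  let S : ℕ → Subgroup (GL (Fin 3) F) := fun n => ((derivedSeries M n).map M.subtype).map H.subtype
  have hmemS : ∀ {n} {x : GL (Fin 3) F}, x ∈ S n →
      ∃ m ∈ derivedSeries M n, ((m : H) : GL (Fin 3) F) = x := by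
    intro n x hx
    obtain ⟨_, ⟨m, hm, rfl⟩, rfl⟩ := hx
    exact ⟨m, hm, rfl⟩
  have hSH : ∀ n, S n ≤ H := fun n x hx => by
    obtain ⟨m, -, rfl⟩ := hmemS hx
    exact (m : H).2
  have hSnorm : ∀ n, ∀ g ∈ H, ∀ x ∈ S n, g * x * g⁻¹ ∈ S n := by
    intro n g hg x hx
    obtain ⟨x', hx', rfl⟩ := hx
    have hN : ((derivedSeries M n).map M.subtype).Normal :=
      @ConjAct.normal_of_characteristic_of_normal H _ M hM _ (derivedSeries_characteristic M n)
    refine ⟨_, hN.conj_mem x' hx' ⟨g, hg⟩, ?_⟩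
    simp only [map_mul, map_inv, Subgroup.subtype_apply]
  have hex : ∃ n, S n ≤ o.Zc := by
    obtain ⟨n, hn⟩ := (Group.isSolvable_def M).mp inferInstance
    exact ⟨n, by simp [S, hn]⟩
  have hDM : o.D ∈ S 0 :=
    ⟨⟨o.D, hH.D_mem⟩, ⟨⟨_, hD⟩, by simp, rfl⟩, rfl⟩
  have hS0 : ¬ S 0 ≤ o.Zc := fun h => by
    have h' := h hDM
    rw [o.D_eq, o.nf_mem_Zc_iff] at h'
    norm_num at h'
  obtain ⟨n, hn, hn1⟩ : ∃ n, ¬ S n ≤ o.Zc ∧ S (n + 1) ≤ o.Zc := by
    have h0 : Nat.find hex ≠ 0 := fun h => hS0 (h ▸ Nat.find_spec hex)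
    obtain ⟨k, hk⟩ := Nat.exists_eq_succ_of_ne_zero h0
    exact ⟨k, Nat.find_min hex (by omega), by rw [← Nat.succ_eq_add_one, ← hk]; exact Nat.find_spec hex⟩
  refine ⟨S n, hSH n, hSnorm n, fun a ha b hb => ?_, hn⟩
  obtain ⟨x, hx, rfl⟩ := hmemS ha
  obtain ⟨y, hy, rfl⟩ := hmemS hb
  refine hn1 ⟨_, ⟨x * y * x⁻¹ * y⁻¹, ?_, rfl⟩, rfl⟩
  rw [derivedSeries_succ, ← commutatorElement_def]
  exact Subgroup.commutator_mem_commutator hx hy

/-- The case of a non-commuting pair. -/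
theorem le_normalizer_of_pair {A : Subgroup (GL (Fin 3) F)} (hAH : A ≤ H)
    (hAn : ∀ g ∈ H, ∀ x ∈ A, g * x * g⁻¹ ∈ A)
    (hcommA : ∀ a ∈ A, ∀ b ∈ A, a * b * a⁻¹ * b⁻¹ ∈ o.Zc) {a b : GL (Fin 3) F} (ha : a ∈ A)
    (hb : b ∈ A) (hne : a * b ≠ b * a) : H ≤ Cfsg.Geo.subgroupNormalizer o.R := by
  classical
  have sh := @conj_pow_shift F _ _ o
  obtain ⟨k, hk⟩ := o.mem_Zc_iff.mp (hcommA a ha b hb)
  have habZ : a * b = o.Z ^ k * (b * a) := by rw [← hk]; group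
  have hk3 : k % 3 ≠ 0 := fun h => hne (by
    rw [habZ, pow_eq_pow_mod k o.Z_cube, h, pow_zero, one_mul])
  have hconj : ∀ {x y : GL (Fin 3) F}, x ∈ A → y ∈ A → ∃ i, x * y * x⁻¹ = o.Z ^ i * y := by
    intro x y hx hy
    obtain ⟨i, hi⟩ := o.mem_Zc_iff.mp (hcommA x hx y hy)
    exact ⟨i, mul_inv_eq_iff_eq_mul.mp hi⟩
  have haab : a * b * a⁻¹ = o.Z ^ k * b := by rw [habZ]; group
  have hbba : b * a * b⁻¹ = o.Z ^ (2 * k) * a := by
    rw [mul_inv_eq_iff_eq_mul, mul_assoc, habZ, ← mul_assoc, ← pow_add,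
      show 2 * k + k = 3 * k by ring, pow_mul, o.Z_cube, one_pow, one_mul]
  have hkk : k * k % 3 = 1 := by
    rcases (show k % 3 = 1 ∨ k % 3 = 2 by omega) with e | e <;> rw [Nat.mul_mod, e]
  have hpowcube : ∀ e : ℕ, e % 3 = 0 → o.Z ^ e = 1 := fun e he => by
    rw [pow_eq_pow_mod e o.Z_cube, he, pow_zero]
  have hdec : ∀ c ∈ A, ∃ l m n' : Fin 3, c = (a ^ (m : ℕ) * b ^ (n' : ℕ))⁻¹ * o.Z ^ (l : ℕ) := by
    intro c hc
    obtain ⟨i, hi⟩ := hconj hc ha
    obtain ⟨j, hj⟩ := hconj hc hb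
    exact hH.pair_dec (hAH ha) (hAH hb) (hAH hc) hk3 habZ hi hj
  set S₀ := A ⊔ o.Zc with hS₀
  have hS₀card : Nat.card S₀ ≤ 27 := by
    have hmemA : ∀ l m n' : ℕ, (a ^ m * b ^ n')⁻¹ * o.Z ^ l ∈ S₀ := fun l m n' =>
      mul_mem (inv_mem (mul_mem (pow_mem (le_sup_left (a := A) ha) _) (pow_mem (le_sup_left (a := A) hb) _)))
        (le_sup_right (b := o.Zc) (pow_mem (Subgroup.mem_zpowers _) _))
    let f : Fin 3 × Fin 3 × Fin 3 → S₀ := fun x => ⟨_, hmemA x.1 x.2.1 x.2.2⟩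
    have hf : Function.Surjective f := by
      rintro ⟨x, hx⟩
      obtain ⟨c, hc, z, hz, rfl⟩ := Subgroup.mem_sup_of_normal_right.mp hx
      obtain ⟨l, m, n', e⟩ := hdec c hc
      obtain ⟨l', hl'⟩ := o.mem_Zc_iff.mp hz
      refine ⟨(⟨((l : ℕ) + l') % 3, Nat.mod_lt _ (by norm_num)⟩, m, n'), Subtype.ext ?_⟩
      show _ * o.Z ^ (((l : ℕ) + l') % 3) = c * z
      rw [← pow_eq_pow_mod _ o.Z_cube, pow_add, ← mul_assoc, ← e, hl']
    have := Nat.card_le_card_of_surjective f hf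
    simpa using this
  -- a fixed class of `R` on `A` modulo scalars
  haveI : Fact (Nat.Prime 3) := ⟨Nat.prime_three⟩
  set π := QuotientGroup.mk' o.Zc with hπ
  set V := A.map π with hV
  have hmove : ∀ r ∈ o.R, ∀ v ∈ V, π r * v * (π r)⁻¹ ∈ V := by
    rintro r hr _ ⟨x, hx, rfl⟩
    exact ⟨_, hAn r (hH.R_le hr) x hx, by rw [map_mul, map_mul, map_inv]⟩
  letI act : MulAction o.R V :=
    { smul := fun r v => ⟨π r * v * (π r)⁻¹, hmove r r.2 v v.2⟩
      one_smul := fun v => Subtype.ext (by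
        show π ((1 : o.R) : GL (Fin 3) F) * v * (π ((1 : o.R) : GL (Fin 3) F))⁻¹ = v
        rw [Subgroup.coe_one, map_one]; simp)
      mul_smul := fun r r' v => Subtype.ext (by
        show π ((r * r' : o.R) : GL (Fin 3) F) * v * (π ((r * r' : o.R) : GL (Fin 3) F))⁻¹ =
          π r * (π r' * v * (π r')⁻¹) * (π r)⁻¹
        rw [Subgroup.coe_mul, map_mul, _root_.mul_inv_rev]; simp only [mul_assoc]) }
  have hRp : IsPGroup 3 o.R := IsPGroup.of_card (n := 3) (by rw [o.card_R]; norm_num)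
  have haV : π a ∈ V := ⟨a, ha, rfl⟩
  have hdvd : 3 ∣ Nat.card V := by
    have ha3 : π a ^ 3 = 1 := by
      rw [← map_pow, hπ, QuotientGroup.mk'_apply, QuotientGroup.eq_one_iff]
      refine hH.scalar_mem_Zc (pow_mem (hAH ha) 3) (scalar_of_comm_pair hk3 habZ
        (Commute.pow_self a 3).eq ?_)
      have h := sh haab 3
      rw [hpowcube _ (by omega), one_mul] at h
      exact mul_inv_eq_iff_eq_mul.mp h
    have ha1 : π a ≠ 1 := fun h => by
      rw [hπ, QuotientGroup.mk'_apply, QuotientGroup.eq_one_iff] at h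
      obtain ⟨l, rfl⟩ := o.mem_Zc_iff.mp h
      exact hne (o.Z_pow_comm l b).symm
    exact (dvd_of_eq (orderOf_eq_prime ha3 ha1).symm).trans (Subgroup.orderOf_dvd_natCard V haV)
  have h1 : (1 : V) ∈ MulAction.fixedPoints o.R V := fun r => Subtype.ext (by
    show π r * 1 * (π r)⁻¹ = 1
    simp)
  obtain ⟨w, hw, hw1⟩ := hRp.exists_fixed_point_of_prime_dvd_card_of_fixed_point V hdvd h1
  obtain ⟨a0, ha0, hwa⟩ := w.2
  have ha0Z : a0 ∉ o.Zc := fun h => hw1 (Subtype.ext (by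
    rw [← hwa, hπ, QuotientGroup.mk'_apply, (QuotientGroup.eq_one_iff a0).mpr h]; rfl))
  have hfix : ∀ r ∈ o.R, ∃ i, a0 * r * a0⁻¹ = o.Z ^ i * r := by
    intro r hr
    have h2 := congrArg Subtype.val (hw ⟨r, hr⟩)
    change π r * (w : GL (Fin 3) F ⧸ o.Zc) * (π r)⁻¹ = w at h2
    rw [← hwa, ← map_inv, ← map_mul, ← map_mul] at h2
    obtain ⟨i, hi⟩ := o.mem_Zc_iff.mp (QuotientGroup.eq.mp h2)
    refine ⟨i, ?_⟩
    have h3 : a0 = r * a0 * r⁻¹ * o.Z ^ i := by rw [← hi, mul_inv_cancel_left]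
    calc a0 * r * a0⁻¹ = r * a0 * r⁻¹ * o.Z ^ i * r * a0⁻¹ := by rw [← h3]
      _ = r * a0 * (r⁻¹ * o.Z ^ i) * r * a0⁻¹ := by group
      _ = r * a0 * (o.Z ^ i * r⁻¹) * r * a0⁻¹ := by rw [o.Z_pow_comm]
      _ = r * (a0 * o.Z ^ i) * a0⁻¹ := by group
      _ = r * (o.Z ^ i * a0) * a0⁻¹ := by rw [o.Z_pow_comm]
      _ = r * o.Z ^ i := by group
      _ = o.Z ^ i * r := o.Z_pow_comm i r
  obtain ⟨i, hi⟩ := hfix _ o.D_mem
  obtain ⟨j, hj⟩ := hfix _ o.P_mem
  have ha0R := hH.cc_R (hAH ha0) hi hj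
  set a1 := o.W0 * a0 * o.W0⁻¹ with ha1
  have ha1R : a1 ∈ o.R := (Subgroup.mem_normalizer_iff.mp o.W0_norm a0).mp ha0R
  have hnc := noncomm_W0 ha0R ha0Z
  -- hence `R` lies in `A` times scalars
  set Q := S₀ ⊓ o.R with hQ
  have h0Q : a0 ∈ Q := ⟨le_sup_left (a := A) ha0, ha0R⟩
  have h1Q : a1 ∈ Q := ⟨le_sup_left (a := A) (hAn _ hH.W0_mem a0 ha0), ha1R⟩
  have hcardQ : Nat.card Q = 27 := by
    have hdvdQ : Nat.card Q ∣ 3 ^ 3 := by
      have := Subgroup.card_dvd_of_le (inf_le_right : Q ≤ o.R)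
      rwa [o.card_R] at this
    obtain ⟨e, he, hce⟩ := (Nat.dvd_prime_pow Nat.prime_three).mp hdvdQ
    have hnotcomm : ¬ ∀ x y : Q, x * y = y * x := fun h =>
      hnc (congrArg Subtype.val (h ⟨a0, h0Q⟩ ⟨a1, h1Q⟩))
    interval_cases e
    · exfalso
      haveI : Subsingleton Q := Finite.card_le_one_iff_subsingleton.mp (by rw [hce]; norm_num)
      exact hnotcomm fun x y => Subsingleton.elim _ _
    · exfalso
      haveI : IsCyclic Q := isCyclic_of_prime_card (p := 3) (by rw [hce]; norm_num)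
      exact hnotcomm fun x y => IsCyclic.commGroup.mul_comm x y
    · exfalso
      exact hnotcomm (IsPGroup.isMulCommutative_of_card_eq_prime_sq (p := 3) hce).is_comm.comm
    · rw [hce]; norm_num
  have hQR : Q = o.R := Subgroup.eq_of_le_of_card_ge inf_le_right (by rw [hcardQ, o.card_R])
  have hS₀R : S₀ = o.R :=
    (Subgroup.eq_of_le_of_card_ge (hQR ▸ (inf_le_left : Q ≤ S₀)) (by rw [o.card_R]; exact hS₀card)).symm
  intro g hg
  have hgR : ∀ x ∈ o.R, g * x * g⁻¹ ∈ o.R := by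
    intro x hx
    rw [← hS₀R] at hx ⊢
    obtain ⟨c, hc, z, hz, rfl⟩ := Subgroup.mem_sup_of_normal_right.mp hx
    rw [show g * (c * z) * g⁻¹ = (g * c * g⁻¹) * (g * z * g⁻¹) by group]
    exact mul_mem (le_sup_left (a := A) (hAn g hg c hc))
      (le_sup_right (b := o.Zc) (o.Zc_normal.conj_mem z hz g))
  exact o.mem_normalizer_of_gens (hgR _ o.D_mem) (hgR _ o.P_mem)

/-- A subgroup of odd order, normalised by `H` and containing the frame, forces normality. -/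
theorem le_normalizer_of_odd {M : Subgroup H} (hM : M.Normal) (hodd : Odd (Nat.card M))
    (hD : (⟨o.D, hH.D_mem⟩ : H) ∈ M) : H ≤ Cfsg.Geo.subgroupNormalizer o.R := by
  obtain ⟨A, hAH, hAn, hcommA, hn⟩ := hH.exists_commutative hM hodd hD
  by_cases hab : ∀ a ∈ A, ∀ b ∈ A, a * b = b * a
  · exfalso
    apply hn
    intro a ha
    refine hH.scalar_mem_Zc (hAH ha) (abelian_scalar (o := o) hab ?_ ?_ a ha)
    · intro g hg x hx
      exact hAn g ((sup_le hH.R_le (Subgroup.zpowers_le.mpr hH.W0_mem)) hg) x hx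
    · intro r hr
      by_cases hrZ : r ∈ o.Zc
      · left
        obtain ⟨k, rfl⟩ := o.mem_Zc_iff.mp hrZ
        intro x
        rw [o.Z_dg.pow k, show ((o.Z ^ k : GL (Fin 3) F) : Matrix (Fin 3) (Fin 3) F) 0 0 = o.w ^ k by
          have h := congrFun ((o.Z_dg.pow k) (Pi.single 0 1)) 0
          simpa [ap_def] using h]
        funext i; fin_cases i <;> simp
      · exact Or.inr (noncomm_W0 hr hrZ)
  push Not at hab
  obtain ⟨a, ha, b, hb, hne⟩ := hab
  exact hH.le_normalizer_of_pair hAH hAn hcommA ha hb hne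

/-- `H` normalises `R`. -/
theorem le_normalizer : H ≤ Cfsg.Geo.subgroupNormalizer o.R := by
  classical
  let tH : H := ⟨o.t, hH.t_mem⟩
  haveI : Fact (Nat.Prime 2) := ⟨Nat.prime_two⟩
  have ht2 : tH * tH = 1 := Subtype.ext o.t_sq
  have htne : tH ≠ 1 := fun h => o.t_isHom.ne_one o.two (congrArg Subtype.val h)
  have hord : orderOf tH = 2 := orderOf_eq_prime (by rw [pow_two, ht2]) htne
  obtain ⟨P, hP⟩ := (IsPGroup.of_card (n := 1) (p := 2) (G := Subgroup.zpowers tH)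
    (by rw [Nat.card_zpowers, hord]; rfl)).exists_le_sylow
  have htP : tH ∈ P := hP (Subgroup.mem_zpowers _)
  have hiso : ∀ g : H, g * tH * g⁻¹ ∈ P → g * tH * g⁻¹ = tH := by
    intro g hgP
    have key : ∀ y : H, (y * tH * y⁻¹) * tH = tH * (y * tH * y⁻¹) → y * tH * y⁻¹ = tH := by
      intro y hy
      exact Subtype.ext (hH.isolated y.2 (congrArg Subtype.val hy))
    by_contra hne
    set u := g * tH * g⁻¹ with hu
    have hu2 : u * u = 1 := by
      rw [hu, show g * tH * g⁻¹ * (g * tH * g⁻¹) = g * (tH * tH) * g⁻¹ by group, ht2, mul_one,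
        mul_inv_cancel]
    obtain ⟨m, hm⟩ := P.2 ⟨u * tH, P.mul_mem hgP htP⟩
    have hm' : (u * tH) ^ 2 ^ m = 1 := congrArg Subtype.val hm
    obtain ⟨e, -, he⟩ := (Nat.dvd_prime_pow Nat.prime_two).mp (orderOf_dvd_of_pow_eq_one hm')
    have hti : tH⁻¹ = tH := inv_eq_of_mul_eq_one_right ht2
    have hui : u⁻¹ = u := inv_eq_of_mul_eq_one_right hu2
    have he2 : 2 ≤ e := by
      by_contra hlt
      have h2 : (u * tH) ^ 2 = 1 := by
        refine orderOf_dvd_iff_pow_eq_one.mp ?_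
        rw [he]
        exact (pow_dvd_pow 2 (show e ≤ 1 by omega)).trans (by norm_num)
      apply hne
      refine key g ?_
      rw [pow_two] at h2
      have := mul_eq_one_iff_eq_inv.mp h2
      rwa [_root_.mul_inv_rev, hti, hui] at this
    set x := (u * tH) ^ 2 ^ (e - 2) with hx
    have hx4 : x * x * (x * x) = 1 := by
      rw [hx, ← pow_add, ← pow_add, ← two_mul, ← two_mul, ← mul_assoc,
        show 2 * 2 * 2 ^ (e - 2) = 2 ^ e by
          obtain ⟨f, rfl⟩ := Nat.exists_eq_add_of_le he2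
          rw [Nat.add_sub_cancel_left, pow_add]; ring,
        ← he, pow_orderOf_eq_one]
    have hxx : x * x ≠ 1 := by
      rw [hx, ← pow_add]
      refine pow_ne_one_of_lt_orderOf (by positivity) ?_
      rw [he]
      obtain ⟨f, rfl⟩ := Nat.exists_eq_add_of_le he2
      rw [Nat.add_sub_cancel_left, pow_add]
      have : 0 < 2 ^ f := by positivity
      omega
    have hinv : tH * x * tH⁻¹ = x⁻¹ := by
      rw [hx, ← conj_pow, ← inv_pow]
      congr 1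
      rw [_root_.mul_inv_rev, hti, hui, mul_assoc tH, mul_assoc u, ht2, mul_one]
    have hxt : x * tH * x⁻¹ = x * x * tH := by
      rw [← hinv, hti]
      simp only [mul_assoc]
      rw [← mul_assoc tH tH, ht2, one_mul]
    have hxxt : tH * (x * x) = x * x * tH := by
      have h' : tH * (x * x) * tH⁻¹ = x * x := by
        rw [show tH * (x * x) * tH⁻¹ = tH * x * tH⁻¹ * (tH * x * tH⁻¹) by group, hinv,
          ← _root_.mul_inv_rev]
        exact inv_eq_of_mul_eq_one_right hx4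
      exact mul_inv_eq_iff_eq_mul.mp h'
    have h := key x (by rw [hxt, ← mul_assoc tH, hxxt])
    rw [hxt, mul_eq_right] at h
    exact hxx h
  obtain ⟨M, hM, hodd, hc⟩ : ∃ M : Subgroup H, M.Normal ∧ Odd (Nat.card M) ∧
      ∀ g : H, tH * g * tH⁻¹ * g⁻¹ ∈ M :=
    ⟨Cfsg.oddCore H, inferInstance, CfsgLib.Cores.odd_card_oddCore,
      CfsgLib.Involutions.zstar_isolated P hord hiso⟩
  refine hH.le_normalizer_of_odd hM hodd ?_
  have h := hc ⟨o.D, hH.D_mem⟩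
  have e : o.t * o.D * o.t⁻¹ * o.D⁻¹ = o.D := by
    rw [o.t_conj_D, mul_inv_cancel_right, pow_zero, one_mul, mul_inv_cancel_right]
  rwa [show tH * ⟨o.D, hH.D_mem⟩ * tH⁻¹ * (⟨o.D, hH.D_mem⟩ : H)⁻¹ = ⟨o.D, hH.D_mem⟩ from
    Subtype.ext e] at h

end C6Hyp

end CfsgLib.Geometric.SLThree
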