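import Cfsg.Agent.Lib.Geometric.Centres
import Cfsg.Agent.Lib.Geometric.SLThree.Homology

/-!
The similarity group of a non-degenerate quadratic form in three variables is maximal in the special
linear group in odd characteristic.
-/

namespace CfsgLib.Geometric.SLThree

open Matrix

variable {F : Type*} [Field F] {Q : (Fin 3 → F) → F}

namespace Quad

variable (hQ : Cfsg.Geo.IsNondegenerateQuadraticForm Q)
include hQ

local notation "B" => QuadraticMap.polar Q

omit hQ in
lemma symm (x y : Fin 3 → F) : B x y = B y x := by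
  simp only [QuadraticMap.polar, add_comm x y]
  ring

omit hQ in
/-- The functional `B w`. -/
def pl (hQ : Cfsg.Geo.IsNondegenerateQuadraticForm Q) (w : Fin 3 → F) : (Fin 3 → F) →ₗ[F] F where
  toFun x := QuadraticMap.polar Q w x
  map_add' x y := hQ.polar_bilinear.add_right w x y
  map_smul' c x := hQ.polar_bilinear.smul_right c w x

@[simp] lemma pl_apply (w x : Fin 3 → F) : pl hQ w x = B w x := rfl

lemma add_left (x y z : Fin 3 → F) : B (x + y) z = B x z + B y z :=
  hQ.polar_bilinear.add_left x y z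

lemma add_right (x y z : Fin 3 → F) : B x (y + z) = B x y + B x z :=
  hQ.polar_bilinear.add_right x y z

lemma smul_left (c : F) (x y : Fin 3 → F) : B (c • x) y = c * B x y :=
  hQ.polar_bilinear.smul_left c x y

lemma smul_right (c : F) (x y : Fin 3 → F) : B x (c • y) = c * B x y :=
  hQ.polar_bilinear.smul_right c x y

lemma sub_left (x y z : Fin 3 → F) : B (x - y) z = B x z - B y z := by
  rw [show x - y = x + (-1 : F) • y by module, add_left hQ, smul_left hQ]
  ring

lemma sub_right (x y z : Fin 3 → F) : B x (y - z) = B x y - B x z := (pl hQ x).map_sub y z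

lemma zero_left (x : Fin 3 → F) : B 0 x = 0 := by simpa using smul_left hQ 0 0 x

lemma zero_right (x : Fin 3 → F) : B x 0 = 0 := by simpa using smul_right hQ 0 x 0

lemma self_eq (x : Fin 3 → F) : B x x = 2 * Q x := by
  have h := hQ.smul 2 x
  rw [two_smul] at h
  simp only [QuadraticMap.polar, h]
  ring

lemma exists_pairing {u : Fin 3 → F} (hu : u ≠ 0) : ∃ p, B u p = 1 := by
  obtain ⟨y, hy⟩ := (hQ.nondegenerate u hu).2
  exact ⟨(B u y)⁻¹ • y, by rw [smul_right hQ, inv_mul_cancel₀ hy]⟩

lemma exists_eq_pl (φ : (Fin 3 → F) →ₗ[F] F) : ∃ w, pl hQ w = φ := by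
  let Φ : (Fin 3 → F) →ₗ[F] Module.Dual F (Fin 3 → F) :=
    { toFun := pl hQ
      map_add' := fun x y => LinearMap.ext fun z => by simp [add_left hQ]
      map_smul' := fun c x => LinearMap.ext fun z => by simp [smul_left hQ] }
  have hinj : Function.Injective Φ := by
    intro x y h
    by_contra hne
    obtain ⟨z, hz⟩ := (hQ.nondegenerate (x - y) (sub_ne_zero.mpr hne)).2
    exact hz (by rw [sub_left hQ]; exact sub_eq_zero.mpr (LinearMap.congr_fun h z))
  exact (LinearMap.injective_iff_surjective_of_finrank_eq_finrank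
    Subspace.dual_finrank_eq.symm).mp hinj φ

/-- Expansion along three orthogonal anisotropic vectors. -/
lemma expand {a b c : Fin 3 → F} (ha : B a a ≠ 0) (hb : B b b ≠ 0) (hc : B c c ≠ 0)
    (hab : B a b = 0) (hac : B a c = 0) (hbc : B b c = 0) (x : Fin 3 → F) :
    x = (B x a / B a a) • a + (B x b / B b b) • b + (B x c / B c c) • c := by
  have hba := (symm b a).trans hab
  have hca := (symm c a).trans hac
  have hcb := (symm c b).trans hbc
  have hli : LinearIndependent F ![a, b, c] := by
    rw [Fintype.linearIndependent_iff]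
    intro g hg
    simp [Fin.sum_univ_three] at hg
    have h0 := congrArg (pl hQ a) hg
    have h1 := congrArg (pl hQ b) hg
    have h2 := congrArg (pl hQ c) hg
    simp [add_right hQ, smul_right hQ, zero_right hQ, hab, hac, hbc, hba, hca, hcb, ha, hb, hc] at h0 h1 h2
    intro i
    fin_cases i <;> assumption
  have htop : Submodule.span F (Set.range ![a, b, c]) = ⊤ :=
    hli.span_eq_top_of_card_eq_finrank (by simp)
  have hx : x ∈ Submodule.span F (Set.range ![a, b, c]) := htop ▸ Submodule.mem_top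
  obtain ⟨g, hg⟩ := (Submodule.mem_span_range_iff_exists_fun F).mp hx
  simp [Fin.sum_univ_three] at hg
  rw [← hg]
  simp [add_left hQ, smul_left hQ, hab, hac, hbc, hba, hca, hcb, ha, hb, hc]

variable (h2 : (2 : F) ≠ 0)
include h2

/-- An isotropic partner of a non-zero isotropic vector. -/
lemma exists_partner {u : Fin 3 → F} (hu : u ≠ 0) (huu : B u u = 0) :
    ∃ u', B u' u' = 0 ∧ B u u' = 1 := by
  obtain ⟨p, hp⟩ := exists_pairing hQ hu
  refine ⟨p - (B p p / 2) • u, ?_, ?_⟩
  · simp only [sub_left hQ, sub_right hQ, smul_left hQ, smul_right hQ, huu, hp, symm p u]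
    field_simp
    ring
  · rw [sub_right hQ, smul_right hQ, huu, hp]; ring

/-- Two anisotropic vectors have a common anisotropic non-orthogonal one. -/
lemma connect {c d : Fin 3 → F} (hc : B c c ≠ 0) (hd : B d d ≠ 0) :
    ∃ z, B z z ≠ 0 ∧ B z c ≠ 0 ∧ B z d ≠ 0 := by
  by_cases hcd : B c d = 0
  swap
  · exact ⟨c, hc, hc, hcd⟩
  have hdc := (symm d c).trans hcd
  by_cases hs : B c c + B d d = 0
  swap
  · exact ⟨c + d, by simpa [add_left hQ, add_right hQ, hcd, hdc] using hs,
      by simpa [add_left hQ, hdc] using hc, by simpa [add_left hQ, hcd] using hd⟩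
  obtain ⟨x, hx0, hxc, hxd⟩ : ∃ x, x ≠ 0 ∧ B x c = 0 ∧ B x d = 0 := by
    let Φ : (Fin 3 → F) →ₗ[F] (Fin 2 → F) := LinearMap.pi ![pl hQ c, pl hQ d]
    obtain ⟨x, hx, hx0⟩ := Submodule.exists_mem_ne_zero_of_ne_bot
      (LinearMap.ker_ne_bot_of_finrank_lt (f := Φ) (by simp))
    refine ⟨x, hx0, ?_, ?_⟩
    · rw [symm]; exact congrFun (LinearMap.mem_ker.mp hx) 0
    · rw [symm]; exact congrFun (LinearMap.mem_ker.mp hx) 1
  have hxx : B x x ≠ 0 := by
    intro hxx
    have hli : LinearIndependent F ![c, d, x] := by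
      rw [Fintype.linearIndependent_iff]
      intro g hg
      simp [Fin.sum_univ_three] at hg
      have h0 := congrArg (pl hQ c) hg
      have h1 := congrArg (pl hQ d) hg
      simp [add_right hQ, smul_right hQ, zero_right hQ, hcd, hdc, hc, hd, symm c x, symm d x, hxc, hxd] at h0 h1
      rw [h0, h1] at hg
      simp [hx0] at hg
      intro i
      fin_cases i <;> assumption
    have htop : Submodule.span F (Set.range ![c, d, x]) = ⊤ :=
      hli.span_eq_top_of_card_eq_finrank (by simp)
    obtain ⟨p, hp⟩ := exists_pairing hQ hx0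
    have hp' : p ∈ Submodule.span F (Set.range ![c, d, x]) := htop ▸ Submodule.mem_top
    obtain ⟨g, hg⟩ := (Submodule.mem_span_range_iff_exists_fun F).mp hp'
    rw [← hg] at hp
    simp [Fin.sum_univ_three, add_right hQ, smul_right hQ, hxc, hxd, hxx] at hp
  refine ⟨c + d + x, ?_, ?_, ?_⟩
  · simp only [add_left hQ, add_right hQ, hcd, hdc, hxc, hxd, symm c x, symm d x]
    intro e
    exact hxx (by linear_combination e - hs)
  · simpa [add_left hQ, hdc, hxc] using hc
  · simpa [add_left hQ, hcd, hxd] using hd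

/-- A subspace with every anisotropic vector is everything. -/
lemma mem_of_aniso {U : Submodule F (Fin 3 → F)} (h : ∀ c, B c c ≠ 0 → c ∈ U) (x : Fin 3 → F) :
    x ∈ U := by
  by_cases hx : x = 0
  · subst hx; exact U.zero_mem
  by_cases hxx : B x x ≠ 0
  · exact h x hxx
  rw [not_not] at hxx
  obtain ⟨y, hyy, hxy⟩ := exists_partner hQ h2 hx hxx
  have h1 : x + y ∈ U := h _ (by
    simp [add_left hQ, add_right hQ, hxx, hyy, hxy, symm y x]
    intro e; exact h2 (by linear_combination e))
  have h3 : x - y ∈ U := h _ (by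
    simp [sub_left hQ, sub_right hQ, hxx, hyy, hxy, symm y x]
    intro e; exact h2 (by linear_combination -e))
  have := U.smul_mem (2 : F)⁻¹ (U.add_mem h1 h3)
  convert this using 1
  rw [show x + y + (x - y) = (2 : F) • x by module, smul_smul, inv_mul_cancel₀ h2, one_smul]

omit hQ h2 in
/-- The involution fixing an anisotropic vector. -/
noncomputable def rf (hQ : Cfsg.Geo.IsNondegenerateQuadraticForm Q) (c : Fin 3 → F)
    (hc : QuadraticMap.polar Q c c ≠ 0) : GL (Fin 3) F :=
  homo c ((QuadraticMap.polar Q c c)⁻¹ • pl hQ c) (by simp [hc])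

omit h2 in
lemma ap_rf {c : Fin 3 → F} (hc : B c c ≠ 0) (x : Fin 3 → F) :
    ap (rf hQ c hc) x = (2 * B c x / B c c) • c - x := by
  rw [rf, ap_homo]
  simp only [LinearMap.smul_apply, pl_apply, smul_eq_mul]
  congr 2
  ring

omit h2 in
lemma rf_isom {c : Fin 3 → F} (hc : B c c ≠ 0) (x y : Fin 3 → F) :
    B (ap (rf hQ c hc) x) (ap (rf hQ c hc) y) = B x y := by
  simp only [ap_rf hQ, sub_left hQ, sub_right hQ, smul_left hQ, smul_right hQ, symm x c]
  field_simp
  ring

lemma mem_similarity {g : GL (Fin 3) F} {κ : F} (hκ : κ ≠ 0)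
    (h : ∀ x y, B (ap g x) (ap g y) = κ * B x y) : g ∈ Cfsg.Geo.quadSimilarityGroup Q := by
  refine ⟨Units.mk0 κ hκ, fun x => ?_⟩
  have := h x x
  rw [self_eq hQ, self_eq hQ] at this
  exact mul_left_cancel₀ h2 (by rw [Units.val_mk0, ← ap_def]; linear_combination this)

/-! ### Transvections in an overgroup -/

omit hQ h2 in
/-- The transvection `x ↦ x + B(w, x) v` lies in `H`. -/
def InH (hQ : Cfsg.Geo.IsNondegenerateQuadraticForm Q) (H : Subgroup (GL (Fin 3) F))
    (v w : Fin 3 → F) : Prop :=
  ∃ h : pl hQ w v = 0, tv v (pl hQ w) h ∈ H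

variable {H : Subgroup (GL (Fin 3) F)}

omit h2 in
lemma InH.orth {v w : Fin 3 → F} (h : InH hQ H v w) : B w v = 0 := h.1

omit h2 in
lemma InH.of_smul {v w : Fin 3 → F} {t : F} (ht : t ≠ 0) (h : InH hQ H (t • v) w) :
    InH hQ H v (t • w) := by
  obtain ⟨h0, hm⟩ := h
  have h0' : B w v = 0 := by
    rw [map_smul, pl_apply, smul_eq_mul] at h0
    exact (mul_eq_zero.mp h0).resolve_left ht
  refine ⟨by rw [pl_apply, smul_left hQ, h0', mul_zero], ?_⟩
  convert hm using 1
  refine tv_eq_tv _ _ fun x => ?_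
  rw [pl_apply, pl_apply, smul_left hQ, smul_smul, mul_comm]

omit h2 in
lemma InH.sub {v w w' : Fin 3 → F} (h : InH hQ H v w) (h' : InH hQ H v w') :
    InH hQ H v (w - w') := by
  obtain ⟨h0, hm⟩ := h
  obtain ⟨h0', hm'⟩ := h'
  refine ⟨by rw [pl_apply, sub_left hQ, ← pl_apply hQ, ← pl_apply hQ, h0, h0', sub_zero], ?_⟩
  convert mul_mem hm (inv_mem hm') using 1
  apply gl_ext
  intro x
  rw [pl_apply] at h0 h0'
  simp only [tv_inv, ap_mul, ap_tv, pl_apply, LinearMap.neg_apply, sub_left hQ, add_right hQ,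
    smul_right hQ, h0]
  module

omit h2 in
lemma InH.zero {v : Fin 3 → F} : InH hQ H v 0 := by
  refine ⟨by rw [pl_apply, zero_left hQ], ?_⟩
  convert one_mem H
  exact gl_ext fun x => by simp [zero_left hQ]

omit h2 in
lemma InH.add {v w w' : Fin 3 → F} (h : InH hQ H v w) (h' : InH hQ H v w') :
    InH hQ H v (w + w') := by
  have := h.sub hQ ((InH.zero hQ).sub hQ h')
  rwa [zero_sub, sub_neg_eq_add] at this

variable (hH : ∀ c (hc : QuadraticMap.polar Q c c ≠ 0), rf hQ c hc ∈ H)
include hH

omit h2 in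
/-- Conjugation by one of the involutions. -/
lemma InH.conj {v w : Fin 3 → F} (h : InH hQ H v w) {c : Fin 3 → F} (hc : B c c ≠ 0) :
    InH hQ H (ap (rf hQ c hc) v) (ap (rf hQ c hc) w) := by
  obtain ⟨h0, hm⟩ := h
  refine ⟨by rw [pl_apply, rf_isom hQ]; exact h0, ?_⟩
  have := mul_mem (mul_mem (hH c hc) hm) (inv_mem (hH c hc))
  rw [conj_tv] at this
  convert this using 1
  refine tv_eq_tv _ _ fun x => ?_
  congr 1
  simp only [LinearMap.comp_apply, LinearEquiv.coe_coe, apEquiv_apply, pl_apply]
  conv_rhs => rw [← rf_isom hQ hc, ap_ap_inv]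

/-- Twice the projection to an anisotropic vector orthogonal to the centre. -/
lemma InH.proj {v w : Fin 3 → F} (h : InH hQ H v w) {c : Fin 3 → F} (hc : B c c ≠ 0)
    (hcv : B c v = 0) : InH hQ H v ((2 * B c w / B c c) • c) := by
  have h1 := h.conj hQ hH hc
  have e : ap (rf hQ c hc) v = (-1 : F) • v := by
    rw [ap_rf hQ, hcv, mul_zero, zero_div]; module
  rw [e] at h1
  have h3 := h.sub hQ (h1.of_smul hQ (neg_ne_zero.mpr one_ne_zero)) |>.sub hQ (InH.zero hQ)
  have h4 := h1.of_smul hQ (neg_ne_zero.mpr one_ne_zero)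
  have h5 := h.sub hQ h4
  rw [ap_rf hQ] at h5
  convert h5 using 1
  module

variable [Finite F]

/-- All multiples along an anisotropic line. -/
lemma InH.scale {v c e : Fin 3 → F} {l : F} (hl : l ≠ 0) (h : InH hQ H v (l • c))
    (hc : B c c ≠ 0) (he : B e e ≠ 0) (hcv : B c v = 0) (hev : B e v = 0) (hce : B c e = 0)
    (r : F) : InH hQ H v (r • c) := by
  let K : Subring F :=
    { carrier := {μ | ∀ x : F, InH hQ H v (x • c) → InH hQ H v ((μ * x) • c)}
      mul_mem' := fun {a b} ha hb x hx => by rw [mul_assoc]; exact ha _ (hb x hx)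
      one_mem' := fun x hx => by rwa [one_mul]
      add_mem' := fun {a b} ha hb x hx => by
        rw [add_mul, add_smul]; exact (ha x hx).add hQ (hb x hx)
      zero_mem' := fun x _ => by rw [zero_mul, zero_smul]; exact InH.zero hQ
      neg_mem' := fun {a} ha x hx => by
        rw [neg_mul, neg_smul, ← zero_sub]; exact (InH.zero hQ).sub hQ (ha x hx) }
  have : Fintype F := Fintype.ofFinite F
  have hinv : ∀ μ ∈ K, μ⁻¹ ∈ K := by
    intro μ hμ
    by_cases h0 : μ = 0
    · rw [h0, _root_.inv_zero]; exact K.zero_mem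
    · have hq := Fintype.one_lt_card (α := F)
      have e : μ⁻¹ = μ ^ (Fintype.card F - 2) := by
        refine (eq_inv_of_mul_eq_one_left ?_).symm
        rw [← pow_succ, show Fintype.card F - 2 + 1 = Fintype.card F - 1 by omega,
          FiniteField.pow_card_sub_one_eq_one μ h0]
      rw [e]
      exact pow_mem hμ _
  have h4 : ∀ s : F, 1 + B e e / B c c * s ^ 2 ≠ 0 → 4 / (1 + B e e / B c c * s ^ 2) ∈ K := by
    intro s hs x hx
    have hd : B (c + s • e) (c + s • e) = B c c * (1 + B e e / B c c * s ^ 2) := by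
      simp only [add_left hQ, add_right hQ, smul_left hQ, smul_right hQ, hce, symm e c]
      field_simp
      ring
    have hd0 : B (c + s • e) (c + s • e) ≠ 0 := hd ▸ mul_ne_zero hc hs
    have hdv : B (c + s • e) v = 0 := by rw [add_left hQ, smul_left hQ, hcv, hev]; ring
    have h5 := (hx.proj hQ h2 hH hd0 hdv).proj hQ h2 hH hc hcv
    convert h5 using 2
    simp only [smul_right hQ, add_left hQ, add_right hQ, smul_left hQ, hce, symm e c, mul_zero,
      add_zero]
    field_simp
    ring
  have h4' : (4 : F) ∈ K := by simpa using h4 0 (by simp)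
  have hδ : ∀ s : F, B e e / B c c * s ^ 2 ∈ K := by
    intro s
    by_cases hs : 1 + B e e / B c c * s ^ 2 = 0
    · rw [show B e e / B c c * s ^ 2 = -1 by linear_combination hs]
      exact K.neg_mem K.one_mem
    · have h5 := K.sub_mem (K.mul_mem h4' (hinv _ (h4 s hs))) K.one_mem
      convert h5 using 1
      have h40 : (4 : F) ≠ 0 := by
        rw [show (4 : F) = 2 * 2 by norm_num]; exact mul_ne_zero h2 h2
      rw [inv_div, mul_div_cancel₀ _ h40]
      ring
  have hsq : ∀ s : F, s ^ 2 ∈ K := by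
    intro s
    have := K.mul_mem (hinv _ (hδ 1)) (hδ s)
    convert this using 1
    field_simp
  have hall : r / l ∈ K := by
    have e1 : r / l = (2 : F)⁻¹ * ((r / l + 1) ^ 2 - (r / l) ^ 2 - 1) := by field_simp; ring
    rw [e1]
    refine K.mul_mem (hinv _ ?_) (K.sub_mem (K.sub_mem (hsq _) (hsq _)) K.one_mem)
    rw [← one_add_one_eq_two]
    exact K.add_mem K.one_mem K.one_mem
  have := hall l h
  rwa [div_mul_cancel₀ _ hl] at this

omit [Finite F] in
/-- All transvections at one centre suffice. -/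
lemma specialLinear_le_of_centre {x : Fin 3 → F} (hx : x ≠ 0) (h : FullCentre H x) :
    Cfsg.Geo.specialLinear (Fin 3) F ≤ H := by
  obtain ⟨c, hc, hxc⟩ : ∃ c, B c c ≠ 0 ∧ B c x ≠ 0 := by
    by_cases hxx : B x x ≠ 0
    · exact ⟨x, hxx, hxx⟩
    rw [not_not] at hxx
    obtain ⟨y, hyy, hxy⟩ := exists_partner hQ h2 hx hxx
    refine ⟨x + y, ?_, ?_⟩
    · simp [add_left hQ, add_right hQ, hxx, hyy, hxy, symm y x]
      intro e; exact h2 (by linear_combination e)
    · simp [add_left hQ, hxx, hxy, symm y x]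
  have step : ∀ c x : Fin 3 → F, B c c ≠ 0 → B c x ≠ 0 → x ∈ centreSubmodule H →
      c ∈ centreSubmodule H := by
    intro c x hc hcx hxU
    have h1 : ap (rf hQ c hc) x ∈ centreSubmodule H := fullCentre_ap (hH c hc) hxU
    rw [ap_rf hQ] at h1
    have h3 := (centreSubmodule H).add_mem h1 hxU
    rw [sub_add_cancel] at h3
    exact (Submodule.smul_mem_iff _ (div_ne_zero (mul_ne_zero h2 hcx) hc)).mp h3
  have hcU := step c x hc hxc h
  refine specialLinear_le_of_fullCentre (S := Set.univ) (by simp) fun y _ => ?_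
  refine mem_of_aniso hQ h2 (U := centreSubmodule H) (fun d hd => ?_) y
  obtain ⟨z, hz, hzc, hzd⟩ := connect hQ h2 hc hd
  exact step d z hd ((symm d z).trans_ne hzd) (step z c hz hzc hcU)

omit [Finite F] in
/-- An isotropic centre with axis not the polar line. -/
lemma sl_of_iso_off {u w : Fin 3 → F} (h : InH hQ H u w) (hu : u ≠ 0) (huu : B u u = 0)
    (hw : ∀ t : F, w ≠ t • u) : Cfsg.Geo.specialLinear (Fin 3) F ≤ H := by
  have hwu := h.orth hQ
  have huw := (symm u w).trans hwu
  obtain ⟨p, hpp, hup⟩ := exists_partner hQ h2 hu huu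
  have hww : B w w ≠ 0 := by
    intro hww
    set y := w - B p w • u with hy
    have hyu : B y u = 0 := by rw [hy, sub_left hQ, smul_left hQ, hwu, huu]; ring
    have hyp : B y p = 0 := by rw [hy, sub_left hQ, smul_left hQ, hup, symm w p]; ring
    have hyy : B y y = 0 := by
      simp only [hy, sub_left hQ, sub_right hQ, smul_left hQ, smul_right hQ, hww, hwu, huw, huu]
      ring
    have hy0 : y ≠ 0 := fun e => hw (B p w) (sub_eq_zero.mp e)
    obtain ⟨z, hz⟩ := exists_pairing hQ hy0
    have hli : LinearIndependent F ![u, p, y] := by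
      rw [Fintype.linearIndependent_iff]
      intro g hg
      simp [Fin.sum_univ_three] at hg
      have h0 := congrArg (pl hQ u) hg
      have h1 := congrArg (pl hQ p) hg
      simp [add_right hQ, smul_right hQ, zero_right hQ, huu, hpp, hup, symm p u, symm u y, symm p y, hyu, hyp] at h0 h1
      rw [h0, h1] at hg
      simp [hy0] at hg
      intro i
      fin_cases i <;> assumption
    have htop : Submodule.span F (Set.range ![u, p, y]) = ⊤ :=
      hli.span_eq_top_of_card_eq_finrank (by simp)
    have hz' : z ∈ Submodule.span F (Set.range ![u, p, y]) := htop ▸ Submodule.mem_top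
    obtain ⟨g, hg⟩ := (Submodule.mem_span_range_iff_exists_fun F).mp hz'
    rw [← hg] at hz
    simp [Fin.sum_univ_three, add_right hQ, smul_right hQ, hyu, hyp, hyy] at hz
  -- the partner orthogonal to `w`
  set p₁ := p - (B p w / B w w) • w with hp₁
  set u' := p₁ - (B p₁ p₁ / 2) • u with hu'
  have hp₁u : B u p₁ = 1 := by rw [hp₁, sub_right hQ, smul_right hQ, hup, huw]; ring
  have hp₁w : B p₁ w = 0 := by
    rw [hp₁, sub_left hQ, smul_left hQ, div_mul_cancel₀ _ hww, sub_self]
  have huu' : B u u' = 1 := by rw [hu', sub_right hQ, smul_right hQ, huu, hp₁u]; ring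
  have hu'w : B u' w = 0 := by rw [hu', sub_left hQ, smul_left hQ, hp₁w, huw]; ring
  have hu'u' : B u' u' = 0 := by
    simp only [hu', sub_left hQ, sub_right hQ, smul_left hQ, smul_right hQ, huu, hp₁u, symm p₁ u]
    field_simp
    ring
  have hproj : ∀ b : F, InH hQ H u ((2 : F) • (w + b • u)) := by
    intro b
    have hd : B (w + b • u) (w + b • u) = B w w := by
      simp only [add_left hQ, add_right hQ, smul_left hQ, smul_right hQ, hwu, huw, huu]
      ring
    have hdu : B (w + b • u) u = 0 := by rw [add_left hQ, smul_left hQ, hwu, huu]; ring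
    have := h.proj hQ h2 hH (hd ▸ hww) hdu
    rwa [hd, add_left hQ, smul_left hQ, huw, mul_zero, add_zero, mul_div_assoc, div_self hww,
      mul_one] at this
  have hline : ∀ b : F, InH hQ H u (b • u) := by
    intro b
    convert (hproj (b / 2)).sub hQ (hproj 0) using 1
    rw [zero_smul, add_zero, ← smul_sub, add_sub_cancel_left, smul_smul, mul_div_cancel₀ _ h2]
  have hW : ∀ s : F, s ≠ 0 → InH hQ H u ((2 / s) • w) := by
    intro s hs
    have hc : B (u + u') (u + u') = 2 := by
      simp only [add_left hQ, add_right hQ, huu, hu'u', huu', symm u' u]; norm_num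
    have hd : B (u + s • u') (u + s • u') = 2 * s := by
      simp only [add_left hQ, add_right hQ, smul_left hQ, smul_right hQ, huu, hu'u', huu',
        symm u' u]
      ring
    have h0 := hproj 0
    rw [zero_smul, add_zero] at h0
    have h1 := (h0.conj hQ hH (c := u + u') (hc ▸ h2)).conj hQ hH (c := u + s • u')
      (hd ▸ mul_ne_zero h2 hs)
    have e1 : ap (rf hQ (u + u') (hc ▸ h2)) u = u' := by
      rw [ap_rf hQ, hc, add_left hQ, huu, symm u' u, huu']
      rw [show 2 * (0 + 1) / (2 : F) = 1 by field_simp; ring]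
      module
    have e2 : ap (rf hQ (u + s • u') (hd ▸ mul_ne_zero h2 hs)) u' = s⁻¹ • u := by
      rw [ap_rf hQ, hd, add_left hQ, smul_left hQ, huu', hu'u']
      rw [show 2 * (1 + s * 0) / (2 * s) = s⁻¹ by field_simp; ring, smul_add, smul_smul,
        inv_mul_cancel₀ hs]
      module
    have e3 : ∀ (d : Fin 3 → F) (hd : B d d ≠ 0), B d w = 0 → ∀ t : F,
        ap (rf hQ d hd) (t • w) = -(t • w) := by
      intro d hd hdw t
      rw [ap_rf hQ, smul_right hQ, hdw]; simp
    rw [e1, e2, e3 _ _ (by rw [add_left hQ, huw, hu'w, add_zero]), ← neg_smul,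
      e3 _ _ (by rw [add_left hQ, smul_left hQ, huw, hu'w]; ring), neg_smul, neg_neg] at h1
    convert h1.of_smul hQ (inv_ne_zero hs) using 1
    rw [smul_smul, div_eq_inv_mul]
  refine specialLinear_le_of_centre hQ h2 hH hu fun φ hφ => ?_
  obtain ⟨y, rfl⟩ := exists_eq_pl hQ φ
  have hyu : B y u = 0 := hφ
  clear_value u'
  have hn2 : (-2 : F) ≠ 0 := neg_ne_zero.mpr h2
  have hy : y = (B y u' : F) • u + (B y w / B w w) • w := by
    have hc1 : B (u + u') (u + u') ≠ 0 := by
      simp [add_left hQ, add_right hQ, huu, hu'u', huu', symm u' u]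
      intro e; exact h2 (by linear_combination e)
    have hc2 : B (u - u') (u - u') ≠ 0 := by
      simp [sub_left hQ, sub_right hQ, huu, hu'u', huu', symm u' u]
      intro e; exact h2 (by linear_combination -e)
    conv_lhs => rw [expand hQ hc1 hc2 hww
      (by simp [add_left hQ, sub_right hQ, huu, hu'u', huu', symm u' u])
      (by simp [add_left hQ, huw, hu'w]) (by simp [sub_left hQ, huw, hu'w]) y]
    simp only [add_left hQ, add_right hQ, sub_left hQ, sub_right hQ, huu, hu'u', huu', symm u' u,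
      hyu]
    match_scalars <;> field_simp <;> ring_nf <;> simp only [inv_neg] <;> field_simp <;> ring
  obtain ⟨_, hm⟩ : InH hQ H u y := by
    rw [hy]
    by_cases hk : B y w / B w w = 0
    · simpa [hk] using hline (B y u')
    · convert (hline (B y u')).add hQ (hW (2 / (B y w / B w w)) (div_ne_zero h2 hk)) using 3
      rw [div_div_cancel₀ h2]
  exact hm

/-- An anisotropic centre. -/
lemma sl_of_aniso {v w : Fin 3 → F} (h : InH hQ H v w) (hvv : B v v ≠ 0) (hw : w ≠ 0) :
    Cfsg.Geo.specialLinear (Fin 3) F ≤ H := by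
  have hwv := h.orth hQ
  obtain ⟨c, hc, hcv, hcw⟩ : ∃ c, B c c ≠ 0 ∧ B c v = 0 ∧ B c w ≠ 0 := by
    by_cases hww : B w w ≠ 0
    · exact ⟨w, hww, hwv, hww⟩
    rw [not_not] at hww
    obtain ⟨p, hp⟩ := exists_pairing hQ hw
    set z := p - (B p v / B v v) • v with hz
    have hzv : B z v = 0 := by
      rw [hz, sub_left hQ, smul_left hQ, div_mul_cancel₀ _ hvv, sub_self]
    have hwz : B w z = 1 := by rw [hz, sub_right hQ, smul_right hQ, hp, hwv]; ring
    by_cases hzz : B z z ≠ 0
    · exact ⟨z, hzz, hzv, by rw [symm, hwz]; exact one_ne_zero⟩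
    rw [not_not] at hzz
    refine ⟨z + w, ?_, by rw [add_left hQ, hzv, hwv, add_zero], ?_⟩
    · simp [add_left hQ, add_right hQ, hzz, hww, hwz, symm z w]
      intro e; exact h2 (by linear_combination e)
    · simp [add_left hQ, hww, symm z w, hwz]
  obtain ⟨e, he, hev, hec⟩ : ∃ e, B e e ≠ 0 ∧ B e v = 0 ∧ B e c = 0 := by
    let Φ : (Fin 3 → F) →ₗ[F] (Fin 2 → F) := LinearMap.pi ![pl hQ v, pl hQ c]
    obtain ⟨e, he, he0⟩ := Submodule.exists_mem_ne_zero_of_ne_bot
      (LinearMap.ker_ne_bot_of_finrank_lt (f := Φ) (by simp))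
    have hev : B e v = 0 := by rw [symm]; exact congrFun (LinearMap.mem_ker.mp he) 0
    have hec : B e c = 0 := by rw [symm]; exact congrFun (LinearMap.mem_ker.mp he) 1
    refine ⟨e, fun hee => ?_, hev, hec⟩
    obtain ⟨p, hp⟩ := exists_pairing hQ he0
    have hli : LinearIndependent F ![v, c, e] := by
      rw [Fintype.linearIndependent_iff]
      intro g hg
      simp [Fin.sum_univ_three] at hg
      have h0 := congrArg (pl hQ v) hg
      have h1 := congrArg (pl hQ c) hg
      simp [add_right hQ, smul_right hQ, zero_right hQ, hvv, hc, symm v c, hcv, symm v e, symm c e, hev, hec] at h0 h1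
      rw [h0, h1] at hg
      simp [he0] at hg
      intro i
      fin_cases i <;> assumption
    have hp' : p ∈ Submodule.span F (Set.range ![v, c, e]) :=
      (hli.span_eq_top_of_card_eq_finrank (by simp)) ▸ Submodule.mem_top
    obtain ⟨g, hg⟩ := (Submodule.mem_span_range_iff_exists_fun F).mp hp'
    rw [← hg] at hp
    simp [Fin.sum_univ_three, add_right hQ, smul_right hQ, hev, hec, hee] at hp
  have hce := (symm c e).trans hec
  have hlc : ∀ r : F, InH hQ H v (r • c) :=
    (h.proj hQ h2 hH hc hcv).scale hQ h2 hH (div_ne_zero (mul_ne_zero h2 hcw) hc) hc he hcv hev hce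
  by_cases hce2 : B c c + B e e = 0
  swap
  · have hd : B (c + e) (c + e) = B c c + B e e := by
      simp [add_left hQ, add_right hQ, hce, hec]
    have hdv : B (c + e) v = 0 := by rw [add_left hQ, hcv, hev, add_zero]
    have hdc : B (c + e) c = B c c := by rw [add_left hQ, hec, add_zero]
    obtain ⟨f, hff, hfv, hfd⟩ : ∃ f, B f f ≠ 0 ∧ B f v = 0 ∧ B (c + e) f = 0 := by
      refine ⟨B e e • c - B c c • e, ?_, ?_, ?_⟩
      · simp only [sub_left hQ, sub_right hQ, smul_left hQ, smul_right hQ, hce, hec]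
        have : B e e * B c c * (B c c + B e e) ≠ 0 := mul_ne_zero (mul_ne_zero he hc) hce2
        convert this using 1
        ring
      · rw [sub_left hQ, smul_left hQ, smul_left hQ, hcv, hev]; ring
      · simp only [add_left hQ, sub_right hQ, smul_right hQ, hce, hec]; ring
    have hd0 : InH hQ H v ((2 * B c c / (B c c + B e e)) • (c + e)) := by
      have := (hlc 1).proj hQ h2 hH (hd ▸ hce2) hdv
      rwa [one_smul, hd, hdc] at this
    have hld : ∀ r : F, InH hQ H v (r • (c + e)) :=
      hd0.scale hQ h2 hH (div_ne_zero (mul_ne_zero h2 hc) hce2) (hd ▸ hce2) hff hdv hfv hfd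
    refine specialLinear_le_of_centre hQ h2 hH (x := v)
      (fun e0 => hvv (by rw [e0, zero_left hQ])) fun φ hφ => ?_
    obtain ⟨y, rfl⟩ := exists_eq_pl hQ φ
    have hyv : B y v = 0 := hφ
    have hy : (B y e / B e e) • (c + e) - (B y e / B e e) • c + (B y c / B c c) • c = y := by
      have h6 := expand hQ hvv hc he ((symm v c).trans hcv) ((symm v e).trans hev) hce y
      rw [hyv, zero_div, zero_smul, zero_add] at h6
      conv_rhs => rw [h6]
      module
    obtain ⟨_, hm⟩ : InH hQ H v y := by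
      rw [← hy]
      exact ((hld (B y e / B e e)).sub hQ (hlc (B y e / B e e))).add hQ (hlc (B y c / B c c))
    exact hm
  -- a hyperbolic plane: move to an isotropic centre
  set z := v + c + e with hz
  have hzz : B z z = B v v := by
    simp only [hz, add_left hQ, add_right hQ, hcv, hev, hce, hec, (symm v c).trans hcv,
      (symm v e).trans hev]
    linear_combination hce2
  have hzv : B z v = B v v := by simp [hz, add_left hQ, hcv, hev]
  have hzc : B z c = B c c := by simp [hz, add_left hQ, (symm v c).trans hcv, hec]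
  have h1 := (hlc 1).conj hQ hH (c := z) (hzz ▸ hvv)
  rw [one_smul] at h1
  set v' := ap (rf hQ z (hzz ▸ hvv)) v with hv'
  set w' := ap (rf hQ z (hzz ▸ hvv)) c with hw'
  have hv'e : v' = v + (2 : F) • c + (2 : F) • e := by
    rw [hv', ap_rf hQ, hzv, hzz, mul_div_assoc, div_self hvv, mul_one, hz]
    module
  set s := -(2 * B c c)⁻¹ with hs
  obtain ⟨ht0, ht⟩ := hlc s
  obtain ⟨h10, h1m⟩ := h1
  set t := tv v (pl hQ (s • c)) ht0
  have htv' : ap t v' = (2 : F) • (c + e) := by
    rw [ap_tv, pl_apply, hv'e]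
    simp only [smul_left hQ, add_right hQ, smul_right hQ, hcv, hce]
    rw [show s * (0 + 2 * B c c + 2 * 0) = -1 by rw [hs]; field_simp; ring]
    module
  have h3 := mul_mem (mul_mem ht h1m) (inv_mem ht)
  rw [conj_tv] at h3
  set w'' := w' - (s * B w' v) • c with hw''
  have hpl : ∀ x, (pl hQ w').comp (apEquiv t⁻¹).toLinearMap x = B w'' x := by
    intro x
    simp only [LinearMap.comp_apply, LinearEquiv.coe_coe, apEquiv_apply, t, tv_inv, ap_tv,
      LinearMap.neg_apply, pl_apply, hw'', sub_left hQ, smul_left hQ, add_right hQ, smul_right hQ]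
    ring
  have h4 : InH hQ H (ap t v') w'' := by
    refine ⟨?_, ?_⟩
    · rw [pl_apply, ← hpl]
      simpa [ap_inv_ap] using h10
    · convert h3 using 1
      exact tv_eq_tv _ _ fun x => by rw [hpl, pl_apply]
  rw [htv'] at h4
  have h5 := h4.of_smul hQ h2
  have hw'v : B w'' v = 2 * B c c := by
    rw [hw'', sub_left hQ, smul_left hQ, hcv, mul_zero, sub_zero, hw', ap_rf hQ, hzc, hzz,
      sub_left hQ, smul_left hQ, hzv, hcv, sub_zero, div_mul_cancel₀ _ hvv]
  refine sl_of_iso_off hQ h2 hH h5 ?_ ?_ fun r er => ?_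
  · intro e0
    have := congrArg (fun y => B y c) e0
    simp only [add_left hQ, hec, zero_left hQ, add_zero] at this
    exact hc this
  · simp only [add_left hQ, add_right hQ, hce, hec]
    linear_combination hce2
  · have := congrArg (fun y => B y v) er
    simp only [smul_left hQ, add_left hQ, hcv, hev, hw'v, add_zero, mul_zero] at this
    exact mul_ne_zero h2 (mul_ne_zero h2 hc) this

/-- A transvection suffices. -/
lemma sl_of_tv {v : Fin 3 → F} {φ : (Fin 3 → F) →ₗ[F] F} {hv : φ v = 0} (hm : tv v φ hv ∈ H)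
    (hv0 : v ≠ 0) (hφ : φ ≠ 0) : Cfsg.Geo.specialLinear (Fin 3) F ≤ H := by
  obtain ⟨w, rfl⟩ := exists_eq_pl hQ φ
  have h : InH hQ H v w := ⟨hv, hm⟩
  have hw : w ≠ 0 := fun e => hφ (LinearMap.ext fun x => by simp [e, zero_left hQ])
  by_cases hvv : B v v ≠ 0
  · exact sl_of_aniso hQ h2 hH h hvv hw
  rw [not_not] at hvv
  by_cases hex : ∃ l : F, w = l • v
  swap
  · push Not at hex
    exact sl_of_iso_off hQ h2 hH h hv0 hvv hex
  obtain ⟨l, rfl⟩ := hex
  have hl : l ≠ 0 := fun e => hw (by rw [e, zero_smul])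
  obtain ⟨u, huu, hvu⟩ := exists_partner hQ h2 hv0 hvv
  have hc : B (v + u) (v + u) = 2 := by
    simp only [add_left hQ, add_right hQ, huu, hvv, hvu, symm u v]; norm_num
  have h1 := h.conj hQ hH (c := v + u) (hc ▸ h2)
  have e1 : ap (rf hQ (v + u) (hc ▸ h2)) v = u := by
    rw [ap_rf hQ, hc, add_left hQ, hvv, symm u v, hvu,
      show 2 * (0 + 1) / (2 : F) = 1 by field_simp; ring]
    module
  rw [e1, ap_smul, e1] at h1
  obtain ⟨h10, h1m⟩ := h1
  have h3 := mul_mem (mul_mem h1m hm) (inv_mem h1m)
  rw [conj_tv] at h3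
  obtain ⟨w', hw'⟩ := exists_eq_pl hQ
    ((pl hQ (l • v)).comp (apEquiv (tv u (pl hQ (l • u)) h10)⁻¹).toLinearMap)
  set t := tv u (pl hQ (l • u)) h10
  have h4 : InH hQ H (ap t v) w' := by
    refine ⟨by rw [hw']; simpa [ap_inv_ap] using h.1, ?_⟩
    convert h3 using 1
    exact tv_eq_tv _ _ fun x => by rw [hw']
  refine sl_of_aniso hQ h2 hH h4 ?_ fun e => ?_
  · simp only [t, ap_tv, pl_apply, smul_left hQ, add_left hQ, add_right hQ, smul_right hQ,
      symm u v, hvu, hvv, huu]
    intro e
    exact mul_ne_zero h2 hl (by linear_combination e)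
  · apply hφ
    refine LinearMap.ext fun x => ?_
    have := LinearMap.congr_fun hw' (ap t x)
    simp only [e, pl_apply, zero_left hQ, LinearMap.comp_apply, LinearEquiv.coe_coe,
      apEquiv_apply, ap_inv_ap] at this
    simpa using this.symm

omit [Finite F] in
/-- Without transvections the overgroup consists of similarities. -/
lemma mem_similarity_of_no_tv (hno : NoTv H) {g : GL (Fin 3) F} (hg : g ∈ H) :
    g ∈ Cfsg.Geo.quadSimilarityGroup Q := by
  have key : ∀ (c : Fin 3 → F) φ (h : φ c = 1), homo c φ h ∈ H →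
      B c c ≠ 0 ∧ ∀ x, B c c * φ x = B c x := by
    intro c φ h hm
    have hc0 : c ≠ 0 := fun e => by simp [e] at h
    have hcc : B c c ≠ 0 := by
      intro hcc
      obtain ⟨p, hpp, hcp⟩ := exists_partner hQ h2 hc0 hcc
      obtain ⟨n, hn, hn0⟩ := Submodule.exists_mem_ne_zero_of_ne_bot
        (LinearMap.ker_ne_bot_of_finrank_lt (f := LinearMap.pi ![pl hQ c, pl hQ p])
          (by simp))
      have hcn : B c n = 0 := congrFun (LinearMap.mem_ker.mp hn) 0
      have hpn : B p n = 0 := congrFun (LinearMap.mem_ker.mp hn) 1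
      have hnn : B n n ≠ 0 := by
        intro hnn
        have hli : LinearIndependent F ![c, p, n] := by
          rw [Fintype.linearIndependent_iff]
          intro g hg
          simp [Fin.sum_univ_three] at hg
          have h0 := congrArg (pl hQ c) hg
          have h1 := congrArg (pl hQ p) hg
          simp [add_right hQ, smul_right hQ, zero_right hQ, hcc, hpp, hcp, symm p c, hcn, hpn] at h0 h1
          rw [h0, h1] at hg
          simp [hn0] at hg
          intro i
          fin_cases i <;> assumption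
        obtain ⟨z, hz⟩ := exists_pairing hQ hn0
        have hz' : z ∈ Submodule.span F (Set.range ![c, p, n]) :=
          (hli.span_eq_top_of_card_eq_finrank (by simp)) ▸ Submodule.mem_top
        obtain ⟨k, hk⟩ := (Submodule.mem_span_range_iff_exists_fun F).mp hz'
        rw [← hk] at hz
        simp [Fin.sum_univ_three, add_right hQ, smul_right hQ, symm n c, symm n p, hcn, hpn,
          hnn] at hz
      set P := p - φ p • c with hP
      set N := n - φ n • c with hN
      have hPc : B c P = 1 := by rw [hP, sub_right hQ, smul_right hQ, hcp, hcc]; ring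
      have hNc : B c N = 0 := by rw [hN, sub_right hQ, smul_right hQ, hcn, hcc]; ring
      have hNN : B N N = B n n := by
        simp only [hN, sub_left hQ, sub_right hQ, smul_left hQ, smul_right hQ, hcc, hcn, symm n c]
        ring
      have hbad : ∀ b : F, B (P + b • N) (P + b • N) = 0 := by
        intro b
        by_contra hd
        have hd0 : φ (P + b • N) = 0 := by simp [hP, hN, h]
        have h3 := hno.incidence h2 hm (hH _ hd) hd0
        simp only [LinearMap.smul_apply, pl_apply, smul_eq_mul, add_left hQ, smul_left hQ,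
          symm P c, symm N c, hPc, hNc, mul_zero, add_zero, mul_one, inv_eq_zero] at h3
        exact hd (by rw [add_left hQ, smul_left hQ]; simpa using h3)
      have e0 := hbad 0
      have e1 := hbad 1
      have e2 := hbad (-1)
      simp only [add_left hQ, add_right hQ, smul_left hQ, smul_right hQ, hNN] at e0 e1 e2
      exact mul_ne_zero h2 hnn (by linear_combination e1 + e2 - 2 * e0)
    refine ⟨hcc, fun x => ?_⟩
    have := LinearMap.congr_fun (hno.axis_eq h2 hm (hH c hcc)) x
    rw [this]
    simp [hcc]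
  have hg' : ∀ c, B c c ≠ 0 →
      ∀ x, B (ap g c) (ap g x) = B (ap g c) (ap g c) / B c c * B c x := by
    intro c hc x
    have h1 := mul_mem (mul_mem hg (hH c hc)) (inv_mem hg)
    rw [rf, conj_homo] at h1
    obtain ⟨hgc, h3⟩ := key _ _ _ h1
    have := h3 (ap g x)
    simp [ap_inv_ap] at this
    rw [← this]
    field_simp
  obtain ⟨c₀, hc₀⟩ : ∃ c, B c c ≠ 0 := by
    by_contra hc
    push Not at hc
    have hx : (Pi.single 0 1 : Fin 3 → F) ∈ (⊥ : Submodule F (Fin 3 → F)) :=
      mem_of_aniso hQ h2 (fun c h => absurd (hc c) h) _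
    simpa using congrFun ((Submodule.mem_bot F).mp hx) 0
  set κ := B (ap g c₀) (ap g c₀) / B c₀ c₀ with hκ
  have hpair : ∀ c d, B c c ≠ 0 → B d d ≠ 0 → B c d ≠ 0 →
      B (ap g c) (ap g c) / B c c = B (ap g d) (ap g d) / B d d := by
    intro c d hc hd hcd
    refine mul_right_cancel₀ hcd ?_
    rw [← hg' c hc d, symm (ap g c), hg' d hd c, symm d c]
  have hall : ∀ c, B c c ≠ 0 → ∀ x, B (ap g c) (ap g x) = κ * B c x := by
    intro c hc x
    obtain ⟨z, hz, hzc₀, hzc⟩ := connect hQ h2 hc₀ hc
    rw [hg' c hc x, hpair c z hc hz ((symm c z).trans_ne hzc), hpair z c₀ hz hc₀ hzc₀]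
  refine mem_similarity hQ h2 (κ := κ) (div_ne_zero ?_ hc₀) fun x y => ?_
  · have h1 := mul_mem (mul_mem hg (hH c₀ hc₀)) (inv_mem hg)
    rw [rf, conj_homo] at h1
    exact (key _ _ _ h1).1
  let U : Submodule F (Fin 3 → F) :=
    LinearMap.ker ((pl hQ (ap g y)).comp (apEquiv g).toLinearMap - κ • pl hQ y)
  have hx : x ∈ U := mem_of_aniso hQ h2 (fun c hc => by
    simp [U, symm (ap g y), symm y c, hall c hc y]) x
  simp [U, symm (ap g y), symm y x, sub_eq_zero] at hx
  exact hx

end Quad

open Quad in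
/-- The similarity group of a non-degenerate quadratic form is maximal. -/
theorem quadSimilarity_isMaximalIn [Fintype F] (hodd : Odd (Fintype.card F))
    (Q : (Fin 3 → F) → F) (hQ : Cfsg.Geo.IsNondegenerateQuadraticForm Q) :
    Cfsg.Geo.IsMaximalIn (Cfsg.Geo.specialLinear (Fin 3) F)
      (Cfsg.Geo.quadSimilarityGroup Q ⊓ Cfsg.Geo.specialLinear (Fin 3) F) := by
  have h2 : (2 : F) ≠ 0 := by
    intro h
    have hchar : ringChar F = 2 :=
      CharP.ringChar_of_prime_eq_zero Nat.prime_two (by exact_mod_cast h)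
    have := FiniteField.even_card_iff_char_two.mp hchar
    rw [Nat.odd_iff] at hodd
    omega
  refine ⟨lt_of_le_of_ne inf_le_right fun he => ?_, fun M hHM hMS => ?_⟩
  · obtain ⟨v, hv⟩ : ∃ v, QuadraticMap.polar Q v v ≠ 0 := by
      by_contra hc
      push Not at hc
      have hx : (Pi.single 0 1 : Fin 3 → F) ∈ (⊥ : Submodule F (Fin 3 → F)) :=
        mem_of_aniso hQ h2 (fun c h => absurd (hc c) h) _
      simpa using congrFun ((Submodule.mem_bot F).mp hx) 0
    have hvQ : Q v ≠ 0 := fun e => hv (by rw [self_eq hQ, e, mul_zero])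
    obtain ⟨x, hx⟩ : ∃ x, x ∉ Submodule.span F {v} := by
      by_contra hc
      push Not at hc
      have h1 : Submodule.span F {v} = (⊤ : Submodule F (Fin 3 → F)) :=
        eq_top_iff.mpr fun x _ => hc x
      have h3 := finrank_span_singleton (K := F) (v := v) (fun e => hvQ (by
        rw [e]; simpa using hQ.smul 0 0))
      rw [h1, finrank_top, Module.finrank_fin_fun] at h3
      omega
    obtain ⟨φ, hφ, hφx⟩ := exists_functional_eq_one hx
    have hφv : φ v = 0 := hφ v (Submodule.mem_span_singleton_self v)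
    have hmem : ∀ s : F, tv v (s • φ) (by simp [hφv]) ∈
        Cfsg.Geo.quadSimilarityGroup Q ⊓ Cfsg.Geo.specialLinear (Fin 3) F := fun s => by
      rw [he]; exact tv_mem_specialLinear _ _ _
    have e : ∀ s : F, s * QuadraticMap.polar Q x v + s ^ 2 * Q v = 0 := by
      intro s
      obtain ⟨k, hk⟩ := (hmem s).1
      have h1 := hk v
      simp only [← ap_def, ap_tv, LinearMap.smul_apply, hφv, smul_zero, zero_smul, add_zero] at h1
      have hk1 : (k : F) = 1 := mul_right_cancel₀ hvQ (h1.symm.trans (one_mul _).symm)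
      have h3 := hk x
      simp only [← ap_def, ap_tv, LinearMap.smul_apply, hφx, smul_eq_mul, mul_one, hk1,
        one_mul] at h3
      have h4 : QuadraticMap.polar Q x (s • v) = s * QuadraticMap.polar Q x v :=
        hQ.polar_bilinear.smul_right s x v
      simp only [QuadraticMap.polar, hQ.smul] at h4
      simp only [QuadraticMap.polar]
      linear_combination h3 - h4
    exact mul_ne_zero h2 hvQ (by linear_combination e 1 + e (-1))
  by_cases hM : M ≤ Cfsg.Geo.quadSimilarityGroup Q
  · exact Or.inl (le_antisymm (le_inf hM hMS) hHM)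
  refine Or.inr (le_antisymm hMS ?_)
  obtain ⟨g, hgM, hg⟩ := SetLike.not_le_iff_exists.mp hM
  have hH : ∀ c (hc : QuadraticMap.polar Q c c ≠ 0), rf hQ c hc ∈ M := fun c hc =>
    hHM ⟨mem_similarity hQ h2 one_ne_zero fun x y => by rw [rf_isom hQ, one_mul],
      homo_mem_specialLinear _ _ _⟩
  by_cases hno : NoTv M
  · exact absurd (mem_similarity_of_no_tv hQ h2 hH hno hgM) hg
  simp only [NoTv, not_forall, not_or] at hno
  obtain ⟨v, φ, h, hm, hv, hφ⟩ := hno
  exact sl_of_tv hQ h2 hH hm hv hφ

end CfsgLib.Geometric.SLThree
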