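import Cfsg.Agent.Lib.Geometric.SLThree.Singer.Arith
import Cfsg.Agent.Lib.Geometric.SLThree.Singer.Difference
import Cfsg.Agent.Lib.Geometric.SLThree.Singer.Homology
import Cfsg.Agent.Lib.Geometric.SLThree.Singer.Index
import Cfsg.Agent.Lib.SmallDim.Transvection

/-!
The normaliser of a subfield of degree three of the algebra of `3 × 3` matrices is maximal in
`SL₃(q)` for `q ≠ 4`.
-/

set_option autoImplicit false

namespace CfsgLib.Geometric.SLThree

open Matrix

/-- `2 ^ f - 1` has a prime divisor other than three for `f ≥ 3`. -/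
lemma exists_prime_dvd_two_pow_sub_one {f : ℕ} (hf : 3 ≤ f) :
    ∃ ℓ : ℕ, ℓ.Prime ∧ ℓ ≠ 3 ∧ ℓ ∣ 2 ^ f - 1 := by
  by_contra hc
  push Not at hc
  have h8 : 2 ^ 3 ∣ 2 ^ f := pow_dvd_pow 2 hf
  have hne : 2 ^ f - 1 ≠ 0 := by
    have := Nat.le_of_dvd (pow_pos two_pos f) h8
    omega
  obtain ⟨j, hj⟩ : ∃ j, 2 ^ f - 1 = 3 ^ j :=
    ⟨_, Nat.eq_prime_pow_of_unique_prime_dvd hne fun hd hdd =>
      by_contra fun h => hc _ hd h hdd⟩
  have h3 : 3 ^ j % 8 = 1 ∨ 3 ^ j % 8 = 3 := by
    clear hj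
    induction j with
    | zero => left; rfl
    | succ j ih => rw [pow_succ, Nat.mul_mod]; rcases ih with h | h <;> rw [h] <;> decide
  obtain ⟨r, hr⟩ := h8
  omega

variable {F : Type*} [Field F] [Fintype F] {E : Type*} [Field E] [Algebra F E]
  (ρ : E →ₐ[F] Matrix (Fin 3) (Fin 3) F) (h3 : Module.finrank F E = 3)
include h3

/-- The orbit of a vector under the Singer cycle spans. -/
lemma span_cyc_orbit (hq : 2 ≤ Fintype.card F) {w : Fin 3 → F} (hw : w ≠ 0) :
    Submodule.span F {x | ∃ u ∈ cyc ρ, ap u w = x} = ⊤ := by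
  have := finite_ext h3
  have : Finite E := Module.finite_of_finite F
  set S : Submonoid E := (normOne F E).toSubmonoid.map (Units.coeHom E) with hS
  have hadj : Submodule.span F (S : Set E) = ⊤ := by
    have : IsSimpleOrder (Subalgebra F E) :=
      Subalgebra.isSimpleOrder_of_finrank_prime F E (h3 ▸ Nat.prime_three)
    have h : Subalgebra.toSubmodule (Algebra.adjoin F (S : Set E)) = Submodule.span F (S : Set E) := by
      rw [Algebra.adjoin_eq_span, Submonoid.closure_eq]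
    rcases eq_bot_or_eq_top (Algebra.adjoin F (S : Set E)) with hb | ht
    · exfalso
      have hsub : ∀ k : normOne F E, ∃ a : F, algebraMap F E a = ((k : Eˣ) : E) := fun k => by
        have : ((k : Eˣ) : E) ∈ Algebra.adjoin F (S : Set E) :=
          Algebra.subset_adjoin ⟨k.1, k.2, rfl⟩
        rw [hb, Algebra.mem_bot] at this
        exact this
      choose a ha using hsub
      have hle : Nat.card (normOne F E) ≤ Nat.card F := Nat.card_le_card_of_injective a
        fun k k' he => Subtype.ext (Units.ext (by rw [← ha k, ← ha k', he]))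
      rw [card_normOne h3, Nat.card_eq_fintype_card] at hle
      nlinarith
    · rw [← h, ht, Algebra.top_toSubmodule]
  have hset : {x | ∃ u ∈ cyc ρ, ap u w = x} = orbEquiv ρ h3 w hw '' (S : Set E) := by
    ext x
    constructor
    · rintro ⟨_, ⟨k, hk, rfl⟩, rfl⟩
      exact ⟨k, ⟨k, hk, rfl⟩, rfl⟩
    · rintro ⟨_, ⟨k, hk, rfl⟩, rfl⟩
      exact ⟨_, ⟨k, hk, rfl⟩, rfl⟩
  rw [hset, ← LinearEquiv.coe_coe, ← Submodule.map_span, hadj, Submodule.map_top,
    LinearEquiv.range]

theorem eq_or_eq_of_normalizer_le (hq : Fintype.card F ≠ 4) {M : Subgroup (GL (Fin 3) F)}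
    (hNM : Cfsg.Geo.subalgebraNormalizer ρ.range ⊓ Cfsg.Geo.specialLinear (Fin 3) F ≤ M)
    (hMS : M ≤ Cfsg.Geo.specialLinear (Fin 3) F) :
    M = Cfsg.Geo.subalgebraNormalizer ρ.range ⊓ Cfsg.Geo.specialLinear (Fin 3) F ∨
      M = Cfsg.Geo.specialLinear (Fin 3) F := by
  classical
  have := finite_ext h3
  have : Finite E := Module.finite_of_finite F
  set q := Fintype.card F with hqd
  set n := q ^ 2 + q + 1 with hn
  set N := Cfsg.Geo.subalgebraNormalizer ρ.range ⊓ Cfsg.Geo.specialLinear (Fin 3) F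
  set SL := Cfsg.Geo.specialLinear (Fin 3) F
  obtain ⟨p, hp⟩ := CharP.exists F
  obtain ⟨f, hpp, hqp⟩ := FiniteField.card F p
  have : Fact p.Prime := ⟨hpp⟩
  rw [← hqd] at hqp
  have hq2 : 2 ≤ q := Fintype.one_lt_card
  have hCM : cyc ρ ≤ M := (cyc_le ρ h3).trans hNM
  -- orders
  have hN : Nat.card N = 3 * n := (normalizer_data ρ h3).1
  set x := N.relIndex M with hx
  have hMc : Nat.card M = 3 * n * x := by
    rw [← hN, hx, Subgroup.relIndex, ← (N.subgroupOf M).card_mul_index,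
      Nat.card_congr (Subgroup.subgroupOfEquivOfLe hNM).toEquiv]
  have hSLc : Nat.card SL = q ^ 3 * (SingerArith.W q * n) := card_specialLinear_three
  set y := M.relIndex SL with hy
  have hyc : 3 * n * x * y = q ^ 3 * (SingerArith.W q * n) := by
    rw [← hMc, ← hSLc, hy, Subgroup.relIndex, ← (M.subgroupOf SL).card_mul_index,
      Nat.card_congr (Subgroup.subgroupOfEquivOfLe hMS).toEquiv]
  have hn0 : 0 < n := Nat.succ_pos _
  have hxy : 3 * x * y = q ^ 3 * SingerArith.W q :=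
    Nat.eq_of_mul_eq_mul_right hn0 (by linear_combination hyc)
  have hx0 : x ≠ 0 := fun h => by
    rw [h, mul_zero] at hMc
    exact Nat.card_pos.ne' hMc
  have hn9 : ¬ 9 ∣ n := by
    rw [hn, Nat.dvd_iff_mod_eq_zero]
    have h := Nat.mod_lt q (show 9 > 0 by norm_num)
    rw [Nat.add_mod, Nat.add_mod (q ^ 2), Nat.pow_mod]
    interval_cases q % 9 <;> decide
  obtain ⟨d, m, hd, hdm, hdt⟩ : ∃ d m, (d = 1 ∨ d = 3) ∧ d * m = n ∧
      ∀ t, t ∣ n → t ∣ 9 → t ∣ d := by
    by_cases h3n : 3 ∣ n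
    · refine ⟨3, n / 3, Or.inr rfl, Nat.mul_div_cancel' h3n, fun t ht ht9 => ?_⟩
      obtain ⟨i, hi, rfl⟩ := (Nat.dvd_prime_pow Nat.prime_three).1 (show t ∣ 3 ^ 2 by simpa using ht9)
      interval_cases i <;> simp_all
    · refine ⟨1, n, Or.inl rfl, one_mul _, fun t ht ht9 => ?_⟩
      have : t ∣ Nat.gcd (3 ^ 2) n := Nat.dvd_gcd (by simpa using ht9) ht
      rwa [Nat.Coprime.gcd_eq_one (Nat.Coprime.pow_left _
        ((Nat.Prime.coprime_iff_not_dvd Nat.prime_three).2 h3n))] at this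
  have hmod : x ≡ 1 [MOD m] := index_modEq ρ h3 hNM hMS hdt hdm
  rcases SingerArith.index_cases hpp hqp f.pos.ne' hq hd hdm hmod hx0 (hxy ▸ Dvd.intro y rfl)
    with hone | hfull | hW
  · left
    exact le_antisymm (Subgroup.relIndex_eq_one.1 hone) hNM
  · right
    refine le_antisymm hMS ?_
    have hpy : ¬ p ∣ y := by
      intro h
      obtain ⟨r, hr⟩ := hfull
      rw [hr, mul_assoc] at hxy
      have h2 := Nat.eq_of_mul_eq_mul_left (by positivity) hxy
      exact SingerArith.not_dvd_W hpp (hqp ▸ dvd_pow_self p f.pos.ne') hq2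
        (h2 ▸ Dvd.dvd.mul_left h r)
    obtain ⟨w, hw, hfc⟩ := exists_fullCentre p hpy
    refine specialLinear_le_of_fullCentre (span_cyc_orbit ρ h3 hq2 hw) ?_
    rintro _ ⟨u, hu, rfl⟩
    exact fullCentre_ap (hCM hu) hfc
  · by_cases hone : x = 1
    · left
      exact le_antisymm (Subgroup.relIndex_eq_one.1 hone) hNM
    exfalso
    have hp3 : p ≠ 3 := by
      rintro rfl
      exact SingerArith.not_dvd_W hpp (hqp ▸ dvd_pow_self 3 f.pos.ne') hq2 (hW ▸ dvd_mul_right 3 x)
    have hy3 : y = q ^ 3 := by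
      rw [hW, mul_comm (q ^ 3)] at hxy
      refine Nat.eq_of_mul_eq_mul_left ?_ hxy
      rw [← hW]
      omega
    have hpM : ¬ p ∣ Nat.card M := by
      rw [hMc, show 3 * n * x = 3 * x * n by ring, hW]
      intro h
      rcases hpp.dvd_mul.1 h with h' | h'
      · exact SingerArith.not_dvd_W hpp (hqp ▸ dvd_pow_self p f.pos.ne') hq2 h'
      · have hpq : p ∣ q := hqp ▸ dvd_pow_self p f.pos.ne'
        exact hpp.not_dvd_one ((Nat.dvd_add_right (dvd_add (dvd_pow hpq two_ne_zero) hpq)).1 h')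
    have hq5 : 5 ≤ q := by
      by_contra hc
      push Not at hc
      interval_cases q <;> simp [SingerArith.W] at hW <;> omega
    obtain ⟨ℓ, ω, hℓ, hℓp, hω, hω3⟩ : ∃ ℓ : ℕ, ∃ ω : Fˣ, ℓ.Prime ∧ ℓ ≠ p ∧ ω ^ ℓ = 1 ∧
        ω ^ 3 ≠ 1 := by
      by_cases hp2 : p = 2
      · have hf3 : 3 ≤ (f : ℕ) := by
          by_contra hc
          push Not at hc
          have : q ≤ 4 := by
            rw [hqp, hp2]
            exact (Nat.pow_le_pow_right two_pos (show (f : ℕ) ≤ 2 by omega))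
          omega
        obtain ⟨ℓ, hℓ, hℓ3, hℓd⟩ := exists_prime_dvd_two_pow_sub_one hf3
        have : Fact ℓ.Prime := ⟨hℓ⟩
        have hℓd' : ℓ ∣ Nat.card Fˣ := by
          rwa [Nat.card_eq_fintype_card, Fintype.card_units, ← hqd, hqp, hp2]
        obtain ⟨ω, hω⟩ := exists_prime_orderOf_dvd_card' ℓ hℓd'
        refine ⟨ℓ, ω, hℓ, ?_, hω ▸ pow_orderOf_eq_one ω, fun h => hℓ3 ?_⟩
        · rintro rfl
          subst hp2
          have h8 : 2 ^ 3 ∣ 2 ^ (f : ℕ) := pow_dvd_pow 2 hf3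
          have := Nat.le_of_dvd (pow_pos two_pos _) h8
          omega
        · exact (Nat.prime_dvd_prime_iff_eq hℓ Nat.prime_three).1 (hω ▸ orderOf_dvd_of_pow_eq_one h)
      · refine ⟨2, -1, Nat.prime_two, fun h => hp2 h.symm, by simp, fun h => hp2 ?_⟩
        have h' : (-1 : F) = 1 := by
          have := congrArg Units.val h
          simpa [pow_succ] using this
        exact (CharP.eq F hp (ringChar.charP F)).trans
          ((neg_one_eq_one_iff.1 h'))
    have : Fact ℓ.Prime := ⟨hℓ⟩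
    have hidx : ¬ ℓ ∣ y := by
      rw [hy3, hqp, ← pow_mul]
      exact fun h => hℓp ((Nat.prime_dvd_prime_iff_eq hℓ hpp).1 (hℓ.dvd_of_dvd_pow h))
    obtain ⟨h, hhM, a, b, hab, c, φ, hh⟩ := exists_homology hω hω3 hidx
    have hc0 : c ≠ 0 := by
      intro hc
      simpa [hc] using hh.one
    refine no_symmetric_functional h3 hq5
      (φ.comp (orbEquiv ρ h3 c hc0).toLinearMap) ?_ fun k hk h0 => ?_
    · rw [LinearMap.comp_apply, LinearEquiv.coe_coe, orbEquiv_apply, map_one, one_mulVec, hh.one]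
    · have hu : unitHom ρ k ∈ M := hCM ⟨k, hk, rfl⟩
      have := hh.symmetric p hpM hhM hab hu h0
      rwa [← map_inv] at this

omit h3

/-- The normaliser of a subfield of degree three is maximal in `SL₃(q)` for `q ≠ 4`. -/
theorem singer_isMaximalIn {F : Type*} [Field F] [Fintype F] (hq : Fintype.card F ≠ 4)
    (K : Subalgebra F (Matrix (Fin 3) (Fin 3) F)) (hK : Cfsg.Geo.IsFieldSubalgebra 3 K) :
    Cfsg.Geo.IsMaximalIn (Cfsg.Geo.specialLinear (Fin 3) F)
      (Cfsg.Geo.subalgebraNormalizer K ⊓ Cfsg.Geo.specialLinear (Fin 3) F) := by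
  classical
  have hne : ¬ Cfsg.Geo.specialLinear (Fin 3) F ≤ Cfsg.Geo.subalgebraNormalizer K :=
    CfsgLib.SmallDim.not_sl_le_subalgebraNormalizer (by simp) (by norm_num) hK
  have : Nontrivial K := Module.nontrivial_of_finrank_pos (R := F) (by rw [hK.finrank_eq]; norm_num)
  let instCR : CommRing K :=
    { (inferInstance : Ring K) with mul_comm := fun a b => Subtype.ext (hK.comm a a.2 b b.2) }
  have hfield : IsField K := by
    refine ⟨exists_pair_ne K, fun a b => Subtype.ext (hK.comm a a.2 b b.2), fun {a} ha => ?_⟩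
    obtain ⟨y, hy, hay⟩ := hK.inv a a.2 (fun h0 => ha (Subtype.ext h0))
    exact ⟨⟨y, hy⟩, Subtype.ext hay⟩
  let instField : Field K := hfield.toField
  let instAlg : Algebra F K := inferInstance
  refine ⟨lt_of_le_of_ne inf_le_right fun h => hne (h ▸ inf_le_left), fun M h1 h2 => ?_⟩
  have hr : K.val.range = K := Subalgebra.range_val K
  have := eq_or_eq_of_normalizer_le K.val hK.finrank_eq hq (hr.symm ▸ h1) h2
  rwa [hr] at this

end CfsgLib.Geometric.SLThree
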