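import Cfsg.Agent.Lib.Geometric.SLThree.Local

/-!
With a neighbour of the inverting involution present, no involution centralises a non-central
element of the extraspecial group, which is then a Sylow subgroup.
-/

set_option autoImplicit false
set_option linter.unusedSectionVars false
set_option linter.style.haveILetI false

namespace CfsgLib.Geometric.SLThree

open Matrix MulAction
open scoped Pointwise

variable {F : Type*} [Field F]

namespace Omega

variable (o : Omega F)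

/-- The central subgroup of order three. -/
noncomputable abbrev Zc : Subgroup (GL (Fin 3) F) := Subgroup.zpowers o.Z

instance Zc_normal : o.Zc.Normal := ⟨fun n hn g => by
  obtain ⟨k, rfl⟩ := Subgroup.mem_zpowers_iff.mp hn
  rw [(Commute.zpow_right (o.Z_comm g) k).eq, mul_inv_cancel_right]
  exact Subgroup.mem_zpowers_iff.mpr ⟨k, rfl⟩⟩

lemma mem_Zc_iff [Finite F] {g : GL (Fin 3) F} : g ∈ o.Zc ↔ ∃ i : ℕ, g = o.Z ^ i := by
  rw [Zc, ← mem_powers_iff_mem_zpowers, Submonoid.mem_powers_iff]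
  exact exists_congr fun i => eq_comm

lemma nf_mem_Zc_iff [Finite F] {a b c : ℕ} : o.nf a b c ∈ o.Zc ↔ b % 3 = 0 ∧ c % 3 = 0 := by
  rw [mem_Zc_iff]
  constructor
  · rintro ⟨i, hi⟩
    rw [show o.Z ^ i = o.nf i 0 0 by simp [nf]] at hi
    exact (o.nf_inj hi).2
  · rintro ⟨hb, hc⟩
    exact ⟨a, by rw [o.nf_congr (a' := a) (b' := 0) (c' := 0) rfl (by omega) (by omega)]; simp [nf]⟩

/-- An element conjugating `D` to a scalar multiple is monomial. -/
lemma exists_monomial {g : GL (Fin 3) F} {i : ℕ} (h : g * o.D * g⁻¹ = o.Z ^ i * o.D) :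
    ∃ a b c, IsDg (g * o.P ^ i) a b c := by
  apply o.exists_dg
  have h1 : o.P ^ i * o.D = o.Z ^ (2 * i) * o.D * o.P ^ i := by
    simpa using o.P_pow_D_pow i 1
  rw [mul_assoc, h1, ← mul_assoc, ← mul_assoc g, o.Z_pow_comm (2 * i) g, mul_assoc (o.Z ^ (2 * i)) g,
    show g * o.D = o.Z ^ i * o.D * g by rw [← h, inv_mul_cancel_right],
    show o.Z ^ (2 * i) * (o.Z ^ i * o.D * g) * o.P ^ i = o.Z ^ (2 * i + i) * o.D * (g * o.P ^ i) by
      rw [pow_add]; simp only [mul_assoc],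
    show 2 * i + i = 3 * i by ring, pow_mul, o.Z_cube, one_pow, one_mul]

end Omega

namespace C6Hyp

variable [Finite F] {o : Omega F} {H : Subgroup (GL (Fin 3) F)} (hH : C6Hyp o H)
include hH

lemma P_conj_mem {g : GL (Fin 3) F} (hg : g ∈ H) : o.P * g * o.P⁻¹ ∈ H :=
  mul_mem (mul_mem hH.P_mem hg) (inv_mem hH.P_mem)

/-- No involution commutes, modulo scalars, with `D`. -/
theorem no_inv_comm_D {s : GL (Fin 3) F} (hs : s ∈ H) (h2 : s * s = 1) (h1 : s ≠ 1) {i : ℕ}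
    (hD : s * o.D * s⁻¹ = o.Z ^ i * o.D) : False := by
  classical
  have hsi : s⁻¹ = s := inv_eq_of_mul_eq_one_right h2
  have hc : s * o.D = o.D * s := by
    have h3 : o.D = o.Z ^ (i + i) * o.D := by
      calc o.D = s * (s * o.D * s⁻¹) * s⁻¹ := by
            rw [hsi, show s * (s * o.D * s) * s = (s * s) * o.D * (s * s) by group, h2, one_mul, mul_one]
        _ = o.Z ^ i * (s * o.D * s⁻¹) := by
            rw [hD, ← mul_assoc, o.Z_pow_comm, show o.Z ^ i * s * o.D * s⁻¹ = o.Z ^ i * (s * o.D * s⁻¹) by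
              group, hD]
        _ = _ := by rw [hD, ← mul_assoc, pow_add]
    rw [right_eq_mul, pow_add] at h3
    rw [eq_one_of_Z_sq h3, one_mul] at hD
    exact mul_inv_eq_iff_eq_mul.mp hD
  obtain ⟨a, b, c, hd⟩ := o.exists_dg hc
  have hone : IsDg (1 : GL (Fin 3) F) 1 1 1 := fun x => by funext j; fin_cases j <;> simp
  obtain ⟨ha, hb, hc'⟩ := (hd.mul hd).unique (h2 ▸ hone)
  have habc : a * b * c = 1 := hd.det.symm.trans (hH.det_eq_one hs)
  -- the sign changes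
  obtain ⟨s0, hs0, hd0⟩ : ∃ s0 ∈ H, IsDg s0 1 (-1) (-1) := by
    have hP1 := o.P_conj_dg hd
    have hP2 := o.P_conj_dg hP1
    rcases mul_self_eq_one_iff.mp ha with ea | ea <;> rcases mul_self_eq_one_iff.mp hb with eb | eb <;>
      subst ea <;> subst eb <;> simp at habc
    · subst habc
      exact absurd (hd.eq hone) h1
    · obtain rfl : c = -1 := neg_eq_iff_eq_neg.mp habc
      exact ⟨s, hs, hd⟩
    · obtain rfl : c = -1 := neg_eq_iff_eq_neg.mp habc
      exact ⟨_, hH.P_conj_mem (hH.P_conj_mem hs), hP2⟩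
    · subst habc
      exact ⟨_, hH.P_conj_mem hs, hP1⟩
  have hd1 := o.P_conj_dg hd0
  set s1 := o.P * s0 * o.P⁻¹ with hs1def
  have hs1 : s1 ∈ H := hH.P_conj_mem hs0
  have hs00 : s0 * s0 = 1 := (hd0.mul hd0).eq (by simpa using hone)
  have hs0t : s0 * o.t = o.t * s0 := gl_ext fun x => by
    rw [ap_mul, ap_mul, hd0, o.ap_t, hd0, o.ap_t]
    funext j; fin_cases j <;> simp
  have hs0ne : s0 ≠ 1 := fun e => o.two (by
    have h := ((e ▸ hd0 : IsDg (1 : GL (Fin 3) F) 1 (-1) (-1)).unique hone).2.1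
    linear_combination -h)
  have hs0t' : s0 ≠ o.t := fun e => by
    have h := congrFun (congrArg (fun g => ap g (Pi.single 1 1)) e) 1
    rw [hd0, o.ap_t] at h
    simp at h
  obtain ⟨x, hx, -, hxs⟩ := hH.neighbour hs0 hs00 hs0t hs0ne hs0t'
  have hst : s1 * o.t * s1⁻¹ = o.t * s0 := by
    rw [mul_inv_eq_iff_eq_mul]
    refine gl_ext fun y => ?_
    simp only [ap_mul, o.ap_t, hd1 _, hd0 _]
    funext j; fin_cases j <;> simp
  set y := x⁻¹ * s1 with hy
  have hyH : y ∈ H := mul_mem (inv_mem hx) hs1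
  set L := hH.L0.conj hyH with hL
  have hLs : L.s = s0 := by
    show y * o.t * y⁻¹ = s0
    rw [hy, show x⁻¹ * s1 * o.t * (x⁻¹ * s1)⁻¹ = x⁻¹ * (s1 * o.t * s1⁻¹) * x by group, hst, ← hxs]
    group
  let e1 : Fin 3 → F := ![0, 1, 0]
  let e2 : Fin 3 → F := ![0, 0, 1]
  have he1 : L.A.φ e1 = 0 := L.isHom.ker_of_neg o.two (by
    rw [hLs, hd0]; funext j; fin_cases j <;> simp [e1])
  have he2 : L.A.φ e2 = 0 := L.isHom.ker_of_neg o.two (by
    rw [hLs, hd0]; funext j; fin_cases j <;> simp [e2])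
  have he10 : e1 ≠ 0 := fun h => by simpa [e1] using congrFun h 1
  have he20 : e2 ≠ 0 := fun h => by simpa [e2] using congrFun h 2
  -- an element of order six on the axis
  have hdd := o.D_dg.mul hd1
  set d := o.D * s1
  have hdX : d ∈ L.X := L.mem_X.mpr ⟨mul_mem hH.D_mem hs1, by rw [hLs]; exact hdd.comm_diag hd0⟩
  let d' : L.X := ⟨d, hdX⟩
  have hde1 : ∃ β : F, ap (d' : GL (Fin 3) F) e1 = β • e1 :=
    ⟨o.w * 1, by show ap d e1 = _; rw [hdd]; funext j; fin_cases j <;> simp [e1]⟩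
  have hde2 : ∃ β : F, ap (d' : GL (Fin 3) F) e2 = β • e2 :=
    ⟨o.w ^ 2 * -1, by show ap d e2 = _; rw [hdd]; funext j; fin_cases j <;> simp [e2]⟩
  have hsc : ∀ k, IsSc L.ρ (d' ^ k) → o.w ^ k = (-1) ^ k * (o.w ^ 2) ^ k := by
    intro k hk
    obtain ⟨r, hr⟩ := (L.isSc_iff _).mp hk
    have f1 := congrFun (hr e1 he1) 1
    have f2 := congrFun (hr e2 he2) 2
    rw [SubgroupClass.coe_pow, show ((d' : L.X) : GL (Fin 3) F) = d from rfl, hdd.pow k] at f1 f2
    simp [e1, e2] at f1 f2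
    rw [f1, ← f2, ← mul_pow, neg_one_mul]
  have hw6 : ∀ k, 0 < k → k < 6 → o.w ^ k ≠ (-1) ^ k * (o.w ^ 2) ^ k := by
    intro k h0 h6 h
    have hr := o.root
    have hc3 := o.cube
    have h20 := o.two
    have h30 := o.three
    interval_cases k <;> grind
  have hdn : ¬ IsSc L.ρ d' := fun h => hw6 1 one_pos (by norm_num) (hsc 1 (by rwa [pow_one]))
  have hord : 6 ≤ orderOf (img L.ρ d') := by
    haveI := L.finite_pts
    by_contra hlt
    have hpos := orderOf_pos (img L.ρ d')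
    refine hw6 _ hpos (by omega) (hsc _ ?_)
    rw [← L.img_eq_one, img_pow, pow_orderOf_eq_one]
  haveI := L.finite_pts
  set E1 := L.pt hdn he1 he10 hde1 with hE1
  set E2 := L.pt hdn he2 he20 hde2 with hE2
  have hfix : img L.ρ d' • E1 = E1 := (L.smul_pt_eq hdn he1 he10 hde1 d').mpr hde1
  have hcard := L.twoPoint.pair_of_six hord hfix
  have htX : o.t ∈ L.X := L.mem_X.mpr ⟨hH.t_mem, by rw [hLs]; exact hs0t.symm⟩
  let t' : L.X := ⟨o.t, htX⟩
  have ht12 : ap o.t e1 = (-1 : F) • e2 := by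
    rw [o.ap_t]; funext j; fin_cases j <;> simp [e1, e2]
  have hne12 : E1 ≠ E2 := fun h => by
    have hid : (1 : L.X) • E1 = E2 := (one_smul L.X E1).trans h
    obtain ⟨r, hr⟩ := L.ap_of_smul_pt hdn hdn he1 he10 hde1 he2 he20 hde2 hid
    have := congrFun hr 1
    simp [e1, e2] at this
  have htE : t' • E1 = E2 := by
    apply Subtype.ext
    show (Submodule.span L.K {Axis.up L.K (L.A.coord e1)}).map (L.ρ t').toLinearMap =
      Submodule.span L.K {Axis.up L.K (L.A.coord e2)}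
    rw [span_map_rho, Axis.rep_apply, Axis.resK_up, Axis.res_apply, L.A.emb_coord e1 he1, ht12, map_smul,
      Axis.up_smul]
    exact Submodule.span_singleton_smul_eq
      (IsUnit.mk0 _ ((map_ne_zero _).mpr (by simp))) _
  have horbit : ∀ g : L.X, g • E1 = E1 ∨ g • E1 = E2 := by
    intro g
    have hp := TwoPoint.pair_eq hcard (mem_orbit_self E1) ⟨img L.ρ t', htE⟩ hne12
    have : g • E1 ∈ orbit (PImage L.ρ) E1 := ⟨img L.ρ g, rfl⟩
    rw [hp] at this
    exact this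
  have hfix2 : ∀ g : L.X, g • E1 = E1 → ∃ a b c, IsDg (g : GL (Fin 3) F) a b c := by
    intro g hg
    obtain ⟨β1, h11⟩ := (L.smul_pt_eq hdn he1 he10 hde1 g).mp hg
    have h22 : g • E2 = E2 := by
      have hp := TwoPoint.pair_eq hcard (mem_orbit_self E1) ⟨img L.ρ t', htE⟩ hne12
      have h3 : g • E2 ∈ orbit (PImage L.ρ) E1 := ⟨img L.ρ g * img L.ρ t', by
        show (img L.ρ g * img L.ρ t') • E1 = _
        rw [mul_smul, show img L.ρ t' • E1 = E2 from htE]; rfl⟩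
      rw [hp] at h3
      rcases h3 with h3 | h3
      · exact absurd (smul_left_cancel g (hg.trans h3.symm)) hne12
      · exact h3
    obtain ⟨β2, h12⟩ := (L.smul_pt_eq hdn he2 he20 hde2 g).mp h22
    obtain ⟨β0, h10⟩ := L.eig_c g.2
    have hcs : L.A.c = L.A.c 0 • ![1, 0, 0] := by
      have := L.isHom.ap_c
      rw [hLs, hd0] at this
      have z1 := congrFun this 1
      have z2 := congrFun this 2
      simp at z1 z2
      have w1 : L.A.c 1 = 0 := (mul_eq_zero.mp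
        (show (2 : F) * L.A.c 1 = 0 by linear_combination -z1)).resolve_left o.two
      have w2 : L.A.c 2 = 0 := (mul_eq_zero.mp
        (show (2 : F) * L.A.c 2 = 0 by linear_combination -z2)).resolve_left o.two
      funext j; fin_cases j <;> simp [w1, w2]
    have hc0 : L.A.c 0 ≠ 0 := fun h => L.A.c_ne (by rw [hcs, h, zero_smul])
    have h10' : ap (g : GL (Fin 3) F) ![1, 0, 0] = β0 • ![1, 0, 0] := by
      rw [hcs, ap_smul, smul_comm] at h10
      exact smul_right_injective _ hc0 h10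
    refine ⟨β0, β1, β2, fun v => ?_⟩
    have hv : v = v 0 • ![1, 0, 0] + v 1 • e1 + v 2 • e2 := by
      funext j; fin_cases j <;> simp [e1, e2]
    conv_lhs => rw [hv]
    rw [ap_add, ap_add, ap_smul, ap_smul, ap_smul, h10', h11, h12]
    funext j; fin_cases j <;> simp [e1, e2, mul_comm]
  -- a diagonal square root of `s0`
  obtain ⟨r, hrd, hr2⟩ : ∃ r : L.X, (∃ a b c, IsDg (r : GL (Fin 3) F) a b c) ∧
      (r : GL (Fin 3) F) * r = s0 := by
    let A : L.X := ⟨L.u, L.u_X⟩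
    let B : L.X := ⟨L.v, L.v_X⟩
    rcases horbit A with hA | hA
    · exact ⟨A, hfix2 A hA, L.u_sq.trans hLs⟩
    rcases horbit B with hB | hB
    · exact ⟨B, hfix2 B hB, L.v_sq.trans hLs⟩
    · refine ⟨A * B, hfix2 _ ?_, L.uv_sq.trans hLs⟩
      rw [mul_smul, hB]
      have hp := TwoPoint.pair_eq hcard (mem_orbit_self E1) ⟨img L.ρ t', htE⟩ hne12
      have h3 : A • E2 ∈ orbit (PImage L.ρ) E1 := ⟨img L.ρ A * img L.ρ t', by
        show (img L.ρ A * img L.ρ t') • E1 = _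
        rw [mul_smul, show img L.ρ t' • E1 = E2 from htE]; rfl⟩
      rw [hp] at h3
      rcases h3 with h3 | h3
      · exact h3
      · exact absurd (smul_left_cancel A (hA.trans h3.symm)) hne12
  obtain ⟨a', b', c'', hr⟩ := hrd
  obtain ⟨ea, eb, ec⟩ := (hr.mul hr).unique (hr2 ▸ hd0)
  have hPr := o.P_conj_dg hr
  have hprod := hPr.mul (o.t_conj_dg hPr)
  rw [mul_comm b' a', ec] at hprod
  have hmem : o.P * (r : GL (Fin 3) F) * o.P⁻¹ *
      (o.t * (o.P * (r : GL (Fin 3) F) * o.P⁻¹) * o.t) ∈ H :=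
    mul_mem (hH.P_conj_mem r.2.1) (mul_mem (mul_mem hH.t_mem (hH.P_conj_mem r.2.1)) hH.t_mem)
  have hfin := hH.side ⟨s0, hs0, hs00, hs0t, hs0ne, hs0t'⟩ hmem hprod
  have : (a' * b') ^ 2 = -1 := by
    rw [mul_pow, pow_two, pow_two, ea, eb, one_mul]
  rw [this] at hfin
  exact o.two (by linear_combination hfin)

/-- The centraliser, modulo scalars, of `D` lies in `R`. -/
theorem cc_D (hN : HasNbr o H) {g : GL (Fin 3) F} (hg : g ∈ H) {i : ℕ}
    (hD : g * o.D * g⁻¹ = o.Z ^ i * o.D) : g ∈ o.R := by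
  obtain ⟨a, b, c, hd⟩ := o.exists_monomial hD
  set d := g * o.P ^ i with hdef
  have hdH : d ∈ H := mul_mem hg (pow_mem hH.P_mem i)
  have six : ∀ {d : GL (Fin 3) F} {a b c : F}, d ∈ H → IsDg d a b c → a ^ 6 = 1 := by
    intro d a b c hdH hd
    have habc : a * b * c = 1 := hd.det.symm.trans (hH.det_eq_one hdH)
    have hp := hd.mul (o.t_conj_dg hd)
    rw [mul_comm c b] at hp
    have h := hH.side hN (mul_mem hdH (mul_mem (mul_mem hH.t_mem hdH) hH.t_mem)) hp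
    calc a ^ 6 = a ^ 2 * (a * a) ^ 2 := by ring
      _ = a ^ 2 * (b * c) ^ 2 := by rw [h]
      _ = (a * b * c) ^ 2 := by ring
      _ = 1 := by rw [habc, one_pow]
  have hP1 := o.P_conj_dg hd
  have h6a := six hdH hd
  have h6c := six (hH.P_conj_mem hdH) hP1
  have habc : a * b * c = 1 := hd.det.symm.trans (hH.det_eq_one hdH)
  have hcube := hd.pow 3
  have hone : IsDg (1 : GL (Fin 3) F) 1 1 1 := fun x => by funext j; fin_cases j <;> simp
  have hd3 : d ^ 3 = 1 := by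
    by_contra hne
    refine hH.no_inv_comm_D (pow_mem hdH 3) ?_ hne (i := 0) ?_
    · rw [← pow_add]
      have h6b : b ^ 6 = 1 := by
        have h : (a * b * c) ^ 6 = 1 := by rw [habc, one_pow]
        rw [mul_pow, mul_pow, h6a, h6c, one_mul, mul_one] at h
        exact h
      have := hd.pow 6
      rw [h6a, h6b, h6c] at this
      exact this.eq hone
    · rw [pow_zero, one_mul, mul_inv_eq_iff_eq_mul]
      exact hcube.comm_diag o.D_dg
  obtain ⟨a3, b3, -⟩ := hcube.unique (hd3 ▸ hone)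
  have hdR := o.dg_mem_R hd a3 b3 habc
  have : g = d * (o.P ^ i)⁻¹ := by rw [hdef, mul_inv_cancel_right]
  rw [this]
  exact mul_mem hdR (inv_mem (pow_mem o.P_mem i))

lemma W_mem_of {W : GL (Fin 3) F} (hW : W ∈ ({1, o.W0, o.W1, o.W2} : Set (GL (Fin 3) F))) :
    W ∈ H ∧ W ∈ Cfsg.Geo.subgroupNormalizer o.R := by
  simp only [Set.mem_insert_iff, Set.mem_singleton_iff] at hW
  rcases hW with rfl | rfl | rfl | rfl
  · exact ⟨one_mem _, one_mem _⟩
  · exact ⟨hH.W0_mem, o.W0_norm⟩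
  · exact ⟨hH.W1_mem, o.W1_norm⟩
  · exact ⟨hH.W2_mem, o.W2_norm⟩

/-- A non-central element of `R` is conjugate to a power of `D` times a scalar. -/
lemma conj_noncentral {v : GL (Fin 3) F} (hv : v ∈ o.R) (hnZ : v ∉ o.Zc) :
    ∃ W, W ∈ H ∧ W ∈ Cfsg.Geo.subgroupNormalizer o.R ∧ ∃ m j, j % 3 ≠ 0 ∧
      W * v * W⁻¹ = o.Z ^ m * o.D ^ j := by
  obtain ⟨W, hW, m, j, hWv⟩ := o.conj_into_D hv
  refine ⟨W, (hH.W_mem_of hW).1, (hH.W_mem_of hW).2, m, j, fun hj => hnZ ?_, by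
    rw [hWv]; simp [Omega.nf]⟩
  have hm : W * v * W⁻¹ ∈ o.Zc := hWv ▸ o.nf_mem_Zc_iff.mpr ⟨hj, rfl⟩
  have := o.Zc_normal.conj_mem _ hm W⁻¹
  simpa [mul_assoc] using this

omit hH in
lemma D_of_pow {g : GL (Fin 3) F} {i j : ℕ} (hj : j % 3 ≠ 0)
    (h : g * o.D ^ j * g⁻¹ = o.Z ^ i * o.D ^ j) : ∃ k, g * o.D * g⁻¹ = o.Z ^ k * o.D := by
  have hjj : (j * j) % 3 = 1 := by
    rcases (show j % 3 = 1 ∨ j % 3 = 2 by omega) with e | e <;> rw [Nat.mul_mod, e]
  refine ⟨i * j, ?_⟩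
  have h1 : o.D = (o.D ^ j) ^ j := by rw [← pow_mul, pow_eq_pow_mod _ o.D_cube, hjj, pow_one]
  calc g * o.D * g⁻¹ = (g * o.D ^ j * g⁻¹) ^ j := by rw [conj_pow, ← h1]
    _ = (o.Z ^ i) ^ j * (o.D ^ j) ^ j := by
        rw [h, Commute.mul_pow (o.Z_pow_comm i (o.D ^ j)).symm]
    _ = _ := by rw [← pow_mul, ← h1]

/-- The centraliser modulo scalars of a non-central element of `R`. -/
theorem cc (hN : HasNbr o H) {v : GL (Fin 3) F} (hv : v ∈ o.R) (hnZ : v ∉ o.Zc)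
    {g : GL (Fin 3) F} (hg : g ∈ H) {i : ℕ} (h : g * v * g⁻¹ = o.Z ^ i * v) : g ∈ o.R := by
  obtain ⟨W, hWH, hWN, m, j, hj, hWv⟩ := hH.conj_noncentral hv hnZ
  set g1 := W * g * W⁻¹ with hg1
  have h1 : g1 * o.D ^ j * g1⁻¹ = o.Z ^ i * o.D ^ j := by
    have e : g1 * (o.Z ^ m * o.D ^ j) * g1⁻¹ = o.Z ^ i * (o.Z ^ m * o.D ^ j) := by
      rw [← hWv, hg1, show W * g * W⁻¹ * (W * v * W⁻¹) * (W * g * W⁻¹)⁻¹ = W * (g * v * g⁻¹) * W⁻¹ by
        group, h, ← mul_assoc, o.Z_pow_comm, mul_assoc, mul_assoc, mul_assoc]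
    apply mul_left_cancel (a := o.Z ^ m)
    calc o.Z ^ m * (g1 * o.D ^ j * g1⁻¹) = g1 * o.Z ^ m * (o.D ^ j * g1⁻¹) := by
          rw [o.Z_pow_comm m g1]; simp only [mul_assoc]
      _ = g1 * (o.Z ^ m * o.D ^ j) * g1⁻¹ := by simp only [mul_assoc]
      _ = o.Z ^ i * (o.Z ^ m * o.D ^ j) := e
      _ = o.Z ^ m * (o.Z ^ i * o.D ^ j) := by rw [← mul_assoc, o.Z_pow_comm m, mul_assoc]
  obtain ⟨k, hk⟩ := D_of_pow hj h1
  have hg1R := hH.cc_D hN (mul_mem (mul_mem hWH hg) (inv_mem hWH)) hk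
  exact (Subgroup.mem_normalizer_iff.mp hWN g).mpr hg1R

/-- Three-elements normalising `R` lie in it. -/
theorem normalizer_three (hN : HasNbr o H) {g : GL (Fin 3) F} (hg : g ∈ H)
    (hgN : g ∈ Cfsg.Geo.subgroupNormalizer o.R) {n : ℕ} (hg3 : g ^ 3 ^ n = 1) : g ∈ o.R := by
  classical
  haveI : Fact (Nat.Prime 3) := ⟨Nat.prime_three⟩
  set π := QuotientGroup.mk' o.Zc with hπ
  set V := o.R.map π with hV
  set T := Subgroup.zpowers (π g) with hT
  have hTp : IsPGroup 3 T := by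
    intro x
    refine ⟨n, ?_⟩
    obtain ⟨k, hk⟩ := Subgroup.mem_zpowers_iff.mp x.2
    apply Subtype.ext
    have h3 : (π g) ^ 3 ^ n = 1 := by rw [← map_pow, hg3, map_one]
    rw [SubgroupClass.coe_pow, Subgroup.coe_one, ← hk, ← zpow_natCast, ← _root_.zpow_mul, mul_comm,
      _root_.zpow_mul, zpow_natCast, h3, _root_.one_zpow]
  have hgV : π g ∈ Subgroup.normalizer (V : Set (GL (Fin 3) F ⧸ o.Zc)) := by
    rw [Subgroup.mem_normalizer_iff]
    intro v
    constructor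
    · rintro ⟨r, hr, rfl⟩
      exact ⟨_, (Subgroup.mem_normalizer_iff.mp hgN r).mp hr, by simp⟩
    · rintro ⟨r, hr, hre⟩
      refine ⟨g⁻¹ * r * g, (Subgroup.mem_normalizer_iff.mp hgN _).mpr (by simpa [mul_assoc] using hr), ?_⟩
      simp only [map_mul, map_inv, hre]
      group
  have hTV : T ≤ Subgroup.normalizer (V : Set (GL (Fin 3) F ⧸ o.Zc)) := Subgroup.zpowers_le.mpr hgV
  letI act : MulAction T V :=
    { smul := fun x v => ⟨x * v * x⁻¹, (Subgroup.mem_normalizer_iff.mp (hTV x.2) v).mp v.2⟩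
      one_smul := fun v => Subtype.ext (by show (1 : GL (Fin 3) F ⧸ o.Zc) * v * 1⁻¹ = v; simp)
      mul_smul := fun x y v => Subtype.ext (by
        show ((x * y : T) : GL (Fin 3) F ⧸ o.Zc) * v * ((x * y : T) : GL (Fin 3) F ⧸ o.Zc)⁻¹ =
          x * (y * v * y⁻¹) * x⁻¹
        rw [Subgroup.coe_mul, _root_.mul_inv_rev]; simp only [mul_assoc, Subgroup.coe_inv]; try rfl) }
  have hdvd : 3 ∣ Nat.card V := by
    have hDV : π o.D ∈ V := ⟨o.D, o.D_mem, rfl⟩
    have ho : orderOf (π o.D) = 3 := by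
      refine orderOf_eq_prime (by rw [← map_pow, o.D_cube, map_one]) fun h => ?_
      rw [hπ, QuotientGroup.mk'_apply, QuotientGroup.eq_one_iff, o.D_eq, o.nf_mem_Zc_iff] at h
      norm_num at h
    exact (dvd_of_eq ho.symm).trans (Subgroup.orderOf_dvd_natCard V hDV)
  have h1 : (1 : V) ∈ MulAction.fixedPoints T V := fun x => Subtype.ext (by
    show (x : GL (Fin 3) F ⧸ o.Zc) * 1 * (x : GL (Fin 3) F ⧸ o.Zc)⁻¹ = 1
    simp)
  obtain ⟨w, hw, hw1⟩ := hTp.exists_fixed_point_of_prime_dvd_card_of_fixed_point V hdvd h1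
  obtain ⟨v, hv, hvw⟩ := w.2
  have hvZ : v ∉ o.Zc := fun h => hw1 (Subtype.ext (by
    rw [← hvw, hπ, QuotientGroup.mk'_apply, (QuotientGroup.eq_one_iff v).mpr h]; rfl))
  have h2 := congrArg Subtype.val (hw ⟨π g, Subgroup.mem_zpowers _⟩)
  change π g * (w : GL (Fin 3) F ⧸ o.Zc) * (π g)⁻¹ = w at h2
  rw [← hvw, ← map_inv, ← map_mul, ← map_mul] at h2
  have h3 : v⁻¹ * (g * v * g⁻¹) ∈ o.Zc := QuotientGroup.eq.mp h2.symm
  obtain ⟨i, hi⟩ := o.mem_Zc_iff.mp h3
  exact hH.cc hN hv hvZ hg (i := i) (by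
    rw [← o.Z_pow_comm, ← hi, ← mul_assoc, mul_inv_cancel, one_mul])

/-- `R` is a Sylow subgroup. -/
theorem sylow (hN : HasNbr o H) : ∃ P : Sylow 3 H, (P : Subgroup H) = o.R.subgroupOf H := by
  classical
  haveI : Fact (Nat.Prime 3) := ⟨Nat.prime_three⟩
  set R' := o.R.subgroupOf H with hR'
  have hc : Nat.card R' = 3 ^ 3 := by
    rw [hR', Nat.card_congr (Subgroup.subgroupOfEquivOfLe hH.R_le).toEquiv, o.card_R]; norm_num
  obtain ⟨P, hP⟩ := (IsPGroup.of_card hc).exists_le_sylow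
  refine ⟨P, ?_⟩
  by_contra hne
  have hlt : R'.subgroupOf (P : Subgroup H) < ⊤ := lt_top_iff_ne_top.mpr fun h =>
    hne (le_antisymm (Subgroup.subgroupOf_eq_top.mp h) hP)
  haveI := P.2.isNilpotent
  obtain ⟨x, hx, hxn⟩ := SetLike.exists_of_lt (Group.normalizerCondition_of_isNilpotent _ hlt)
  obtain ⟨n, hn⟩ := P.2 x
  refine hxn ?_
  refine hH.normalizer_three hN (g := ((x : H) : GL (Fin 3) F)) (x : H).2 ?_ (n := n) ?_
  · rw [Cfsg.Geo.subgroupNormalizer, Subgroup.mem_normalizer_iff]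
    intro r
    constructor
    · intro hr
      exact (Subgroup.mem_normalizer_iff.mp hx ⟨⟨r, hH.R_le hr⟩, hP hr⟩).mp hr
    · intro hr
      let rc : P := ⟨⟨_, hH.R_le hr⟩, hP hr⟩
      have h := (Subgroup.mem_normalizer_iff.mp hx (x⁻¹ * rc * x)).mpr (by
        rw [show x * (x⁻¹ * rc * x) * x⁻¹ = rc by group]; exact hr)
      have h' : ((x : H) : GL (Fin 3) F)⁻¹ * (((x : H) : GL (Fin 3) F) * r * ((x : H) : GL (Fin 3) F)⁻¹) *
          ((x : H) : GL (Fin 3) F) ∈ o.R := h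
      rwa [show ((x : H) : GL (Fin 3) F)⁻¹ * (((x : H) : GL (Fin 3) F) * r * ((x : H) : GL (Fin 3) F)⁻¹) *
          ((x : H) : GL (Fin 3) F) = r by group] at h'
  · have h := congrArg (fun y : P => (((y : H)) : GL (Fin 3) F)) hn
    simpa using h

/-- A three-element commuting with an involution is central. -/
theorem three_central (hN : HasNbr o H) {x : GL (Fin 3) F} (hx : x ∈ H) {n : ℕ}
    (hx3 : x ^ 3 ^ n = 1) {s : GL (Fin 3) F} (hs : s ∈ H) (h2 : s * s = 1) (h1 : s ≠ 1)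
    (hxs : x * s = s * x) : x ∈ o.Zc := by
  classical
  haveI : Fact (Nat.Prime 3) := ⟨Nat.prime_three⟩
  by_contra hxZ
  obtain ⟨P, hP⟩ := hH.sylow hN
  have hp : IsPGroup 3 (Subgroup.zpowers (⟨x, hx⟩ : H)) := by
    intro y
    refine ⟨n, ?_⟩
    obtain ⟨k, hk⟩ := Subgroup.mem_zpowers_iff.mp y.2
    apply Subtype.ext
    have h3 : (⟨x, hx⟩ : H) ^ 3 ^ n = 1 := Subtype.ext (by simpa using hx3)
    rw [SubgroupClass.coe_pow, Subgroup.coe_one, ← hk, ← zpow_natCast, ← _root_.zpow_mul, mul_comm,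
      _root_.zpow_mul, zpow_natCast, h3, _root_.one_zpow]
  obtain ⟨Q, hQ⟩ := hp.exists_le_sylow
  obtain ⟨y, hy⟩ := MulAction.exists_smul_eq H Q P
  have hyx : (y : GL (Fin 3) F) * x * (y : GL (Fin 3) F)⁻¹ ∈ o.R := by
    have h := Sylow.coe_subgroup_smul (g := y) (P := Q)
    rw [hy, hP] at h
    have hm : y * ⟨x, hx⟩ * y⁻¹ ∈ (MulAut.conj y • (Q : Subgroup H)) :=
      Subgroup.smul_mem_pointwise_smul _ _ _ (hQ (Subgroup.mem_zpowers _))
    rw [← h] at hm
    exact hm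
  have hnZ : (y : GL (Fin 3) F) * x * (y : GL (Fin 3) F)⁻¹ ∉ o.Zc := fun h => hxZ (by
    have := o.Zc_normal.conj_mem _ h (y : GL (Fin 3) F)⁻¹
    simpa [mul_assoc] using this)
  obtain ⟨W, hWH, -, m, j, hj, hWv⟩ := hH.conj_noncentral hyx hnZ
  set u := W * (y : GL (Fin 3) F) with hu
  have huH : u ∈ H := mul_mem hWH y.2
  have hconj : u * x * u⁻¹ = o.Z ^ m * o.D ^ j := by rw [← hWv, hu]; group
  have hs' : u * s * u⁻¹ ∈ H := mul_mem (mul_mem huH hs) (inv_mem huH)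
  have hj1 : u * s * u⁻¹ * o.D ^ j * (u * s * u⁻¹)⁻¹ = o.Z ^ 0 * o.D ^ j := by
    have e : u * s * u⁻¹ * (o.Z ^ m * o.D ^ j) = o.Z ^ m * o.D ^ j * (u * s * u⁻¹) := by
      rw [← hconj, show u * s * u⁻¹ * (u * x * u⁻¹) = u * (s * x) * u⁻¹ by group, ← hxs]
      group
    rw [mul_inv_eq_iff_eq_mul, pow_zero, one_mul]
    apply mul_left_cancel (a := o.Z ^ m)
    rw [← mul_assoc, ← o.Z_pow_comm m (u * s * u⁻¹), mul_assoc, e, mul_assoc]
  obtain ⟨k, hk⟩ := D_of_pow hj hj1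
  refine hH.no_inv_comm_D hs' ?_ ?_ hk
  · rw [show u * s * u⁻¹ * (u * s * u⁻¹) = u * (s * s) * u⁻¹ by group, h2, mul_one, mul_inv_cancel]
  · intro h
    exact h1 (conj_eq_one_iff.mp h)

end C6Hyp

end CfsgLib.Geometric.SLThree
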