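import Cfsg.Agent.Lib.Geometric.SLThree.Sylow3
import Cfsg.Agent.Lib.Geometric.SLThree.GroupTenMain
import Cfsg.Agent.Lib.Geometric.SLThree.Five

/-!
A conjugate of the inverting involution commuting with it leads to an element of order five
conjugate to its square, which is impossible in dimension three.
-/

set_option autoImplicit false
set_option linter.unusedSectionVars false
set_option linter.style.haveILetI false

namespace CfsgLib.Geometric.SLThree

open Matrix MulAction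

variable {F : Type*} [Field F] [Finite F]

namespace Centred

variable {H : Subgroup (GL (Fin 3) F)} (L : Centred H)

lemma eq_of_res {x y : L.X} (h : ∀ z, L.ρ x z = L.ρ y z)
    (hc : ap (x : GL (Fin 3) F) L.A.c = ap (y : GL (Fin 3) F) L.A.c) : x = y := by
  refine Subtype.ext (gl_ext_hom L.A.φ_c hc fun z hz => ?_)
  have h1 := h (Axis.up L.K (L.A.coord z))
  rw [Axis.rep_apply, Axis.rep_apply, Axis.resK_up, Axis.resK_up, Axis.res_apply, Axis.res_apply,
    L.A.emb_coord z hz] at h1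
  have h2 := congrArg L.A.emb (Axis.up_inj L.K h1)
  rwa [L.A.emb_coord _ (L.maps_axis x.2 hz), L.A.emb_coord _ (L.maps_axis y.2 hz)] at h2

/-- A pair of lines of the axis permuted by the centraliser. -/
theorem exists_lines (h3 : ¬ 3 ∣ Nat.card (PImage L.ρ)) : ∃ v w : Fin 2 → L.K,
    LinearIndependent L.K ![v, w] ∧ ∀ g : L.X, (IsEig L.ρ g v ∧ IsEig L.ρ g w) ∨
      ((∃ a : L.K, L.ρ g v = a • w) ∧ ∃ b : L.K, L.ρ g w = b • v) := by
  haveI := L.finite_pts
  obtain ⟨l, hl⟩ := L.twoPoint.exists_pair h3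
  obtain ⟨⟨m, hm⟩, hml⟩ : ∃ m : orbit (PImage L.ρ) l, m ≠ ⟨l, mem_orbit_self l⟩ := by
    haveI : Nontrivial (orbit (PImage L.ρ) l) := Finite.one_lt_card_iff_nontrivial.mp (by omega)
    exact exists_ne _
  have hlm : l ≠ m := fun e => hml (Subtype.ext e.symm)
  have hO := TwoPoint.pair_eq hl (mem_orbit_self l) hm hlm
  obtain ⟨-, v, -, hv0, -, hlv⟩ := l.2
  obtain ⟨-, w, -, hw0, -, hmw⟩ := m.2
  refine ⟨v, w, ?_, fun g => ?_⟩
  · rw [LinearIndependent.pair_iff' hv0]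
    intro c hc
    apply hlm
    apply Subtype.ext
    rw [hlv, hmw, ← hc, Submodule.span_singleton_smul_eq (IsUnit.mk0 c fun e => hw0 (by rw [← hc, e, zero_smul]))]
  have hm' : g • m = l ∨ g • m = m := by
    obtain ⟨δ, hδ⟩ := hm
    have : g • m ∈ orbit (PImage L.ρ) l := ⟨img L.ρ g * δ, by
      show (img L.ρ g * δ) • l = _
      rw [mul_smul, show δ • l = m from hδ]; rfl⟩
    rw [hO] at this
    exact this
  have hl' : g • l = l ∨ g • l = m := by
    have : g • l ∈ orbit (PImage L.ρ) l := ⟨img L.ρ g, rfl⟩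
    rw [hO] at this
    exact this
  have moves : ∀ {p q : Pts L.ρ} {x y : Fin 2 → L.K}, p.1 = Submodule.span L.K {x} →
      q.1 = Submodule.span L.K {y} → g • p = q → ∃ a : L.K, L.ρ g x = a • y := by
    intro p q x y hp hq h
    have h1 : L.ρ g x ∈ (g • p).1 := ⟨x, hp ▸ Submodule.mem_span_singleton_self x, rfl⟩
    rw [h, hq] at h1
    obtain ⟨a, ha⟩ := Submodule.mem_span_singleton.mp h1
    exact ⟨a, ha.symm⟩
  rcases hl' with h | h
  · left
    refine ⟨moves hlv hlv h, ?_⟩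
    rcases hm' with h' | h'
    · exact absurd (smul_left_cancel g (h.trans h'.symm)) hlm
    · exact moves hmw hmw h'
  · right
    refine ⟨moves hlv hmw h, ?_⟩
    rcases hm' with h' | h'
    · exact moves hmw hlv h'
    · exact absurd (smul_left_cancel g (h.trans h'.symm)) hlm

end Centred

namespace C6Hyp

variable {o : Omega F} {H : Subgroup (GL (Fin 3) F)} (hH : C6Hyp o H)
include hH

omit hH in
lemma eq_of_involutions {u u' : GL (Fin 3) F} (hu : u * u = 1) (hu' : u' * u' = 1) {i : ℕ}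
    (h : u = o.Z ^ i * u') : u = u' := by
  rw [h, Z_mul_sq, hu', mul_one, pow_add] at hu
  rw [h, eq_one_of_Z_sq hu, one_mul]

omit hH in
lemma comm_of_mod {u x : GL (Fin 3) F} (hu : u * u = 1)
    (h : (x * u)⁻¹ * (u * x) ∈ o.Zc) : x * u = u * x := by
  obtain ⟨i, hi⟩ := o.mem_Zc_iff.mp h
  rw [inv_mul_eq_iff_eq_mul, o.Z_pow_comm] at hi
  have h2 : x⁻¹ * u * x * (x⁻¹ * u * x) = 1 := by
    rw [show x⁻¹ * u * x * (x⁻¹ * u * x) = x⁻¹ * (u * u) * x by group, hu, mul_one, inv_mul_cancel]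
  have h3 : x⁻¹ * u * x = o.Z ^ i * u := by
    rw [mul_assoc, hi, ← mul_assoc, o.Z_pow_comm, mul_assoc, ← mul_assoc x⁻¹, inv_mul_cancel, one_mul]
  have := eq_of_involutions h2 hu h3
  rw [mul_assoc, inv_mul_eq_iff_eq_mul] at this
  exact this.symm

/-- No element of order three centralises the inverting involution modulo scalars. -/
lemma no_three_X (hN : HasNbr o H) {x : GL (Fin 3) F} (hx : x ∈ H) (hxt : x * o.t = o.t * x)
    (h3 : x ^ 3 ∈ o.Zc) : x ∈ o.Zc := by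
  obtain ⟨i, hi⟩ := o.mem_Zc_iff.mp h3
  refine hH.three_central hN hx (n := 2) ?_ hH.t_mem o.t_sq (o.t_isHom.ne_one o.two) hxt
  · rw [show 3 ^ 2 = 3 * 3 from rfl, pow_mul, hi, ← pow_mul, mul_comm, pow_mul, o.Z_cube, one_pow]

lemma central_of_scalar {x : hH.L0.X} {α : F} (hc : ap (x : GL (Fin 3) F) o.c0 = α • o.c0)
    (hs : ∀ z, hH.L0.ρ x z = algebraMap F hH.L0.K α • z) : (x : GL (Fin 3) F) ∈ o.Zc := by
  have hsc : IsSc hH.L0.ρ x := ⟨_, hs⟩
  obtain ⟨i, e | e⟩ := hH.scalar_cases hsc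
  · exact o.mem_Zc_iff.mpr ⟨i, e⟩
  exfalso
  have hZ : ∀ y, ap (o.Z ^ i) y = o.w ^ i • y := fun y => by
    rw [o.Z_dg.pow i]; funext j; fin_cases j <;> simp
  rw [e, ap_mul, o.t_isHom.ap_c, hZ] at hc
  have hα : o.w ^ i = α := smul_left_injective F o.t_isHom.c_ne hc
  have hA : hH.L0.A.φ (![1, 0, 0] : Fin 3 → F) = 0 := by
    show o.φ0 _ = 0
    simp [Omega.φ0_apply]
  have h1 := hs (Axis.up hH.L0.K (hH.L0.A.coord ![1, 0, 0]))
  rw [Axis.rep_apply, Axis.resK_up, Axis.res_apply, hH.L0.A.emb_coord _ hA, e, ap_mul,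
    o.t_isHom.ap_ker (show o.φ0 _ = 0 from hA), hZ, hα, smul_neg, map_neg, map_smul] at h1
  rw [← neg_one_smul F (α • _), smul_smul, Axis.up_smul] at h1
  have h2 := smul_left_injective hH.L0.K
    (Axis.up_ne_zero hH.L0.K (hH.L0.A.coord_ne_zero hA (by intro h; simpa using congrFun h 0))) h1
  have h3 := (algebraMap F hH.L0.K).injective h2
  have hα0 : α ≠ 0 := hα ▸ pow_ne_zero i o.ne_zero
  exact o.two (mul_right_cancel₀ hα0 (by linear_combination -h3))

lemma pimage_no_three (hN : HasNbr o H) : ¬ 3 ∣ Nat.card (PImage hH.L0.ρ) := by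
  intro h
  haveI := hH.L0.finite_pts
  haveI : Fact (Nat.Prime 3) := ⟨Nat.prime_three⟩
  obtain ⟨γ, hγ⟩ := exists_prime_orderOf_dvd_card' 3 h
  obtain ⟨x, rfl⟩ := img_surjective hH.L0.ρ γ
  have hxt : (x : GL (Fin 3) F) * o.t = o.t * x := (hH.L0.mem_X.mp x.2).2
  have h3 : IsSc hH.L0.ρ (x ^ 3) := by
    rw [← hH.L0.img_eq_one, img_pow]
    exact orderOf_dvd_iff_pow_eq_one.mp (dvd_of_eq hγ)
  obtain ⟨i, hi⟩ : ∃ i, ((x : GL (Fin 3) F) ^ 2) ^ 3 = o.Z ^ i := by
    obtain ⟨i, e | e⟩ := hH.scalar_cases h3 <;> rw [SubgroupClass.coe_pow] at e <;>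
      refine ⟨i + i, ?_⟩ <;> rw [← pow_mul, mul_comm, pow_mul, e, pow_two]
    · rw [pow_add]
    · rw [Z_mul_sq, o.t_sq, mul_one]
  have hz := hH.no_three_X hN (pow_mem x.2.1 2) (Commute.pow_left hxt 2).eq
    (o.mem_Zc_iff.mpr ⟨i, hi⟩)
  obtain ⟨k, hk⟩ := o.mem_Zc_iff.mp hz
  have h2 : img hH.L0.ρ x ^ 2 = 1 := by
    rw [← img_pow, hH.L0.img_eq_one, hH.L0.isSc_iff]
    refine ⟨o.w ^ k, fun y _ => ?_⟩
    rw [SubgroupClass.coe_pow, hk, o.Z_dg.pow k]
    funext j; fin_cases j <;> simp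
  have := orderOf_dvd_of_pow_eq_one h2
  rw [hγ] at this
  norm_num at this

end C6Hyp

end CfsgLib.Geometric.SLThree
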