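import Cfsg.Agent.Lib.Geometric.LinearUnitary
import Cfsg.Agent.Lib.Geometric.SLThree.Homology

/-!
The similarity group of a unitary form in three variables is maximal in the special linear group.
-/

namespace CfsgLib.Geometric.SLThree

open Matrix

namespace Herm

open CfsgLib.Geometric.Unitary

variable {F : Type*} [Field F] [Finite F] {σ : F ≃+* F}
  {f : (Fin 3 → F) → (Fin 3 → F) → F} (hf : IsSkewForm σ f)
include hf

/-- Expansion along an isotropic pair and an orthogonal anisotropic vector. -/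
lemma expand {u w a : Fin 3 → F} (hu : f u u = 0) (hw : f w w = 0) (hwu : f w u ≠ 0)
    (ha : f a a ≠ 0) (hua : f u a = 0) (hwa : f w a = 0) (x : Fin 3 → F) :
    x = (f x w / f u w) • u + (f x u / f w u) • w + (f x a / f a a) • a := by
  have huw : f u w ≠ 0 := hwu ∘ (eq_zero_comm hf).mp
  have hau := (eq_zero_comm hf).mp hua
  have haw := (eq_zero_comm hf).mp hwa
  have hli : LinearIndependent F ![u, w, a] := by
    rw [Fintype.linearIndependent_iff]
    intro g hg
    simp [Fin.sum_univ_three] at hg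
    have h0 := congrArg (fun y => f y u) hg
    have h1 := congrArg (fun y => f y w) hg
    have h2 := congrArg (fun y => f y a) hg
    simp [hf.add_left, hf.smul_left, zero_left hf, hu, hw, hwu, huw, ha, hua, hwa, hau, haw]
      at h0 h1 h2
    intro i
    fin_cases i <;> assumption
  have htop : Submodule.span F (Set.range ![u, w, a]) = ⊤ :=
    hli.span_eq_top_of_card_eq_finrank (by simp)
  have hx : x ∈ Submodule.span F (Set.range ![u, w, a]) := htop ▸ Submodule.mem_top
  obtain ⟨g, hg⟩ := (Submodule.mem_span_range_iff_exists_fun F).mp hx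
  simp [Fin.sum_univ_three] at hg
  rw [← hg]
  simp [hf.add_left, hf.smul_left, hu, hw, hwu, huw, ha, hua, hwa, hau, haw]

lemma span_nondegenerate {a : Fin 3 → F} (ha : f a a ≠ 0) :
    Cfsg.Geo.IsNondegenerateOn f (Submodule.span F {a}) := by
  intro x hx hx0
  obtain ⟨c, rfl⟩ := Submodule.mem_span_singleton.mp hx
  have hc : c ≠ 0 := fun h => hx0 (by rw [h, zero_smul])
  have haU : a ∈ Submodule.span F {a} := Submodule.mem_span_singleton_self a
  refine ⟨⟨a, haU, ?_⟩, ⟨a, haU, ?_⟩⟩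
  · rw [smul_right hf]
    exact mul_ne_zero ((EmbeddingLike.map_ne_zero_iff (f := σ)).mpr hc) ha
  · rw [hf.smul_left]; exact mul_ne_zero hc ha

lemma finrank_perp {a : Fin 3 → F} (ha : f a a ≠ 0) :
    Module.finrank F (perp hf (Submodule.span F {a})) = 2 := by
  have h1 := finrank_add_perp hf (span_nondegenerate hf ha)
  have ha0 : a ≠ 0 := fun h => ha (by rw [h, zero_left hf])
  rw [finrank_span_singleton ha0, Fintype.card_fin] at h1
  omega

/-- An isotropic pair orthogonal to an anisotropic vector. -/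
lemma exists_pair {a : Fin 3 → F} (ha : f a a ≠ 0) :
    ∃ u w, f u u = 0 ∧ f w w = 0 ∧ f w u ≠ 0 ∧ f u a = 0 ∧ f w a = 0 := by
  have hP := perp_nondegenerate hf (span_nondegenerate hf ha)
  obtain ⟨u, hu, hu0, huu⟩ := exists_isotropic hf hP (by rw [finrank_perp hf ha])
  obtain ⟨p, hp, hpu⟩ := (hP u hu hu0).1
  obtain ⟨l, hl⟩ := exists_isotropic_shift hf huu hpu
  refine ⟨u, p + l • u, huu, hl, ?_, (mem_perp_span hf).mp hu, (mem_perp_span hf).mp ?_⟩
  · rwa [hf.add_left, hf.smul_left, huu, mul_zero, add_zero]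
  · exact Submodule.add_mem _ hp (Submodule.smul_mem _ _ hu)

/-- Every vector is a sum of two isotropic ones. -/
lemma exists_sum (x : Fin 3 → F) : ∃ v₁ v₂, f v₁ v₁ = 0 ∧ f v₂ v₂ = 0 ∧ x = v₁ + v₂ := by
  by_cases hx : f x x = 0
  · exact ⟨x, 0, hx, zero_left hf 0, (add_zero x).symm⟩
  obtain ⟨e, he, hee⟩ := exists_anisotropic hf (perp_nondegenerate hf (span_nondegenerate hf hx))
    (fun hb => by
      have := finrank_perp hf hx
      rw [hb, finrank_bot] at this
      omega)
  obtain ⟨v₁, v₂, -, -, h₁, h₂, h₃⟩ := exists_isotropic_add hf (S := ⊤) (x := x) (e := e) trivial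
    trivial hee ((eq_zero_comm hf).mp ((mem_perp_span hf).mp he))
  exact ⟨v₁, v₂, h₁, h₂, h₃⟩

/-- An isotropic vector orthogonal to neither of two isotropic ones. -/
lemma connect {u w : Fin 3 → F} (hu : f u u = 0) (hw : f w w = 0) (hu0 : u ≠ 0) (hw0 : w ≠ 0) :
    ∃ z, f z z = 0 ∧ f z u ≠ 0 ∧ f z w ≠ 0 := by
  have hA : ∀ z, z ≠ 0 → ¬ (⊤ : Submodule F (Fin 3 → F)) ≤ LinearMap.ker (fl hf z) := by
    intro z hz hle
    obtain ⟨p, hp⟩ := (hf.nondegenerate z hz).1
    exact hp (by simpa using hle (Submodule.mem_top (x := p)))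
  obtain ⟨p, -, hpu, hpw⟩ := exists_mem_notMem_notMem (hA u hu0) (hA w hw0)
  simp only [LinearMap.mem_ker, fl_apply] at hpu hpw
  by_cases huw : f u w = 0
  · obtain ⟨l, hl⟩ := exists_isotropic_shift hf hu hpu
    refine ⟨_, hl, ?_, ?_⟩
    · rwa [hf.add_left, hf.smul_left, hu, mul_zero, add_zero]
    · rwa [hf.add_left, hf.smul_left, huw, mul_zero, add_zero]
  · refine ⟨σ (f u w) • u + w, ?_, ?_, ?_⟩
    · simp only [hf.add_left, add_right hf, hf.smul_left, smul_right hf, hu, hw, hf.skew w u,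
        hf.involutive]
      ring
    · rw [hf.add_left, hf.smul_left, hu, mul_zero, zero_add]
      exact huw ∘ (eq_zero_comm hf).mp
    · rw [hf.add_left, hf.smul_left, hw, add_zero]
      exact mul_ne_zero ((EmbeddingLike.map_ne_zero_iff (f := σ)).mpr huw) huw

/-- A vector orthogonal to an isotropic one is anisotropic unless it is a multiple of it. -/
lemma aniso_of_perp {v b : Fin 3 → F} (hv : f v v = 0) (hv0 : v ≠ 0) (hbv : f b v = 0)
    (hb : ∀ t : F, b ≠ t • v) : f b b ≠ 0 := by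
  intro hbb
  obtain ⟨p, hp⟩ := (hf.nondegenerate v hv0).1
  obtain ⟨l, hl⟩ := exists_isotropic_shift hf hv hp
  set z := p + l • v
  have hzv : f z v ≠ 0 := by rwa [hf.add_left, hf.smul_left, hv, mul_zero, add_zero]
  obtain ⟨a, -, haa, hva, hza⟩ := exists_anisotropic_perp_pair hf (top_nondegenerate hf)
    (by simp) (x := v) (y := z) trivial trivial hv hl (hzv ∘ (eq_zero_comm hf).mp)
  have he := expand hf hv hl hzv haa hva hza b
  rw [hbv, zero_div, zero_smul, add_zero] at he
  set α := f b z / f v z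
  set γ := f b a / f a a
  clear_value α γ
  rw [he] at hbb
  simp only [hf.add_left, add_right hf, hf.smul_left, smul_right hf, hv, hva,
    (eq_zero_comm hf).mp hva, mul_zero, zero_add, add_zero] at hbb
  have hγ : γ = 0 := by
    rcases mul_eq_zero.mp hbb with h | h
    · exact h
    · rcases mul_eq_zero.mp h with h | h
      · exact (EmbeddingLike.map_eq_zero_iff (f := σ)).mp h
      · exact absurd h haa
  exact hb α (by rw [he, hγ, zero_smul, add_zero])

omit hf in
/-- The transvection `x ↦ x + f(x, b) a` lies in `H`. -/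
def InH (hf : IsSkewForm σ f) (H : Subgroup (GL (Fin 3) F)) (a b : Fin 3 → F) : Prop :=
  ∃ h : fl hf b a = 0, tv a (fl hf b) h ∈ H

variable {H : Subgroup (GL (Fin 3) F)}

lemma InH.congr {a b a' b' : Fin 3 → F} (h : InH hf H a b) (h0 : f a' b' = 0)
    (he : ∀ x, f x b • a = f x b' • a') : InH hf H a' b' := by
  obtain ⟨h1, hm⟩ := h
  refine ⟨h0, ?_⟩
  convert hm using 1
  exact tv_eq_tv _ _ fun x => (he x).symm

lemma InH.sub {a b b' : Fin 3 → F} (h : InH hf H a b) (h' : InH hf H a b') :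
    InH hf H a (b - b') := by
  obtain ⟨h0, hm⟩ := h
  obtain ⟨h0', hm'⟩ := h'
  rw [fl_apply] at h0 h0'
  refine ⟨by rw [fl_apply, sub_right hf, h0, h0', sub_zero], ?_⟩
  convert mul_mem hm (inv_mem hm') using 1
  apply gl_ext
  intro x
  simp only [tv_inv, ap_mul, ap_tv, fl_apply, LinearMap.neg_apply, sub_right hf, hf.add_left,
    hf.smul_left, h0]
  module

lemma InH.zero {a : Fin 3 → F} : InH hf H a 0 := by
  refine ⟨by simp [zero_right hf], ?_⟩
  convert one_mem H
  exact gl_ext fun x => by simp [zero_right hf]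

lemma InH.add {a b b' : Fin 3 → F} (h : InH hf H a b) (h' : InH hf H a b') :
    InH hf H a (b + b') := by
  have := h.sub hf ((InH.zero hf).sub hf h')
  rwa [zero_sub, sub_neg_eq_add] at this

lemma InH.sub_centre {a a' b : Fin 3 → F} (h : InH hf H a b) (h' : InH hf H a' b) :
    InH hf H (a - a') b := by
  obtain ⟨h0, hm⟩ := h
  obtain ⟨h0', hm'⟩ := h'
  rw [fl_apply] at h0 h0'
  refine ⟨by rw [fl_apply, sub_left hf, h0, h0', sub_zero], ?_⟩
  convert mul_mem hm (inv_mem hm') using 1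
  apply gl_ext
  intro x
  simp only [tv_inv, ap_mul, ap_tv, fl_apply, LinearMap.neg_apply, hf.add_left, hf.smul_left, h0']
  module

lemma InH.comm {a b a' b' : Fin 3 → F} (h : InH hf H a b) (h' : InH hf H a' b')
    (h0 : f a' b = 0) : InH hf H a' (σ (-f a b') • b) := by
  obtain ⟨h1, hm⟩ := h
  obtain ⟨h2, hm'⟩ := h'
  refine ⟨by rw [fl_apply, smul_right hf, h0, mul_zero], ?_⟩
  convert tv_comm_mem hm hm' (by rwa [fl_apply]) using 1
  refine tv_eq_tv _ _ fun x => ?_
  simp [smul_right hf, neg_right hf, hf.involutive]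

variable (hH : sisom hf ≤ H)
include hH

lemma InH.conj {a b : Fin 3 → F} (h : InH hf H a b) {g : GL (Fin 3) F} (hg : g ∈ sisom hf) :
    InH hf H (ap g a) (ap g b) := by
  obtain ⟨h0, hm⟩ := h
  rw [fl_apply] at h0
  refine ⟨by rw [fl_apply, (mem_isom_iff.mp hg.1), h0], ?_⟩
  have := mul_mem (mul_mem (hH hg) hm) (inv_mem (hH hg))
  rw [conj_tv] at this
  convert this using 1
  refine tv_eq_tv _ _ fun x => ?_
  have hx := (mem_isom_iff.mp hg.1) (ap g⁻¹ x) b
  rw [ap_ap_inv] at hx
  simp [hx]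

/-- All transvections at one anisotropic centre suffice. -/
lemma sl_of_centre {a : Fin 3 → F} (ha : f a a ≠ 0) (h : FullCentre H a) :
    Cfsg.Geo.specialLinear (Fin 3) F ≤ H := by
  have step : ∀ x y : Fin 3 → F, f y y = 0 → f x y ≠ 0 → x ∈ centreSubmodule H →
      y ∈ centreSubmodule H := by
    intro x y hy hxy hx
    have h1 : ap (T hf y 1 hy) x ∈ centreSubmodule H :=
      fullCentre_ap (hH (T_mem hf hy (map_one σ))) hx
    rw [ap_T hf, one_mul] at h1
    have h2 := (centreSubmodule H).sub_mem h1 hx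
    rw [add_sub_cancel_left] at h2
    exact (Submodule.smul_mem_iff _ hxy).mp h2
  obtain ⟨v₁, v₂, h₁, h₂, hav⟩ := exists_sum hf a
  obtain ⟨z, hz, haz⟩ : ∃ z, f z z = 0 ∧ f a z ≠ 0 := by
    by_contra hc
    push Not at hc
    apply ha
    conv_lhs => arg 2; rw [hav]
    rw [add_right hf, hc v₁ h₁, hc v₂ h₂, add_zero]
  have hzU := step a z hz haz h
  have hz0 : z ≠ 0 := fun e => haz (by rw [e, zero_right hf])
  refine specialLinear_le_of_fullCentre (S := Set.univ) (by simp) fun x _ => ?_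
  change x ∈ centreSubmodule H
  have hiso : ∀ y, f y y = 0 → y ∈ centreSubmodule H := by
    intro y hy
    by_cases hy0 : y = 0
    · rw [hy0]; exact Submodule.zero_mem _
    obtain ⟨z', hz', hz'z, hz'y⟩ := connect hf hz hy hz0 hy0
    exact step z' y hy hz'y (step z z' hz' (hz'z ∘ (eq_zero_comm hf).mp) hzU)
  obtain ⟨x₁, x₂, e₁, e₂, rfl⟩ := exists_sum hf x
  exact Submodule.add_mem _ (hiso x₁ e₁) (hiso x₂ e₂)

/-- From the two isotropic directions to all multiples of one of them. -/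
lemma line {a u w : Fin 3 → F} {l m : F} (hl : l ≠ 0) (hm : m ≠ 0) (ha : f a a ≠ 0)
    (hu : f u u = 0) (hwu : f w u ≠ 0) (hua : f u a = 0) (hwa : f w a = 0)
    (h1 : InH hf H a (l • u)) (h2 : InH hf H a (m • w)) (r : F) : InH hf H a (r • u) := by
  have hau := (eq_zero_comm hf).mp hua
  have haw := (eq_zero_comm hf).mp hwa
  have hd : m * f w u * f a a * l ≠ 0 := mul_ne_zero (mul_ne_zero (mul_ne_zero hm hwu) ha) hl
  set γ := r / (m * f w u * f a a * l) with hγ
  obtain ⟨c, hc⟩ := exists_sub_eq hf (skew_self hf (γ • a))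
  have hvu : f (γ • a) u = 0 := by rw [hf.smul_left, hau, mul_zero]
  set g := E hf u (γ • a) c hu hvu
  have hg : g ∈ sisom hf := E_mem hf hc
  have hga : ap g a = a + (σ γ * f a a) • u := by
    simp [g, ap_E hf, hau, smul_right hf]
  have hgu : ap g u = u := by simp [g, ap_E hf, hu, hua, smul_right hf]
  have hgw : ap g w = w + (f w u * γ) • a + (c * f w u) • u := by
    simp [g, ap_E hf, hwa, smul_right hf, smul_smul]
  have h3 := h1.comm hf (h2.conj hf hH hg) (by
    rw [hga, smul_right hf, hf.add_left, hf.smul_left, hau, hu]; ring)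
  have h4 := h3.conj hf hH (inv_mem hg)
  have hiu : ap g⁻¹ u = u := by
    conv_lhs => rw [← hgu]
    rw [ap_inv_ap]
  rw [ap_inv_ap, smul_smul, ap_smul g⁻¹, hiu, ap_smul g, hgw] at h4
  simp only [smul_right hf, add_right hf, haw, hau, mul_zero, zero_add, add_zero, map_neg,
    map_mul, hf.involutive, skew_self hf] at h4
  convert h4 using 2
  rw [hγ]
  field_simp

/-- An anisotropic centre. -/
lemma sl_of_aniso {a b : Fin 3 → F} (h : InH hf H a b) (ha : f a a ≠ 0) (hb : b ≠ 0) :
    Cfsg.Geo.specialLinear (Fin 3) F ≤ H := by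
  have hab : f a b = 0 := h.1
  obtain ⟨u, w, hu, hw, hwu, hua, hwa, hbu⟩ : ∃ u w, f u u = 0 ∧ f w w = 0 ∧ f w u ≠ 0 ∧
      f u a = 0 ∧ f w a = 0 ∧ f b u ≠ 0 := by
    obtain ⟨u, w, hu, hw, hwu, hua, hwa⟩ := exists_pair hf ha
    by_cases hbu : f b u = 0
    · refine ⟨w, u, hw, hu, hwu ∘ (eq_zero_comm hf).mp, hwa, hua, fun hbw => hb ?_⟩
      rw [expand hf hu hw hwu ha hua hwa b, hbu, hbw, (eq_zero_comm hf).mp hab]
      simp
    · exact ⟨u, w, hu, hw, hwu, hua, hwa, hbu⟩
  have huw : f u w ≠ 0 := hwu ∘ (eq_zero_comm hf).mp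
  have hau := (eq_zero_comm hf).mp hua
  have haw := (eq_zero_comm hf).mp hwa
  have h1 : InH hf H a (f b u • u) := by
    have h1 := h.conj hf hH (T_mem hf hu (map_one σ))
    rw [ap_T_fix hf hu hau, ap_T hf, one_mul] at h1
    simpa using h1.sub hf h
  have h2 : InH hf H a ((f b u * f u w) • w) := by
    have h2 := h1.conj hf hH (T_mem hf hw (map_one σ))
    rw [ap_T_fix hf hw haw, ap_smul, ap_T hf, one_mul, smul_add, smul_smul] at h2
    simpa using h2.sub hf h1
  have hU := line hf hH hbu (mul_ne_zero hbu huw) ha hu hwu hua hwa h1 h2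
  have hW := line hf hH (mul_ne_zero hbu huw) hbu ha hw huw hwa hua h2 h1
  refine sl_of_centre hf hH ha fun φ hφ => ?_
  obtain ⟨y, rfl⟩ := exists_eq_fl hf φ
  have hay : f a y = 0 := hφ
  obtain ⟨_, hm⟩ : InH hf H a y := by
    rw [expand hf hu hw hwu ha hua hwa y, (eq_zero_comm hf).mp hay, zero_div, zero_smul, add_zero]
    exact (hU _).add hf (hW _)
  exact hm

/-- An isotropic centre and an anisotropic axis point. -/
lemma sl_of_iso {a b : Fin 3 → F} (h : InH hf H a b) (ha : f a a = 0) (ha0 : a ≠ 0)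
    (hb : f b b ≠ 0) : Cfsg.Geo.specialLinear (Fin 3) F ≤ H := by
  have hab : f a b = 0 := h.1
  have hba := (eq_zero_comm hf).mp hab
  obtain ⟨z, hz, hza, hzb⟩ : ∃ z, f z z = 0 ∧ f z a ≠ 0 ∧ f z b = 0 := by
    have hP := perp_nondegenerate hf (span_nondegenerate hf hb)
    have haP : a ∈ perp hf (Submodule.span F {b}) := (mem_perp_span hf).mpr hab
    obtain ⟨p, hp, hpa⟩ := (hP a haP ha0).1
    obtain ⟨l, hl⟩ := exists_isotropic_shift hf ha hpa
    exact ⟨_, hl, by rwa [hf.add_left, hf.smul_left, ha, mul_zero, add_zero],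
      (mem_perp_span hf).mp (Submodule.add_mem _ hp (Submodule.smul_mem _ _ haP))⟩
  have hbz := (eq_zero_comm hf).mp hzb
  have haz : f a z ≠ 0 := hza ∘ (eq_zero_comm hf).mp
  set s := f a z with hs
  have hsz : InH hf H (s • z) b := by
    have h1 := h.conj hf hH (T_mem hf hz (map_one σ))
    rw [ap_T_fix hf hz hbz, ap_T hf, one_mul] at h1
    simpa [hs] using h1.sub_centre hf h
  -- all multiples
  have hline : ∀ r : F, InH hf H a (r • b) := by
    intro r
    have hd : σ s * σ (f z a) * f b b ≠ 0 := mul_ne_zero (mul_ne_zero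
      ((EmbeddingLike.map_ne_zero_iff (f := σ)).mpr haz)
      ((EmbeddingLike.map_ne_zero_iff (f := σ)).mpr hza)) hb
    set γ := σ (r / (σ s * σ (f z a) * f b b)) with hγ
    obtain ⟨c, hc⟩ := exists_sub_eq hf (skew_self hf (γ • b))
    have hvu : f (γ • b) a = 0 := by rw [hf.smul_left, hba, mul_zero]
    set g := E hf a (γ • b) c ha hvu
    have hg : g ∈ sisom hf := E_mem hf hc
    have hga : ap g a = a := by simp [g, ap_E hf, ha, hab, smul_right hf]
    have hgz : ap g z = z + (f z a * γ) • b + (c * f z a) • a := by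
      simp [g, ap_E hf, hzb, smul_right hf, smul_smul]
    have h1 : f a (ap g b) = 0 := by
      nth_rw 1 [← hga]
      rw [(mem_isom_iff.mp hg.1), hab]
    have h3 := ((hsz.conj hf hH hg).comm hf h h1).conj hf hH (inv_mem hg)
    nth_rw 1 [← hga] at h3
    rw [ap_inv_ap, ap_smul g⁻¹, ap_inv_ap, ap_smul, hgz] at h3
    simp only [hf.add_left, hf.smul_left, hzb, hab, mul_zero, zero_add, add_zero, map_neg,
      map_mul, skew_self hf] at h3
    convert h3 using 2
    rw [hγ, hf.involutive]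
    have : σ s ≠ 0 := (EmbeddingLike.map_ne_zero_iff (f := σ)).mpr haz
    have : σ (f z a) ≠ 0 := (EmbeddingLike.map_ne_zero_iff (f := σ)).mpr hza
    field_simp
  obtain ⟨θ, hθ⟩ : ∃ θ, σ θ ≠ θ := by
    by_contra hc
    push Not at hc
    exact hf.ne_refl (RingEquiv.ext hc)
  have hss : σ s ≠ 0 := (EmbeddingLike.map_ne_zero_iff (f := σ)).mpr haz
  set t := θ / (σ s * s) with ht
  have hta : InH hf H ((-t) • a) b := (hline (σ (-t))).congr hf
    (by rw [hf.smul_left, hab, mul_zero])
    fun x => by rw [smul_right hf, hf.involutive, smul_smul, mul_comm]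
  have h5 := hsz.sub_centre hf hta
  refine sl_of_aniso hf hH h5 ?_ fun e => hb (by rw [e, zero_left hf])
  have hW : t * (σ s * s) = θ := div_mul_cancel₀ _ (mul_ne_zero hss haz)
  have hW' : σ t * (s * σ s) = σ θ := by
    rw [← hW, map_mul, map_mul, hf.involutive]
  intro e
  simp only [sub_left hf, sub_right hf, hf.smul_left, smul_right hf, map_neg, ha, hz,
    hf.skew z a, ← hs] at e
  exact hθ (by linear_combination -e + hW - hW')

/-- A subgroup containing the special isometries and more is the special linear group. -/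
lemma specialLinear_le {g : GL (Fin 3) F} (hg : g ∈ H)
    (hgn : g ∉ Cfsg.Geo.similarityGroup f) : Cfsg.Geo.specialLinear (Fin 3) F ≤ H := by
  by_contra hSL
  apply hgn
  obtain ⟨a, ha⟩ : ∃ a, σ a ≠ a := by
    by_contra h
    push Not at h
    exact hf.ne_refl (RingEquiv.ext h)
  set B : (Fin 3 → F) → (Fin 3 → F) → F := fun x y => f (ap g x) (ap g y)
  have hκ : ∀ u, f u u = 0 → u ≠ 0 → ∃ κ, ∀ x, B x u = κ * f x u := by
    intro u hu hu0
    obtain ⟨b, hb⟩ := exists_eq_fl hf ((fl hf u).comp (apEquiv g⁻¹).toLinearMap)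
    have hb' : ∀ x, f (ap g x) b = f x u := fun x => by
      rw [← fl_apply hf, hb]
      simp [ap_inv_ap]
    have hbu : f (ap g u) b = 0 := by rw [hb', hu]
    obtain ⟨p, hp⟩ := (hf.nondegenerate u hu0).1
    have hb0 : b ≠ 0 := fun e => hp (by rw [← hb', e, zero_right hf])
    have h : InH hf H (ap g u) b := by
      refine ⟨hbu, ?_⟩
      have h2 := mul_mem (mul_mem hg (hH (T_mem hf hu (map_one σ)))) (inv_mem hg)
      rw [T, conj_tv] at h2
      convert h2 using 1
      refine tv_eq_tv _ _ fun x => ?_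
      rw [hb]
      simp
    have hgu : f (ap g u) (ap g u) = 0 := by
      by_contra hne
      exact hSL (sl_of_aniso hf hH h hne hb0)
    obtain ⟨t, rfl⟩ : ∃ t : F, b = t • ap g u := by
      by_contra hne
      push Not at hne
      exact hSL (sl_of_iso hf hH h hgu (ap_ne_zero g hu0)
        (aniso_of_perp hf hgu (ap_ne_zero g hu0) ((eq_zero_comm hf).mp hbu) hne))
    have ht : t ≠ 0 := fun e => hb0 (by rw [e, zero_smul])
    refine ⟨(σ t)⁻¹, fun x => ?_⟩
    have := hb' x
    rw [smul_right hf] at this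
    simp only [B]
    rw [← this, inv_mul_cancel_left₀ ((EmbeddingLike.map_ne_zero_iff (f := σ)).mpr ht)]
  choose! κ hκ using hκ
  have hpair : ∀ u w, f u u = 0 → f w w = 0 → u ≠ 0 → w ≠ 0 → f u w ≠ 0 → κ u = σ (κ w) := by
    intro u w hu hw hu0 hw0 hne
    have h1 := hκ w hw hw0 u
    have h2 := hκ u hu hu0 w
    simp only [B] at h1 h2
    rw [hf.skew (ap g w) (ap g u), h1, map_mul, hf.skew w u] at h2
    have hne' : σ (f u w) ≠ 0 := (EmbeddingLike.map_ne_zero_iff (f := σ)).mpr hne
    have h3 : (κ u - σ (κ w)) * σ (f u w) = 0 := by linear_combination h2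
    exact sub_eq_zero.mp ((mul_eq_zero.mp h3).resolve_right hne')
  have hconst : ∀ u w, f u u = 0 → f w w = 0 → u ≠ 0 → w ≠ 0 → κ u = κ w := by
    intro u w hu hw hu0 hw0
    obtain ⟨z, hz, hzu, hzw⟩ := connect hf hu hw hu0 hw0
    have hz0 : z ≠ 0 := fun h => hzu (by rw [h, zero_left hf])
    rw [hpair u z hu hz hu0 hz0 (hzu ∘ (eq_zero_comm hf).mp),
      hpair w z hw hz hw0 hz0 (hzw ∘ (eq_zero_comm hf).mp)]
  obtain ⟨u, -, hu0, hu⟩ := exists_isotropic hf (top_nondegenerate hf) (by simp)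
  have hall : ∀ x y, B x y = κ u * f x y := by
    intro x y
    have key : ∀ v, f v v = 0 → B x v = κ u * f x v := by
      intro v hv
      by_cases hv0 : v = 0
      · simp [B, hv0, ap_zero, zero_right hf]
      · rw [hκ v hv hv0 x, hconst u v hu hv hu0 hv0]
    obtain ⟨v₁, v₂, h₁, h₂, rfl⟩ := exists_sum hf y
    have e1 := key v₁ h₁
    have e2 := key v₂ h₂
    simp only [B] at e1 e2 ⊢
    rw [ap_add, add_right hf, add_right hf, e1, e2, mul_add]
  have hne : κ u ≠ 0 := by
    intro h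
    obtain ⟨x, hx⟩ := (hf.nondegenerate _ (ap_ne_zero g hu0)).1
    apply hx
    have := hall (ap g⁻¹ x) u
    simp only [B] at this
    rwa [ap_ap_inv, h, zero_mul] at this
  exact ⟨Units.mk0 (κ u) hne, hall⟩

omit hH in
/-- The similarities are maximal. -/
lemma similarity_isMaximalIn :
    Cfsg.Geo.IsMaximalIn (Cfsg.Geo.specialLinear (Fin 3) F)
      (Cfsg.Geo.similarityGroup f ⊓ Cfsg.Geo.specialLinear (Fin 3) F) := by
  obtain ⟨u, -, hu0, hu⟩ := exists_isotropic hf (top_nondegenerate hf) (by simp)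
  refine ⟨lt_of_le_of_ne inf_le_right fun he => ?_, fun M hHM hMS => ?_⟩
  · obtain ⟨a, ha⟩ : ∃ a, σ a ≠ a := by
      by_contra h
      push Not at h
      exact hf.ne_refl (RingEquiv.ext h)
    have hm : tv u (a • fl hf u) (smul_fl_self hf hu a) ∈
        Cfsg.Geo.similarityGroup f ⊓ Cfsg.Geo.specialLinear (Fin 3) F := by
      rw [he]; exact tv_mem_specialLinear _ _ _
    obtain ⟨k, hk⟩ := hm.1
    obtain ⟨y, hy⟩ := (hf.nondegenerate u hu0).1
    have hy' : f u y ≠ 0 := hy ∘ (eq_zero_comm hf).mp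
    have h1 := hk u y
    simp only [← ap_def, ap_tv, LinearMap.smul_apply, fl_apply, smul_eq_mul, hu, mul_zero,
      zero_smul, add_zero, add_right hf, smul_right hf] at h1
    have hk1 : (k : F) = 1 := mul_right_cancel₀ hy' (h1.symm.trans (one_mul _).symm)
    have h2 := hk y y
    simp only [← ap_def, ap_tv, LinearMap.smul_apply, fl_apply, smul_eq_mul, hk1, one_mul,
      hf.add_left, add_right hf, hf.smul_left, smul_right hf, map_mul, hu, mul_zero, add_zero] at h2
    rw [hf.skew u y] at h2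
    have hs : σ (f y u) ≠ 0 := (EmbeddingLike.map_ne_zero_iff (f := σ)).mpr hy
    have h3 : f y u * σ (f y u) * (σ a - a) = 0 := by linear_combination h2
    exact ha (sub_eq_zero.mp ((mul_eq_zero.mp h3).resolve_left (mul_ne_zero hy hs)))
  by_cases hM : M ≤ Cfsg.Geo.similarityGroup f
  · exact Or.inl (le_antisymm (le_inf hM hMS) hHM)
  refine Or.inr (le_antisymm hMS ?_)
  obtain ⟨g, hgM, hg⟩ := SetLike.not_le_iff_exists.mp hM
  exact specialLinear_le hf (le_trans (inf_le_inf_right _ (isom_le_similarityGroup f)) hHM) hgM hg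

end Herm

variable {F : Type*} [Field F]

/-- The similarity group of a unitary form is maximal. -/
theorem unitary_isMaximalIn [Fintype F] (σ : F ≃+* F) (f : (Fin 3 → F) → (Fin 3 → F) → F)
    (hf : Cfsg.Geo.IsUnitaryForm σ f) :
    Cfsg.Geo.IsMaximalIn (Cfsg.Geo.specialLinear (Fin 3) F)
      (Cfsg.Geo.similarityGroup f ⊓ Cfsg.Geo.specialLinear (Fin 3) F) := by
  obtain ⟨ζ, hζ, hsk⟩ := exists_skewForm_of_unitary hf
  have hmax := Herm.similarity_isMaximalIn hsk
  rwa [similarityGroup_mul_const hζ] at hmax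

end CfsgLib.Geometric.SLThree
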